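import Cfsg.Agent.Lib.ClassicalForms.Ortho.Omega

/-!
Central extensions of the Siegel group of a quadratic form with equivariant lifts of the Siegel
transformations.
-/

set_option autoImplicit false

namespace CfsgLib.OrthMult

open QuadraticMap CfsgLib.ClassicalForms Module

variable {F V : Type*} [Field F] [AddCommGroup V] [Module F V] {Q : QuadraticForm F V}

/-- An isometry applied to a vector. -/
abbrev ap (g : orth Q) (x : V) : V := (g : V ≃ₗ[F] V) x

theorem ap_ext {g h : orth Q} (e : ∀ x, ap g x = ap h x) : g = h := orth_ext e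

theorem ap_mul (g h : orth Q) (x : V) : ap (g * h) x = ap g (ap h x) := rfl

theorem ap_one (x : V) : ap (1 : orth Q) x = x := rfl

theorem ap_inv_ap (g : orth Q) (x : V) : ap g⁻¹ (ap g x) = x := orth_inv_apply g x

theorem ap_ap_inv (g : orth Q) (x : V) : ap g (ap g⁻¹ x) = x := orth_apply_inv g x

theorem ap_add (g : orth Q) (x y : V) : ap g (x + y) = ap g x + ap g y := map_add _ x y

theorem ap_sub (g : orth Q) (x y : V) : ap g (x - y) = ap g x - ap g y := map_sub _ x y

theorem ap_smul (g : orth Q) (c : F) (x : V) : ap g (c • x) = c • ap g x := map_smul _ c x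

theorem ap_neg (g : orth Q) (x : V) : ap g (-x) = -ap g x := map_neg _ x

theorem ap_zero (g : orth Q) : ap g 0 = 0 := map_zero _

theorem Q_ap (g : orth Q) (x : V) : Q (ap g x) = Q x := orth_apply g x

theorem polar_ap (g : orth Q) (x y : V) : polar Q (ap g x) (ap g y) = polar Q x y := polar_apply g x y

theorem polar_singular_self {u : V} (hu : Q u = 0) : polar Q u u = 0 := by
  rw [polar_self_mul, hu, mul_zero]

theorem ap_siegel {u w : V} (hu : Q u = 0) (hw : polar Q u w = 0) (x : V) :
    ap (siegel Q u w hu hw) x = x + polar Q x u • w - (polar Q x w + Q w * polar Q x u) • u := rfl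

theorem siegel_fix {u w : V} (hu : Q u = 0) (hw : polar Q u w = 0) {x : V} (hxu : polar Q x u = 0)
    (hxw : polar Q x w = 0) : ap (siegel Q u w hu hw) x = x := by
  simp [ap_siegel, hxu, hxw]

variable {Γ : Type*} [Group Γ]

/-- A perfect central extension of the Siegel group, as a map to the isometry group. -/
structure CExt (σ : Γ →* orth Q) : Prop where
  range_eq : σ.range = siegelGroup Q
  central : σ.ker ≤ Subgroup.center Γ
  perfect : commutator Γ = ⊤

theorem CExt.exists_lift {σ : Γ →* orth Q} (E : CExt σ) {g : orth Q} (hg : g ∈ siegelGroup Q) :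
    ∃ x, σ x = g := MonoidHom.mem_range.1 (E.range_eq ▸ hg)

/-- Lifts of the Siegel transformations, additive and equivariant. -/
structure Lifts (σ : Γ →* orth Q) (T : V → V → Γ) : Prop where
  map : ∀ (u w : V) (hu : Q u = 0) (hw : polar Q u w = 0), σ (T u w) = siegel Q u w hu hw
  add : ∀ u w w' : V, Q u = 0 → polar Q u w = 0 → polar Q u w' = 0 → T u w * T u w' = T u (w + w')
  equiv : ∀ (γ : Γ) (u w : V), Q u = 0 → polar Q u w = 0 →
    γ * T u w * γ⁻¹ = T (ap (σ γ) u) (ap (σ γ) w)
  smul : ∀ (c : F) (u w : V), Q u = 0 → polar Q u w = 0 → T (c • u) w = T u (c • w)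
  add_smul : ∀ (c : F) (u w : V), Q u = 0 → polar Q u w = 0 → T u (w + c • u) = T u w
  swap : ∀ u w : V, Q u = 0 → polar Q u w = 0 → Q w = 0 → T w (-u) = T u w

namespace Lifts

variable {σ : Γ →* orth Q} {T : V → V → Γ} (L : Lifts σ T)
include L

theorem right_zero {u : V} (hu : Q u = 0) : T u 0 = 1 := by
  have h0 : polar Q u 0 = 0 := by simp
  have := L.add u 0 0 hu h0 h0
  rw [add_zero] at this
  exact mul_eq_left.1 this

theorem left_zero (w : V) : T 0 w = 1 := by
  have h0 : polar Q (0 : V) w = 0 := by simp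
  have h := L.smul 0 0 w (map_zero Q) h0
  rw [zero_smul, zero_smul] at h
  rw [h, L.right_zero (map_zero Q)]

theorem neg {u w : V} (hu : Q u = 0) (hw : polar Q u w = 0) : T u (-w) = (T u w)⁻¹ :=
  eq_inv_of_mul_eq_one_left (by
    rw [L.add u (-w) w hu (by rw [polar_neg_right, hw, neg_zero]) hw, neg_add_cancel, L.right_zero hu])

theorem conj_inv (γ : Γ) {u w : V} (hu : Q u = 0) (hw : polar Q u w = 0) :
    T u w * γ = γ * T (ap (σ γ)⁻¹ u) (ap (σ γ)⁻¹ w) := by
  have h := L.equiv γ⁻¹ u w hu hw
  rw [map_inv, inv_inv] at h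
  rw [← h]; group

theorem mul_comm' (γ : Γ) {u w : V} (hu : Q u = 0) (hw : polar Q u w = 0) :
    γ * T u w = T (ap (σ γ) u) (ap (σ γ) w) * γ := by
  rw [← L.equiv γ u w hu hw]; group

end Lifts

variable [Finite F] [FiniteDimensional F V]

/-- A section of dimension at least three takes every value. -/
theorem exists_value {k : ℕ} (S : Sec Q k) (hQ : Nondeg Q) (hk : k + 3 ≤ finrank F V) (c : F) :
    ∃ x, S.Mem x ∧ Q x = c := by
  obtain ⟨s, hs0, hQs, hs⟩ := exists_singular_ker Q S.φ hk
  obtain ⟨t, ht, hp⟩ := S.exists_partner hQ hs hQs hs0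
  refine ⟨s + c • t, S.mem_add hs (S.mem_smul _ ht), ?_⟩
  simp [QuadraticMap.map_add ⇑Q, QuadraticMap.map_smul, hp.1, hp.2.1, polar_smul_right, hp.2.2]

/-- Two independent orthogonal singular vectors have a hyperbolic pair orthogonal to both. -/
theorem exists_pair_perp (hQ : Nondeg Q) (hn : 7 ≤ finrank F V) {u w : V} (hu : Q u = 0)
    (huw : polar Q u w = 0) (hw : Q w = 0) (hu0 : u ≠ 0) (hind : ∀ c : F, w ≠ c • u) :
    ∃ x y, IsHypPair Q (x, y) ∧ polar Q u x = 0 ∧ polar Q u y = 0 ∧ polar Q w x = 0 ∧ polar Q w y = 0 :=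
  exists_third_pair hQ hn hu huw hw hu0 hind

end CfsgLib.OrthMult
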