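import Cfsg.Agent.Lib.OrthMult.CellsAction
import Cfsg.Agent.Lib.SchurMult.CentralComm

/-!
Invariance under the exchanging element, and the conclusion of the cell argument.
-/

set_option autoImplicit false
set_option linter.unusedSectionVars false

namespace CfsgLib.OrthMult

open QuadraticMap CfsgLib.ClassicalForms Module
open scoped commutatorElement

variable {F V : Type*} [Field F] [AddCommGroup V] [Module F V] [Finite F] [FiniteDimensional F V]
  {Q : QuadraticForm F V} {Γ : Type*} [Group Γ] {σ : Γ →* orth Q} {T : V → V → Γ} {e f : V}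

namespace Frame

variable (C : Frame σ T e f)
include C

theorem ne_zero_of_ap {g : orth Q} {x : V} (hx0 : x ≠ 0) : ap g x ≠ 0 :=
  fun h => hx0 (by rw [← ap_inv_ap g x, h, ap_zero])

theorem equiv_mul {γ δ : Γ} (hγ : γ ∈ C.equivar) {x : V} (hx : Q x = 0) (hx0 : x ≠ 0)
    (hδ : δ • C.yhat x = C.yhat (ap (σ δ) x)) :
    (γ * δ) • C.yhat x = C.yhat (ap (σ (γ * δ)) x) := by
  rw [mul_smul, hδ, hγ _ (by rw [Q_ap, hx]) (C.ne_zero_of_ap hx0), map_mul]; rfl

theorem yhat_f {b : F} (hb : b ≠ 0) : C.yhat (b • f) = ((nv Q T e f b : Γ) : Γ ⧸ C.para) := by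
  have h := C.yA hb C.mid_zero
  rwa [C.lifts.right_zero C.he, map_one, one_mul, ap_one] at h

/-- The exchanging elements act correctly on the multiples of `e`. -/
theorem n_smul_ye {a : V} (ha : Mid Q e f a) (hq : Q a ≠ 0) {c : F} (hc : c ≠ 0) :
    nlift Q T e f a • C.yhat (c • e) = C.yhat (ap (σ (nlift Q T e f a)) (c • e)) := by
  rw [ap_smul, C.n_e ha hq, smul_smul, show c * -Q a = -(Q a * c) by ring,
    C.yhat_f (neg_ne_zero.2 (mul_ne_zero hq hc)), C.yB, MulAction.Quotient.smul_mk, smul_eq_mul,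
    C.nv_triple ha hq hc]

/-- The key identity. -/
theorem jump {w : V} (hw : Mid Q e f w) (hQw : Q w = 0) (hw0 : w ≠ 0) {c : F} (hc : c ≠ 0) :
    T w (-f) • C.yhat (c • e) = C.yhat (ap (σ (T w (-f))) (c • e)) := by
  have hwf : polar Q w (-f) = 0 := by rw [polar_neg_right, C.mid_left_f hw, neg_zero]
  obtain ⟨a, ha, hQa, hwa⟩ := C.value_perp hw hQw hw0 (-1)
  obtain ⟨b, hb, hQb, hwb⟩ := C.value_perp hw hQw hw0 (-c)
  have hqa : Q a ≠ 0 := by rw [hQa]; exact neg_ne_zero.2 one_ne_zero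
  have hqb : Q b ≠ 0 := by rw [hQb]; exact neg_ne_zero.2 hc
  set t := nlift Q T e f a * nlift Q T e f b with ht
  have htw : ∀ {v : V}, Mid Q e f v → Mid Q e f (ap (σ t) v) := fun hv => by
    rw [ht, map_mul, ap_mul]; exact C.n_preserves ha hqa (C.n_preserves hb hqb hv)
  have hte : ap (σ t) e = c • e := by
    rw [ht, map_mul, ap_mul, C.n_e hb hqb, hQb, neg_neg, ap_smul, C.n_f ha hqa, hQa, inv_neg,
      inv_one, neg_neg, one_smul]
  have htf : ap (σ t) (c • f) = f := by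
    rw [ht, map_mul, ap_mul, ap_smul, C.n_f hb hqb, hQb, inv_neg, neg_neg, smul_smul,
      mul_inv_cancel₀ hc, one_smul, C.n_e ha hqa, hQa, neg_neg, one_smul]
  have hne : ∀ v : V, polar Q v e = 0 → polar Q v f = 0 → polar Q v a = 0 →
      polar Q v b = 0 → ap (σ t) v = v := by
    intro v hve hvf hva hvb
    have hvm : Mid Q e f v := ⟨by rw [polar_comm]; exact hve, by rw [polar_comm]; exact hvf⟩
    rw [ht, map_mul, ap_mul, C.n_mid hb hqb hvm,
      show ap (ClassicalForms.refl Q b hqb) v = v from refl_fix hqb hvb, C.n_mid ha hqa hvm,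
      show ap (ClassicalForms.refl Q a hqa) v = v from refl_fix hqa hva]
  have htw' : ap (σ t) w = w := hne w (C.mid_left_e hw) (C.mid_left_f hw) hwa hwb
  set w' := c • w with hw'
  have hwm : Mid Q e f w' := C.mid_smul c hw
  have hQw' : Q w' = 0 := by simp [hw', QuadraticMap.map_smul, hQw]
  have hw'0 : w' ≠ 0 := smul_ne_zero hc hw0
  -- the left side as `t` applied to the coset of `e + c w`
  have hL : T w (-f) • C.yhat (c • e) = t • C.yhat ((1 : F) • e + w') := by
    have h1 : C.yhat (c • e) = ((t : Γ) : Γ ⧸ C.para) := by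
      rw [C.yB]
      obtain ⟨a1, ha1, hQ1, e1⟩ := C.nv_spec 1
      obtain ⟨a2, ha2, hQ2, e2⟩ := C.nv_spec c
      rw [e1, e2, ht, QuotientGroup.eq]
      obtain ⟨-, h1⟩ := C.n_same ha1 ha (hQ1.trans hQa.symm) (by rw [hQ1]; exact neg_ne_zero.2 one_ne_zero)
      obtain ⟨h2, -⟩ := C.n_same ha2 hb (hQ2.trans hQb.symm) (by rw [hQ2]; exact neg_ne_zero.2 hc)
      refine C.levi_le_para ?_
      set m := nlift Q T e f a2
      set k := (nlift Q T e f a1)⁻¹ * nlift Q T e f a with hk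
      have hk' : k ∈ levi Q T e f :=
        (C.n_same ha1 ha (hQ1.trans hQa.symm) (by rw [hQ1]; exact neg_ne_zero.2 one_ne_zero)).1
      have hq2 : Q (-a2) ≠ 0 := by rw [QuadraticMap.map_neg, hQ2]; exact neg_ne_zero.2 hc
      have h3 := C.n_normal (C.mid_neg ha2) hq2 hk'
      rw [C.n_neg ha2 (by rw [hQ2]; exact neg_ne_zero.2 hc), inv_inv] at h3
      rw [show (nlift Q T e f a1 * m)⁻¹ * (nlift Q T e f a * nlift Q T e f b) =
        m⁻¹ * k * m * (m⁻¹ * nlift Q T e f b) by rw [hk]; group]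
      exact mul_mem h3 h2
    have h0 : C.yhat ((1 : F) • e + w') = ((T w' (-f) : Γ) : Γ ⧸ C.para) := by
      rw [C.yC hwm hQw' hw'0 C.mid_zero (by simp), C.lifts.right_zero C.he, one_mul]
    rw [h1, h0, MulAction.Quotient.smul_mk, MulAction.Quotient.smul_mk, smul_eq_mul, smul_eq_mul]
    congr 1
    rw [C.lifts.conj_inv t hQw hwf, hw', C.lifts.smul c w (-f) hQw hwf]
    congr 2
    · rw [← htw', ap_inv_ap, htw']
    · rw [ap_neg, smul_neg, neg_inj]
      conv_lhs => rw [← htf, ap_inv_ap]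
  -- move to the middle vector `c w`
  obtain ⟨z, hz, -, hz1⟩ := C.partner hwm hQw' hw'0
  have hzm := C.mid_smul (-1 : F) hz
  set v0 := (-1 : F) • z with hv0
  have hB : polar Q w' v0 = -1 := by rw [hv0, polar_smul_right, hz1]; simp
  have hy : C.yhat ((1 : F) • e + w') = T e v0 • C.yhat w' := by
    rw [C.Te_equivar hzm w' hQw' hw'0, C.sTe_mid hzm hwm, hB]
    congr 1
    module
  have hfix : t • C.yhat w' = C.yhat w' := by
    have hne' : ∀ {x : V}, polar Q w x = 0 → polar Q w' x = 0 := fun h => by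
      rw [hw', polar_smul_left, h, smul_zero]
    rw [ht, mul_smul,
      C.n_fix_yhat hQw' hw'0 hb (C.mid_left_e hwm) (C.mid_left_f hwm) (hne' hwb),
      C.n_fix_yhat hQw' hw'0 ha (C.mid_left_e hwm) (C.mid_left_f hwm) (hne' hwa)]
  have hv1 := C.mid_smul c (htw hzm)
  have hpush : t * T e v0 = T e (c • ap (σ t) v0) * t := by
    rw [C.lifts.mul_comm' t C.he hzm.1, hte, C.lifts.smul c e _ C.he (htw hzm).1]
  rw [hL, hy, ← mul_smul, hpush, mul_smul, hfix, C.Te_equivar hv1 w' hQw' hw'0]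
  congr 1
  rw [C.sTe_mid hv1 hwm, polar_smul_right, show polar Q w' (ap (σ t) v0) = -1 by
    rw [← hB, ← polar_ap (σ t) w' v0, show ap (σ t) w' = w' by rw [hw', ap_smul, htw']], ap_smul, C.sTw_e hw hQw, hw']
  module

theorem Tf_ye {k : V} (hk : Mid Q e f k) {c : F} (hc : c ≠ 0) :
    T f k • C.yhat (c • e) = C.yhat (ap (σ (T f k)) (c • e)) := by
  have hx : Q (c • e) = 0 := by simp [QuadraticMap.map_smul, C.he]
  have hx0 : c • e ≠ 0 := smul_ne_zero hc C.e_ne
  by_cases hk0 : k = 0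
  · rw [hk0, C.lifts.right_zero C.hf]
    exact C.equivar.one_mem _ hx hx0
  by_cases hq : Q k = 0
  · rw [← C.lifts.swap f k C.hf hk.2 hq]
    exact C.jump hk hq hk0 hc
  · set B := T e ((Q k)⁻¹ • k) with hB
    have hBmem : B⁻¹ ∈ C.equivar := inv_mem (C.Te_equivar (C.mid_inv_smul hk))
    have hA : T f k = B⁻¹ * nlift Q T e f k * B⁻¹ := by
      rw [C.n_bab hk hq, hB]; group
    rw [hA, mul_assoc]
    refine C.equiv_mul hBmem hx hx0 ?_
    have hfix : ap (σ B⁻¹) (c • e) = c • e := by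
      rw [hB, ← C.lifts.neg C.he (C.mid_inv_smul hk).1, ap_smul,
        C.sTe_e (C.mid_neg (C.mid_inv_smul hk))]
    rw [mul_smul, hBmem _ hx hx0, hfix, C.n_smul_ye hk hq hc, map_mul, ap_mul, hfix]

theorem n_transfer {a : V} (ha : Mid Q e f a) (hQa : Q a = -1) {x : V} (hx : Q x = 0) (hx0 : x ≠ 0)
    (h : nlift Q T e f a • C.yhat x = C.yhat (ap (σ (nlift Q T e f a)) x)) :
    nv Q T e f 1 • C.yhat x = C.yhat (ap (σ (nv Q T e f 1)) x) := by
  obtain ⟨a1, ha1, hQ1, e1⟩ := C.nv_spec 1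
  obtain ⟨-, hl⟩ := C.n_same ha ha1 (hQa.trans hQ1.symm) (by rw [hQa]; exact neg_ne_zero.2 one_ne_zero)
  have := C.equiv_mul (C.levi_equivar hl) hx hx0 h
  rwa [inv_mul_cancel_right, ← e1] at this

theorem nv_one_sq : nv Q T e f 1 * nv Q T e f 1 ∈ levi Q T e f := by
  obtain ⟨a1, ha1, hQ1, e1⟩ := C.nv_spec 1
  rw [e1]; exact C.n_sq ha1 (by rw [hQ1]; exact neg_ne_zero.2 one_ne_zero)

theorem n0_equivar : nv Q T e f 1 ∈ C.equivar := by
  obtain ⟨a0, ha0, hQ0, e0⟩ := C.nv_spec 1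
  have hq0 : Q a0 ≠ 0 := by rw [hQ0]; exact neg_ne_zero.2 one_ne_zero
  intro x hx hx0
  rcases C.cases_x hx hx0 with ⟨b, v, hb, hv, rfl⟩ | ⟨c, hc, rfl⟩ | ⟨c, w, v, hw, hQw, hw0, hv, hwv, rfl⟩
  · -- generic vectors
    set k := ap (ClassicalForms.refl Q a0 hq0) v with hk
    have hkm : Mid Q e f k := C.mid_refl ha0 hq0 hv
    have hpush : nv Q T e f 1 * T e v = T f k * nv Q T e f 1 := by
      rw [C.lifts.mul_comm' _ C.he hv.1, C.nv_e one_ne_zero, one_smul, hk, e0, C.n_mid ha0 hq0 hv]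
    have hgen : nv Q T e f 1 • C.yhat (b • f) = C.yhat (b • e) := by
      rw [C.yhat_f hb, C.yB, MulAction.Quotient.smul_mk, smul_eq_mul]
    have hb' : b • f ≠ 0 := smul_ne_zero hb C.f_ne
    have hQb : Q (b • f) = 0 := by simp [QuadraticMap.map_smul, C.hf]
    rw [← C.Te_equivar hv _ hQb hb', ← mul_smul, ← ap_mul, ← map_mul, hpush, mul_smul, hgen,
      C.Tf_ye hkm hb, map_mul, ap_mul, ap_smul (σ (nv Q T e f 1)), C.nv_f one_ne_zero, inv_one,
      one_smul]
  · rw [e0]; exact C.n_smul_ye ha0 hq0 hc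
  · obtain ⟨a, ha, hQa, hwa⟩ := C.value_perp hw hQw hw0 (-1)
    have hqa : Q a ≠ 0 := by rw [hQa]; exact neg_ne_zero.2 one_ne_zero
    refine C.n_transfer ha hQa hx hx0 ?_
    have hne : ap (σ (nlift Q T e f a)) e = f := by rw [C.n_e ha hqa, hQa, neg_neg, one_smul]
    have hnw : ap (σ (nlift Q T e f a)) w = w := by
      rw [C.n_mid ha hqa hw]; exact refl_fix hqa hwa
    by_cases hc : c = 0
    · subst hc
      have h := C.n_fix_yhat (a := a) hx hx0 ha
        (by simp [C.mid_left_e hw]) (by simp [C.mid_left_f hw]) (by simp [hwa])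
      rw [h, ap_add, zero_smul, ap_zero, hnw]
    · set w1 := c⁻¹ • w with hw1
      have hw1m := C.mid_smul c⁻¹ hw
      have hQw1 : Q w1 = 0 := by simp [hw1, QuadraticMap.map_smul, hQw]
      have hw10 : w1 ≠ 0 := smul_ne_zero (inv_ne_zero hc) hw0
      have hwf : polar Q w1 (-f) = 0 := by rw [polar_neg_right, C.mid_left_f hw1m, neg_zero]
      have hxe : c • e + w = ap (σ (T w1 (-f))) (c • e) := by
        rw [ap_smul, C.sTw_e hw1m hQw1, smul_add, smul_smul, mul_inv_cancel₀ hc, one_smul]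
      have hnw1 : ap (σ (nlift Q T e f a)) w1 = w1 := by rw [hw1, ap_smul, hnw]
      have hnf : ap (σ (nlift Q T e f a)) (-f) = -e := by
        rw [ap_neg, C.n_f ha hqa, hQa, inv_neg, inv_one, neg_neg, one_smul]
      have hpush : nlift Q T e f a * T w1 (-f) = T e w1 * nlift Q T e f a := by
        rw [C.lifts.mul_comm' _ hQw1 hwf, hnw1, hnf,
          C.lifts.swap e w1 C.he hw1m.1 hQw1]
      have hQce : Q (c • e) = 0 := by simp [QuadraticMap.map_smul, C.he]
      have hce : c • e ≠ 0 := smul_ne_zero hc C.e_ne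
      rw [hxe, ← C.jump hw1m hQw1 hw10 hc, ← mul_smul, ← ap_mul, ← map_mul, hpush]
      exact C.equiv_mul (C.Te_equivar hw1m) hQce hce (C.n_smul_ye ha hqa hc)

/-- The radical and the exchanging element generate. -/
theorem closure_eq_top {H : Subgroup Γ} (hU : ∀ w, Mid Q e f w → T e w ∈ H)
    (hn : nv Q T e f 1 ∈ H) : H = ⊤ := by
  obtain ⟨a0, ha0, hQ0, e0⟩ := C.nv_spec 1
  have hq0 : Q a0 ≠ 0 := by rw [hQ0]; exact neg_ne_zero.2 one_ne_zero
  have hTf : ∀ w, Mid Q e f w → T f w ∈ H := by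
    intro w hw
    have hr := C.mid_refl ha0 hq0 hw
    have hrr : ap (ClassicalForms.refl Q a0 hq0) (ap (ClassicalForms.refl Q a0 hq0) w) = w := by
      rw [← ap_mul, refl_mul_self, ap_one]
    have h : nv Q T e f 1 * T e (ap (ClassicalForms.refl Q a0 hq0) w) * (nv Q T e f 1)⁻¹ = T f w := by
      rw [C.lifts.equiv _ e _ C.he hr.1, C.nv_e one_ne_zero, one_smul, e0, C.n_mid ha0 hq0 hr, hrr]
    rw [← h]
    exact mul_mem (mul_mem hn (hU _ hr)) (inv_mem hn)
  have hsing : ∀ a b, Mid Q e f a → Mid Q e f b → Q a = 0 → Q b = 0 → polar Q a b = 0 → T a b ∈ H := by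
    intro a b ha hb hQa hQb hab
    have hae : polar Q a (-e) = 0 := by rw [polar_neg_right, C.mid_left_e ha, neg_zero]
    have h1 : ap (σ (T a (-e))) f = f + a := by
      rw [C.sT hQa hae, ha.2, polar_neg_right, C.bfe, QuadraticMap.map_neg, C.he]; simp
    have h2 : ap (σ (T a (-e))) b = b := C.sT_fix hQa hae (by rw [polar_comm]; exact hab)
      (by rw [polar_neg_right, C.mid_left_e hb, neg_zero])
    have hbf : polar Q b (-f) = 0 := by rw [polar_neg_right, C.mid_left_f hb, neg_zero]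
    have hba : polar Q b (-a) = 0 := by rw [polar_neg_right, polar_comm, hab, neg_zero]
    have hfa : Q (f + a) = 0 := by
      rw [QuadraticMap.map_add ⇑Q, C.hf, hQa, ha.2]; ring
    have hfab : polar Q (f + a) b = 0 := by rw [polar_add_left, hb.2, hab, add_zero]
    have k : T a (-e) * T f b * (T a (-e))⁻¹ = T f b * T a b := by
      rw [C.lifts.equiv _ f b C.hf hb.2, h1, h2, ← C.lifts.swap (f + a) b hfa hfab hQb,
        ← C.lifts.swap f b C.hf hb.2 hQb, ← C.lifts.swap a b hQa hab hQb,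
        C.lifts.add b _ _ hQb hbf hba, neg_add]
    have he' : T a (-e) = T e a := C.lifts.swap e a C.he ha.1 hQa
    have : T a b = (T f b)⁻¹ * (T a (-e) * T f b * (T a (-e))⁻¹) := by rw [k]; group
    rw [this, he']
    exact mul_mem (inv_mem (hTf b hb)) (mul_mem (mul_mem (hU a ha) (hTf b hb)) (inv_mem (hU a ha)))
  have hlevi : levi Q T e f ≤ H := by
    rw [levi, Subgroup.closure_le]
    rintro _ ⟨a, b, ha, hb, hQa, hab, rfl⟩
    by_cases ha0 : a = 0
    · rw [ha0, C.lifts.left_zero]; exact one_mem _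
    obtain ⟨z, hz, hp⟩ := C.sec.exists_partner C.nondeg (C.mem_sec.2 ha) hQa ha0
    set d := polar Q z b with hd
    set b' := b - d • a with hb'
    have hzm := C.mem_sec.1 hz
    have hza : polar Q z a = 1 := by rw [polar_comm]; exact hp.2.2
    have hb'm : Mid Q e f b' := C.mid_sub hb (C.mid_smul d ha)
    have hab' : polar Q a b' = 0 := by
      rw [hb', polar_sub_right, hab, polar_smul_right, polar_singular_self hQa, smul_zero, sub_zero]
    have hzb' : polar Q z b' = 0 := by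
      rw [hb', polar_sub_right, polar_smul_right, hza, smul_eq_mul, mul_one, hd, sub_self]
    rw [show b = b' + d • a by rw [hb', sub_add_cancel], C.lifts.add_smul d a b' hQa hab']
    by_cases hb0 : b' = 0
    · rw [hb0, C.lifts.right_zero hQa]; exact one_mem _
    have hb'S := (Sec.mem_cut_iff C.sec (C.mem_sec.2 ha) hz hp b').2
      ⟨hab', hzb', C.mem_sec.2 hb'm⟩
    obtain ⟨s, hs, hQs, hsb⟩ := (C.sec.cut a z (C.mem_sec.2 ha) hz hp).exists_singular_polar_one
      C.nondeg (by have := C.seven; omega) hb'S hb0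
    obtain ⟨has, -, hsS⟩ := (Sec.mem_cut_iff C.sec (C.mem_sec.2 ha) hz hp s).1 hs
    have hsm := C.mem_sec.1 hsS
    have h1 : polar Q a (Q b' • s) = 0 := by rw [polar_smul_right, has, smul_zero]
    have h2 : polar Q a (b' - Q b' • s) = 0 := by rw [polar_sub_right, hab', h1, sub_zero]
    rw [show b' = (b' - Q b' • s) + Q b' • s by rw [sub_add_cancel],
      ← C.lifts.add a _ _ hQa h2 h1]
    refine mul_mem (hsing a _ ha (C.mid_sub hb'm (C.mid_smul _ hsm)) hQa ?_ h2)
      (hsing a _ ha (C.mid_smul _ hsm) hQa (by simp [QuadraticMap.map_smul, hQs]) h1)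
    simp [map_sub_eq, QuadraticMap.map_smul, hQs, polar_smul_right, polar_comm Q b' s, hsb]
  have hn_mem : ∀ a, Mid Q e f a → nlift Q T e f a ∈ H := fun a ha =>
    mul_mem (mul_mem (hTf a ha) (hU _ (C.mid_inv_smul ha))) (hTf a ha)
  have hT : ∀ u w, Q u = 0 → polar Q u w = 0 → T u w ∈ H := by
    intro u w hu hw
    by_cases hu0 : u = 0
    · rw [hu0, C.lifts.left_zero]; exact one_mem _
    have hg : ∃ g ∈ H, ap (σ g) e = u := by
      rcases C.cases_x hu hu0 with ⟨b, v, hb, hv, rfl⟩ | ⟨c, hc, rfl⟩ | ⟨c, z, v, hz, hQz, hz0, hv, hzv, rfl⟩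
      · obtain ⟨a, ha, -, ea⟩ := C.nv_spec b
        refine ⟨T e v * nv Q T e f b, mul_mem (hU v hv) (by rw [ea]; exact hn_mem a ha), ?_⟩
        rw [map_mul, ap_mul, C.nv_e hb]
      · obtain ⟨a, ha, -, ea⟩ := C.nv_spec c
        refine ⟨nv Q T e f 1 * nv Q T e f c, mul_mem hn (by rw [ea]; exact hn_mem a ha), ?_⟩
        rw [map_mul, ap_mul, C.nv_e hc, ap_smul, C.nv_f one_ne_zero, inv_one, one_smul]
      · refine ⟨T e v * T f z, mul_mem (hU v hv) (hTf z hz), ?_⟩
        rw [map_mul, ap_mul, ← C.lifts.swap f z C.hf hz.2 hQz, C.sTw_e hz hQz, ap_add, C.sTe_e hv,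
          C.sTe_mid hv hz, hzv]
        module
    obtain ⟨g, hg, rfl⟩ := hg
    have hw' : polar Q e (ap (σ g)⁻¹ w) = 0 := by
      rw [← polar_ap (σ g), ap_ap_inv, hw]
    have key : g⁻¹ * T (ap (σ g) e) w * g ∈ H := by
      have h := C.lifts.equiv g⁻¹ (ap (σ g) e) w hu hw
      rw [inv_inv, map_inv, ap_inv_ap] at h
      rw [h]
      set w' := ap (σ g)⁻¹ w
      rw [show w' = (w' - polar Q f w' • e) + polar Q f w' • e by rw [sub_add_cancel],
        C.lifts.add_smul _ e _ C.he (C.mid_proj' hw').1]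
      exact hU _ (C.mid_proj' hw')
    rw [show T (ap (σ g) e) w = g * (g⁻¹ * T (ap (σ g) e) w * g) * g⁻¹ by group]
    exact mul_mem (mul_mem hg key) (inv_mem hg)
  have himg : σ.range ≤ H.map σ := by
    rw [C.ext.range_eq, siegelGroup, Subgroup.closure_le]
    rintro _ ⟨u, w, hu, hw, rfl⟩
    exact ⟨T u w, hT u w hu hw, C.lifts.map u w hu hw⟩
  refine eq_top_iff.2 (C.ext.perfect ▸ ?_)
  rw [commutator_def, Subgroup.commutator_le]
  intro x _ y _
  obtain ⟨x', hx', ex⟩ := himg ⟨x, rfl⟩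
  obtain ⟨y', hy', ey⟩ := himg ⟨y, rfl⟩
  rw [SchurMult.comm_eq_of_map_eq C.ext.central ex.symm ey.symm, commutatorElement_def]
  exact mul_mem (mul_mem (mul_mem hx' hy') (inv_mem hx')) (inv_mem hy')

/-- The kernel lives in the middle. -/
theorem ker_le_levi : σ.ker ≤ levi Q T e f := by
  have htop : C.equivar = ⊤ := C.closure_eq_top (fun w hw => C.Te_equivar hw) C.n0_equivar
  intro γ hγ
  rw [MonoidHom.mem_ker] at hγ
  have he : C.yhat e = ((1 : Γ) : Γ ⧸ C.para) := by
    have h := C.yB (c := 1)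
    rw [one_smul] at h
    rw [h, QuotientGroup.eq, mul_one]
    exact C.levi_le_para (inv_mem C.nv_one_sq)
  have hmem : γ ∈ C.para := by
    have h := (htop ▸ Subgroup.mem_top γ : γ ∈ C.equivar) e C.he C.e_ne
    rw [hγ, ap_one, he, MulAction.Quotient.smul_mk, smul_eq_mul, mul_one] at h
    have h' := (QuotientGroup.eq.1 h)
    rw [mul_one] at h'
    exact inv_mem_iff.1 h'
  obtain ⟨w, l, hw, hl, rfl⟩ := hmem
  have hf0 : ap (σ (T e w * l)) f = f := by rw [hγ, ap_one]
  rw [map_mul, ap_mul, (C.levi_fix hl).2.1, C.sTe_f hw] at hf0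
  have h1 := congrArg (fun z => polar Q f z) hf0
  simp only [polar_sub_right, polar_add_right, polar_smul_right, C.bff, C.bfe, hw.2, smul_eq_mul,
    mul_one, add_zero, zero_sub, neg_eq_zero] at h1
  rw [h1, zero_smul, sub_zero, add_eq_left] at hf0
  rw [hf0, C.lifts.right_zero C.he, one_mul]
  exact hl

end Frame

end CfsgLib.OrthMult
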