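import Cfsg.Agent.Lib.OrthMult.CellsBasic

/-!
The cell argument: the kernel of a central extension of a Siegel group with equivariant lifts is
contained in the group generated by the lifts living in the middle of a hyperbolic pair.
-/

set_option autoImplicit false
set_option linter.unusedSectionVars false

namespace CfsgLib.OrthMult

open QuadraticMap CfsgLib.ClassicalForms Module
open scoped commutatorElement

variable {F V : Type*} [Field F] [AddCommGroup V] [Module F V] [Finite F] [FiniteDimensional F V]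
  {Q : QuadraticForm F V} {Γ : Type*} [Group Γ] {σ : Γ →* orth Q} {T : V → V → Γ}

/-- In a cyclic group of parameters, involutions satisfying the dihedral relation multiply as
reflections. -/
theorem tau_mul {A G : Type*} [CommGroup A] [IsCyclic A] [Group G] (τ : A → G)
    (h1 : ∀ x, τ x * τ x = 1) (h2 : ∀ x y, τ x * τ y * τ x = τ (x * x * y⁻¹)) (x y z : A) :
    τ x * τ y * τ z = τ (x * y⁻¹ * z) := by
  obtain ⟨g, hg⟩ := IsCyclic.exists_generator (α := A)
  set X := τ g * τ 1 with hX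
  set t := τ 1 with ht
  have htt : t * t = 1 := h1 1
  have hinv : t * X * t = X⁻¹ := by
    rw [hX, mul_inv_rev, inv_eq_of_mul_eq_one_right htt, inv_eq_of_mul_eq_one_right (h1 g)]
    rw [← mul_assoc, mul_assoc (t * τ g) t t, htt, mul_one]
  have hinv' : ∀ i : ℤ, t * X ^ i * t = X ^ (-i) := fun i => by
    have e : (MulAut.conj t) (X ^ i) = X ^ (-i) := by
      rw [map_zpow, MulAut.conj_apply, inv_eq_of_mul_eq_one_right htt, hinv, inv_zpow, ← zpow_neg]
    rw [MulAut.conj_apply, inv_eq_of_mul_eq_one_right htt] at e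
    exact e
  have trip : ∀ i j k : ℤ, X ^ i * t * (X ^ j * t) * (X ^ k * t) = X ^ (i - j + k) * t := by
    intro i j k
    rw [show X ^ i * t * (X ^ j * t) * (X ^ k * t) = X ^ i * (t * X ^ j * t) * X ^ k * t by group,
      hinv', ← zpow_add, ← zpow_add, sub_eq_add_neg]
  have main : ∀ i : ℤ, τ (g ^ i) = X ^ i * t ∧ τ (g ^ (i + 1)) = X ^ (i + 1) * t := by
    intro i
    induction i using Int.induction_on with
    | zero =>
      refine ⟨by simp [ht], ?_⟩
      rw [zero_add, zpow_one, zpow_one, hX, mul_assoc, htt, mul_one]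
    | succ i ih =>
      refine ⟨ih.2, ?_⟩
      have h := h2 (g ^ ((i : ℤ) + 1)) (g ^ (i : ℤ))
      rw [ih.1, ih.2, trip, ← zpow_neg, ← zpow_add, ← zpow_add] at h
      rw [show (i : ℤ) + 1 + 1 = i + 1 + (i + 1) + -i by ring, ← h]
      congr 2; ring
    | pred i ih =>
      refine ⟨?_, by rw [sub_add_cancel]; exact ih.1⟩
      have h := h2 (g ^ (-(i : ℤ))) (g ^ (-(i : ℤ) + 1))
      rw [ih.1, ih.2, trip, ← zpow_neg, ← zpow_add, ← zpow_add] at h
      rw [show -(i : ℤ) - 1 = -i + -i + -(-i + 1) by ring, ← h]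
      congr 2; ring
  obtain ⟨i, rfl⟩ := Subgroup.mem_zpowers_iff.1 (hg x)
  obtain ⟨j, rfl⟩ := Subgroup.mem_zpowers_iff.1 (hg y)
  obtain ⟨k, rfl⟩ := Subgroup.mem_zpowers_iff.1 (hg z)
  rw [(main i).1, (main j).1, (main k).1, trip, ← zpow_neg, ← zpow_add, ← zpow_add,
    ← sub_eq_add_neg, (main _).1]

variable {e f : V}

/-- The canonical lift exchanging the lines, of a given value. -/
noncomputable def nv (Q : QuadraticForm F V) (T : V → V → Γ) (e f : V) (b : F) : Γ :=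
  nlift Q T e f (Classical.epsilon fun a => Mid Q e f a ∧ Q a = -b)

/-- A representative of the coset attached to a singular vector. -/
noncomputable def yrep (Q : QuadraticForm F V) (T : V → V → Γ) (e f x : V) : Γ :=
  open scoped Classical in
  if polar Q e x ≠ 0 then
    T e ((polar Q e x)⁻¹ • (x - polar Q f x • e - polar Q e x • f)) * nv Q T e f (polar Q e x)
  else if x - polar Q f x • e = 0 then nv Q T e f 1 * nv Q T e f (polar Q f x)
  else T e (Classical.epsilon fun v => Mid Q e f v ∧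
      polar Q (x - polar Q f x • e) v = 1 - polar Q f x) * T (x - polar Q f x • e) (-f)

namespace Frame

variable (C : Frame σ T e f)
include C

theorem nv_spec (b : F) : ∃ a, Mid Q e f a ∧ Q a = -b ∧ nv Q T e f b = nlift Q T e f a :=
  ⟨_, (Classical.epsilon_spec (p := fun a => Mid Q e f a ∧ Q a = -b) (C.value (-b))).1,
    (Classical.epsilon_spec (p := fun a => Mid Q e f a ∧ Q a = -b) (C.value (-b))).2, rfl⟩

theorem nv_e {b : F} (hb : b ≠ 0) : ap (σ (nv Q T e f b)) e = b • f := by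
  obtain ⟨a, ha, hQa, h⟩ := C.nv_spec b
  rw [h, C.n_e ha (by rw [hQa]; exact neg_ne_zero.2 hb), hQa, neg_neg]

theorem nv_f {b : F} (hb : b ≠ 0) : ap (σ (nv Q T e f b)) f = b⁻¹ • e := by
  obtain ⟨a, ha, hQa, h⟩ := C.nv_spec b
  rw [h, C.n_f ha (by rw [hQa]; exact neg_ne_zero.2 hb), hQa, inv_neg, neg_neg]

theorem n_same {a b : V} (ha : Mid Q e f a) (hb : Mid Q e f b) (hab : Q a = Q b) (hne : Q a ≠ 0) :
    (nlift Q T e f a)⁻¹ * nlift Q T e f b ∈ levi Q T e f ∧
      nlift Q T e f b * (nlift Q T e f a)⁻¹ ∈ levi Q T e f := by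
  obtain ⟨l, hl, e1⟩ := C.levi_transitive ha hb hab hne
  obtain ⟨hle, hlf, hlm⟩ := C.levi_fix hl
  set n := nlift Q T e f a with hn
  have h : nlift Q T e f b = l * n * l⁻¹ := by
    have hi := C.mid_inv_smul ha
    rw [hn, nlift, nlift, show l * (T f a * T e ((Q a)⁻¹ • a) * T f a) * l⁻¹ =
      l * T f a * l⁻¹ * (l * T e ((Q a)⁻¹ • a) * l⁻¹) * (l * T f a * l⁻¹) by group,
      C.lifts.equiv l f a C.hf ha.2, C.lifts.equiv l e _ C.he hi.1, hle, hlf, ap_smul, e1, hab]
  refine ⟨?_, ?_⟩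
  · rw [h, show n⁻¹ * (l * n * l⁻¹) = n⁻¹ * l * n * l⁻¹ by group]
    refine mul_mem ?_ (inv_mem hl)
    have hqn : Q (-a) ≠ 0 := by rwa [QuadraticMap.map_neg]
    have := C.n_normal (C.mid_neg ha) hqn hl
    rwa [C.n_neg ha hne, inv_inv] at this
  · rw [h, show l * n * l⁻¹ * n⁻¹ = l * (n * l⁻¹ * n⁻¹) by group]
    exact mul_mem hl (C.n_normal ha hne (inv_mem hl))

theorem n_sq {a : V} (ha : Mid Q e f a) (hq : Q a ≠ 0) :
    nlift Q T e f a * nlift Q T e f a ∈ levi Q T e f := by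
  have h := (C.n_same (C.mid_neg ha) ha (QuadraticMap.map_neg Q a) (by rwa [QuadraticMap.map_neg])).1
  rwa [C.n_neg ha hq, inv_inv] at h

theorem n_eq_para {a : V} (ha : Mid Q e f a) (hq : Q a ≠ 0) {g : Γ} (h : g ∈ levi Q T e f) :
    ((g * nlift Q T e f a : Γ) : Γ ⧸ C.para) = ((nlift Q T e f a : Γ) : Γ ⧸ C.para) := by
  refine (QuotientGroup.eq.2 ?_).symm
  have hqn : Q (-a) ≠ 0 := by rwa [QuadraticMap.map_neg]
  have := C.n_normal (C.mid_neg ha) hqn h
  rw [C.n_neg ha hq, inv_inv] at this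
  rw [show (nlift Q T e f a)⁻¹ * (g * nlift Q T e f a) =
    (nlift Q T e f a)⁻¹ * g * nlift Q T e f a by group]
  exact C.levi_le_para this

/-- The class of an exchanging element in a quotient of the normaliser. -/
theorem nv_triple {a : V} (ha : Mid Q e f a) (hq : Q a ≠ 0) {c : F} (hc : c ≠ 0) :
    ((nlift Q T e f a * (nv Q T e f 1 * nv Q T e f c) : Γ) : Γ ⧸ C.para) =
      ((nv Q T e f (-(Q a * c)) : Γ) : Γ ⧸ C.para) := by
  classical
  set N := Subgroup.normalizer (levi Q T e f : Set Γ) with hN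
  set M := (levi Q T e f).subgroupOf N with hM
  haveI : M.Normal := Subgroup.normal_in_normalizer
  have hnN : ∀ b, Mid Q e f b → Q b ≠ 0 → nlift Q T e f b ∈ N := fun b hb hqb => by
    rw [hN, Subgroup.mem_normalizer_iff]
    intro l
    refine ⟨fun h => C.n_normal hb hqb h, fun h => ?_⟩
    have hqn : Q (-b) ≠ 0 := by rwa [QuadraticMap.map_neg]
    have h' := C.n_normal (C.mid_neg hb) hqn h
    rw [C.n_neg hb hqb, inv_inv] at h'
    convert h' using 1
    group
  choose v hv using fun x : Fˣ => C.value (x : F)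
  have hvne : ∀ x, Q (v x) ≠ 0 := fun x => by rw [(hv x).2]; exact x.ne_zero
  set τ : Fˣ → N ⧸ M := fun x =>
    ((⟨nlift Q T e f (v x), hnN _ (hv x).1 (hvne x)⟩ : N) : N ⧸ M) with hτ
  have hclass : ∀ (x : Fˣ) b (hb : Mid Q e f b) (hQb : Q b = x),
      τ x = ((⟨nlift Q T e f b, hnN b hb (by rw [hQb]; exact x.ne_zero)⟩ : N) : N ⧸ M) := by
    intro x b hb hQb
    exact QuotientGroup.eq.2 (C.n_same (hv x).1 hb ((hv x).2.trans hQb.symm) (hvne x)).1
  have h1 : ∀ x, τ x * τ x = 1 := fun x => by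
    rw [hτ]; rw [← QuotientGroup.mk_mul, QuotientGroup.eq_one_iff]
    exact C.n_sq (hv x).1 (hvne x)
  have h2 : ∀ x y, τ x * τ y * τ x = τ (x * x * y⁻¹) := by
    intro x y
    rw [show τ x * τ y * τ x = τ x * τ y * (τ x)⁻¹ by rw [inv_eq_of_mul_eq_one_right (h1 x)]]
    have hx := hv x
    have hy := hv y
    have hrm := C.mid_smul (-(Q (v x) / Q (v y))) (C.mid_refl hx.1 (hvne x) hy.1)
    have hQr : Q (-(Q (v x) / Q (v y)) • ap (ClassicalForms.refl Q (v x) (hvne x)) (v y)) =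
        ((x * x * y⁻¹ : Fˣ) : F) := by
      rw [QuadraticMap.map_smul, Q_ap, hx.2, hy.2, smul_eq_mul]
      simp only [Units.val_mul, Units.val_inv_eq_inv_val]
      field_simp
    rw [hclass (x * x * y⁻¹) _ hrm hQr, hτ, ← QuotientGroup.mk_mul, ← QuotientGroup.mk_inv,
      ← QuotientGroup.mk_mul]
    congr 1
    exact Subtype.ext (C.n_conj hx.1 (hvne x) hy.1 (hvne y))
  obtain ⟨a1, ha1, hQ1, e1⟩ := C.nv_spec 1
  obtain ⟨a2, ha2, hQ2, e2⟩ := C.nv_spec c
  obtain ⟨a3, ha3, hQ3, e3⟩ := C.nv_spec (-(Q a * c))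
  rw [neg_neg] at hQ3
  have hq1 : Q a1 ≠ 0 := by rw [hQ1]; exact neg_ne_zero.2 one_ne_zero
  have hq2 : Q a2 ≠ 0 := by rw [hQ2]; exact neg_ne_zero.2 hc
  have hq3 : Q a3 ≠ 0 := by rw [hQ3]; exact mul_ne_zero hq hc
  have key := tau_mul τ h1 h2 (Units.mk0 _ hq) (Units.mk0 _ hq1) (Units.mk0 _ hq2)
  rw [hclass (Units.mk0 _ hq) a ha rfl, hclass (Units.mk0 _ hq1) a1 ha1 rfl,
    hclass (Units.mk0 _ hq2) a2 ha2 rfl,
    hclass (Units.mk0 _ hq * (Units.mk0 _ hq1)⁻¹ * Units.mk0 _ hq2) a3 ha3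
      (by simp only [Units.val_mul, Units.val_inv_eq_inv_val, Units.val_mk0]
          rw [hQ3, hQ1, hQ2]; field_simp),
    ← QuotientGroup.mk_mul, ← QuotientGroup.mk_mul, QuotientGroup.eq] at key
  rw [e1, e2, e3, QuotientGroup.eq]
  refine C.levi_le_para ?_
  have key' : ((nlift Q T e f a * nlift Q T e f a1 * nlift Q T e f a2)⁻¹ * nlift Q T e f a3)
      ∈ levi Q T e f := key
  rwa [show nlift Q T e f a * (nlift Q T e f a1 * nlift Q T e f a2) =
    nlift Q T e f a * nlift Q T e f a1 * nlift Q T e f a2 by group]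

/-- The coset attached to a singular vector. -/
noncomputable def yhat (x : V) : Γ ⧸ C.para := (yrep Q T e f x : Γ)

theorem sTw_e {w : V} (hw : Mid Q e f w) (hQw : Q w = 0) : ap (σ (T w (-f))) e = e + w := by
  have hwf : polar Q w (-f) = 0 := by rw [polar_neg_right, C.mid_left_f hw, neg_zero]
  rw [C.sT hQw hwf, hw.1, polar_neg_right, C.bef, QuadraticMap.map_neg, C.hf]; simp

theorem yA {b : F} (hb : b ≠ 0) {v : V} (hv : Mid Q e f v) :
    C.yhat (ap (σ (T e v)) (b • f)) = ((T e v * nv Q T e f b : Γ) : Γ ⧸ C.para) := by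
  have hx : ap (σ (T e v)) (b • f) = b • f + b • v - (b * Q v) • e := by
    rw [ap_smul, C.sTe_f hv, smul_sub, smul_add, smul_smul]
  have h1 : polar Q e (ap (σ (T e v)) (b • f)) = b := by
    rw [hx]; simp [polar_sub_right, polar_add_right, polar_smul_right, C.bef, C.bee, hv.1]
  have h2 : polar Q f (ap (σ (T e v)) (b • f)) = -(b * Q v) := by
    rw [hx]; simp [polar_sub_right, polar_add_right, polar_smul_right, C.bfe, C.bff, hv.2]
  rw [yhat, yrep]
  simp only [h1, h2, ne_eq, hb, not_false_eq_true, if_true]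
  congr 3
  rw [hx]
  match_scalars <;> field_simp <;> ring

theorem yB {c : F} :
    C.yhat (c • e) = ((nv Q T e f 1 * nv Q T e f c : Γ) : Γ ⧸ C.para) := by
  have h1 : polar Q e (c • e) = 0 := by simp [polar_smul_right, C.bee]
  have h2 : polar Q f (c • e) = c := by simp [polar_smul_right, C.bfe]
  rw [yhat, yrep]
  simp [h1, h2]

theorem yC {w : V} (hw : Mid Q e f w) (hQw : Q w = 0) (hw0 : w ≠ 0) {c : F} {v : V}
    (hv : Mid Q e f v) (hwv : polar Q w v = 1 - c) :
    C.yhat (c • e + w) = ((T e v * T w (-f) : Γ) : Γ ⧸ C.para) := by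
  have h1 : polar Q e (c • e + w) = 0 := by simp [polar_add_right, polar_smul_right, C.bee, hw.1]
  have h2 : polar Q f (c • e + w) = c := by simp [polar_add_right, polar_smul_right, C.bfe, hw.2]
  rw [yhat, yrep]
  simp only [h1, h2, ne_eq, not_true_eq_false, if_false, add_sub_cancel_left, hw0]
  obtain ⟨hu, hwu⟩ := Classical.epsilon_spec
    (p := fun u => Mid Q e f u ∧ polar Q w u = 1 - c) ⟨v, hv, hwv⟩
  set u := Classical.epsilon fun u => Mid Q e f u ∧ polar Q w u = 1 - c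
  have hd := C.mid_sub hu hv
  have hwf : polar Q w (-f) = 0 := by rw [polar_neg_right, C.mid_left_f hw, neg_zero]
  have hx : ap (σ (T w (-f))) e = e + w := C.sTw_e hw hQw
  rw [show T e u = T e v * T e (u - v) by
    rw [C.lifts.add e v _ C.he hv.1 hd.1, add_sub_cancel], mul_assoc]
  refine congrArg (T e v • ·) (C.fix_coset (T w (-f)) C.he hd.1 ?_ ?_)
  · rw [hx, polar_add_left, C.bee, C.mid_left_e hw, add_zero]
  · rw [hx, polar_add_left, hd.1, polar_sub_right, hwu, hwv, sub_self, add_zero]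

theorem cases_x {x : V} (hx : Q x = 0) (hx0 : x ≠ 0) :
    (∃ (b : F) (v : V), b ≠ 0 ∧ Mid Q e f v ∧ x = ap (σ (T e v)) (b • f)) ∨
    (∃ c : F, c ≠ 0 ∧ x = c • e) ∨
    (∃ (c : F) (w v : V), Mid Q e f w ∧ Q w = 0 ∧ w ≠ 0 ∧ Mid Q e f v ∧ polar Q w v = 1 - c ∧
      x = c • e + w) := by
  set b := polar Q e x with hbdef
  set c := polar Q f x with hcdef
  set w := x - c • e - b • f with hwdef
  have hw : Mid Q e f w := C.mid_proj x
  have hxw : x = c • e + b • f + w := by rw [hwdef]; abel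
  have hQ : c * b + Q w = 0 := by
    have h := hx
    rw [hxw, QuadraticMap.map_add ⇑Q, QuadraticMap.map_add ⇑Q, QuadraticMap.map_smul,
      QuadraticMap.map_smul, C.he, C.hf, polar_add_left, polar_smul_left, polar_smul_right,
      polar_smul_left, polar_smul_left, C.bef, hw.1, hw.2] at h
    simpa [mul_comm] using h
  by_cases hb : b = 0
  · rw [hb, zero_smul, add_zero] at hxw
    rw [hb, mul_zero, zero_add] at hQ
    by_cases hw0 : w = 0
    · rw [hw0, add_zero] at hxw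
      exact Or.inr (Or.inl ⟨c, fun h => hx0 (by rw [hxw, h, zero_smul]), hxw⟩)
    · obtain ⟨z, hz, -, hz1⟩ := C.partner hw hQ hw0
      exact Or.inr (Or.inr ⟨c, w, (1 - c) • z, hw, hQ, hw0, C.mid_smul _ hz,
        by rw [polar_smul_right, hz1, smul_eq_mul, mul_one], hxw⟩)
  · refine Or.inl ⟨b, b⁻¹ • w, hb, C.mid_smul _ hw, ?_⟩
    rw [ap_smul, C.sTe_f (C.mid_smul _ hw), QuadraticMap.map_smul, smul_eq_mul, hxw]
    match_scalars
    all_goals first
      | ring1
      | (field_simp; done)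
      | (field_simp; linear_combination hQ)

theorem yhat_spec {x : V} (hx : Q x = 0) (hx0 : x ≠ 0) :
    ∃ g : Γ, ap (σ g) e = x ∧ C.yhat x = (g : Γ ⧸ C.para) := by
  rcases C.cases_x hx hx0 with ⟨b, v, hb, hv, rfl⟩ | ⟨c, hc, rfl⟩ | ⟨c, w, v, hw, hQw, hw0, hv, hwv, rfl⟩
  · exact ⟨_, by rw [map_mul, ap_mul, C.nv_e hb], C.yA hb hv⟩
  · refine ⟨_, ?_, C.yB⟩
    rw [map_mul, ap_mul, C.nv_e hc, ap_smul, C.nv_f one_ne_zero, inv_one, one_smul]
  · refine ⟨_, ?_, C.yC hw hQw hw0 hv hwv⟩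
    have hwf : polar Q w (-f) = 0 := by rw [polar_neg_right, C.mid_left_f hw, neg_zero]
    rw [map_mul, ap_mul, C.sTw_e hw hQw, ap_add, C.sTe_e hv, C.sTe_mid hv hw, hwv]
    match_scalars <;> ring

theorem fix_yhat {x : V} (hx : Q x = 0) (hx0 : x ≠ 0) {a b : V} (hQa : Q a = 0)
    (hab : polar Q a b = 0) (ha : polar Q x a = 0) (hb : polar Q x b = 0) :
    T a b • C.yhat x = C.yhat x := by
  obtain ⟨g, hg, h⟩ := C.yhat_spec hx hx0
  rw [h]
  exact C.fix_coset g hQa hab (by rw [hg, ha]) (by rw [hg, hb])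

theorem n_fix_yhat {x : V} (hx : Q x = 0) (hx0 : x ≠ 0) {a : V} (ha : Mid Q e f a)
    (hxe : polar Q x e = 0) (hxf : polar Q x f = 0) (hxa : polar Q x a = 0) :
    nlift Q T e f a • C.yhat x = C.yhat x := by
  rw [nlift, mul_smul, mul_smul, C.fix_yhat hx hx0 C.hf ha.2 hxf hxa,
    C.fix_yhat hx hx0 C.he (C.mid_inv_smul ha).1 hxe (by rw [polar_smul_right, hxa, smul_zero]),
    C.fix_yhat hx hx0 C.hf ha.2 hxf hxa]

/-- Elements compatible with the attached cosets. -/
def equivar : Subgroup Γ where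
  carrier := {γ | ∀ x, Q x = 0 → x ≠ 0 → γ • C.yhat x = C.yhat (ap (σ γ) x)}
  one_mem' := fun x _ _ => by rw [one_smul, map_one]; rfl
  mul_mem' := by
    intro γ δ hγ hδ x hx hx0
    rw [mul_smul, hδ x hx hx0, hγ _ (by rw [Q_ap, hx])
      (fun h => hx0 (by rw [← ap_inv_ap (σ δ) x, h, ap_zero])), map_mul]
    rfl
  inv_mem' := by
    intro γ hγ x hx hx0
    have hy := hγ (ap (σ γ)⁻¹ x) (by rw [Q_ap, hx])
      (fun h => hx0 (by rw [← ap_ap_inv (σ γ) x, h, ap_zero]))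
    rw [ap_ap_inv] at hy
    rw [map_inv, ← hy, inv_smul_smul]

theorem mem_equivar {γ : Γ} : γ ∈ C.equivar ↔
    ∀ x, Q x = 0 → x ≠ 0 → γ • C.yhat x = C.yhat (ap (σ γ) x) := Iff.rfl

theorem Te_equivar {d : V} (hd : Mid Q e f d) : T e d ∈ C.equivar := by
  intro x hx hx0
  rcases C.cases_x hx hx0 with ⟨b, v, hb, hv, rfl⟩ | ⟨c, hc, rfl⟩ | ⟨c, w, v, hw, hQw, hw0, hv, hwv, rfl⟩
  · rw [← ap_mul, ← map_mul, C.lifts.add e d v C.he hd.1 hv.1, C.yA hb hv,
      C.yA hb (C.mid_add hd hv), MulAction.Quotient.smul_mk, smul_eq_mul, ← mul_assoc,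
      C.lifts.add e d v C.he hd.1 hv.1]
  · rw [ap_smul, C.sTe_e hd, C.fix_yhat hx hx0 C.he hd.1
      (by rw [polar_smul_left, C.bee, smul_zero]) (by rw [polar_smul_left, hd.1, smul_zero])]
  · have h : ap (σ (T e d)) (c • e + w) = (c - polar Q w d) • e + w := by
      rw [ap_add, ap_smul, C.sTe_e hd, C.sTe_mid hd hw]; module
    rw [h, C.yC hw hQw hw0 hv hwv, C.yC hw hQw hw0 (C.mid_add hd hv)
      (by rw [polar_add_right, hwv]; ring), MulAction.Quotient.smul_mk, smul_eq_mul, ← mul_assoc,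
      C.lifts.add e d v C.he hd.1 hv.1]

theorem levi_equivar {l : Γ} (hl : l ∈ levi Q T e f) : l ∈ C.equivar := by
  obtain ⟨hle, hlf, hlm⟩ := C.levi_fix hl
  intro x hx hx0
  rcases C.cases_x hx hx0 with ⟨b, v, hb, hv, rfl⟩ | ⟨c, hc, rfl⟩ | ⟨c, w, v, hw, hQw, hw0, hv, hwv, rfl⟩
  · have h : ap (σ l) (ap (σ (T e v)) (b • f)) = ap (σ (T e (ap (σ l) v))) (b • f) := by
      rw [← ap_mul, ← map_mul, C.levi_mul_Te hl hv, map_mul, ap_mul, ap_smul, hlf]
    rw [h, C.yA hb hv, C.yA hb (hlm v hv), MulAction.Quotient.smul_mk, smul_eq_mul, ← mul_assoc,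
      C.levi_mul_Te hl hv, mul_assoc, ← smul_eq_mul, ← MulAction.Quotient.smul_mk]
    obtain ⟨a, ha, hQa, e1⟩ := C.nv_spec b
    rw [e1, C.n_eq_para ha (by rw [hQa]; exact neg_ne_zero.2 hb) hl, MulAction.Quotient.smul_mk,
      smul_eq_mul]
  · rw [ap_smul, hle, C.yB, MulAction.Quotient.smul_mk, smul_eq_mul, ← mul_assoc]
    obtain ⟨a, ha, hQa, e1⟩ := C.nv_spec 1
    obtain ⟨a', ha', hQa', e1'⟩ := C.nv_spec c
    have hqa : Q (-a) ≠ 0 := by rw [QuadraticMap.map_neg, hQa, neg_ne_zero]; exact one_ne_zero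
    have hl' := C.n_normal (C.mid_neg ha) hqa hl
    rw [C.n_neg ha (by rwa [QuadraticMap.map_neg] at hqa), inv_inv] at hl'
    rw [e1, e1', show l * nlift Q T e f a * nlift Q T e f a' = nlift Q T e f a *
      ((nlift Q T e f a)⁻¹ * l * nlift Q T e f a * nlift Q T e f a') by group,
      ← smul_eq_mul, ← MulAction.Quotient.smul_mk,
      C.n_eq_para ha' (by rw [hQa']; exact neg_ne_zero.2 hc) hl', MulAction.Quotient.smul_mk,
      smul_eq_mul]
  · have hwf : polar Q w (-f) = 0 := by rw [polar_neg_right, C.mid_left_f hw, neg_zero]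
    have h : ap (σ l) (c • e + w) = c • e + ap (σ l) w := by rw [ap_add, ap_smul, hle]
    have hw0' : ap (σ l) w ≠ 0 := fun h' => hw0 (by rw [← ap_inv_ap (σ l) w, h', ap_zero])
    rw [h, C.yC hw hQw hw0 hv hwv, C.yC (hlm w hw) (by rw [Q_ap, hQw]) hw0' (hlm v hv)
      (by rw [polar_ap, hwv]), MulAction.Quotient.smul_mk, smul_eq_mul, ← mul_assoc,
      C.levi_mul_Te hl hv, mul_assoc, C.lifts.mul_comm' l hQw hwf, ap_neg, hlf, ← mul_assoc]
    refine QuotientGroup.eq.2 ?_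
    rw [mul_inv_rev, mul_assoc, inv_mul_cancel, mul_one]
    exact inv_mem (C.levi_le_para hl)

end Frame

end CfsgLib.OrthMult
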