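import Cfsg.Agent.Lib.OrthMult.Basic

/-!
Transitivity of any group of isometries containing the Siegel transformations of a section on the
vectors of a given value in it.
-/

set_option autoImplicit false

namespace CfsgLib.OrthMult

open QuadraticMap CfsgLib.ClassicalForms Module

variable {F V : Type*} [Field F] [AddCommGroup V] [Module F V] [Finite F] [FiniteDimensional F V]
  {Q : QuadraticForm F V} {k : ℕ} {M : Subgroup (orth Q)}

/-- The Siegel group of a large section is transitive on its non-zero singular vectors. -/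
theorem sec_transitive_singular (S : Sec Q k) (hM : ∀ z w : V, S.Mem z → S.Mem w → ∀ (hz : Q z = 0) (hw : polar Q z w = 0),
      siegel Q z w hz hw ∈ M) (hQ : Nondeg Q) (hk : k + 5 ≤ finrank F V)
    {u w : V} (hu : S.Mem u) (hw : S.Mem w) (hQu : Q u = 0) (hQw : Q w = 0) (hu0 : u ≠ 0)
    (hw0 : w ≠ 0) : ∃ g, (g ∈ M ∧ S.InE g) ∧ (g : V ≃ₗ[F] V) u = w := by
  have key : ∀ a b : V, S.Mem a → S.Mem b → Q a = 0 → Q b = 0 → a ≠ 0 → polar Q a b = 0 →
      (∀ c : F, b ≠ c • a) → ∃ g, (g ∈ M ∧ S.InE g) ∧ (g : V ≃ₗ[F] V) a = b := by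
    intro a b ha hb hQa hQb ha0 hab hind
    obtain ⟨z, hz, hQz, hza, hzb⟩ := S.exists_common hQ ha hb hQa hab ha0 hind
    obtain ⟨h, eh⟩ := siegel_sub_apply hQz hQa hQb hza hzb
    exact ⟨_, ⟨hM _ _ hz (S.mem_sub hb ha) hQz h, S.inE_siegel hz (S.mem_sub hb ha) hQz h⟩, eh⟩
  obtain ⟨θ, hθ⟩ := exists_functional_ne_zero (F := F) hu0
  by_cases hind : ∀ c : F, w ≠ c • u
  · by_cases huw : polar Q u w = 0
    · exact key u w hu hw hQu hQw hu0 huw hind
    · obtain ⟨x, hx0, hQx, hx⟩ := exists_singular_ker Q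
        (Fin.cons (QuadraticMap.polarBilin Q u) (Fin.cons (QuadraticMap.polarBilin Q w) S.φ))
        (by omega)
      have hux : polar Q u x = 0 := by simpa using hx 0
      have hwx : polar Q w x = 0 := by simpa using hx (Fin.succ 0)
      have hxS : S.Mem x := fun i => by simpa using hx i.succ.succ
      obtain ⟨g, hg, eg⟩ := key u x hu hxS hQu hQx hu0 hux fun c hc => by
        have hc0 : c ≠ 0 := fun h => hx0 (by rw [hc, h, zero_smul])
        rw [hc, polar_smul_right, polar_comm Q w u, smul_eq_mul] at hwx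
        exact huw ((mul_eq_zero.1 hwx).resolve_left hc0)
      obtain ⟨g', hg', eg'⟩ := key x w hxS hw hQx hQw hx0 (by rw [polar_comm]; exact hwx)
        fun c hc => huw (by rw [hc, polar_smul_right, hux, smul_zero])
      exact ⟨g' * g, ⟨mul_mem hg'.1 hg.1, S.inE_mul hg'.2 hg.2⟩, by rw [orth_mul_apply, eg, eg']⟩
  · simp only [not_forall, not_not] at hind
    obtain ⟨c, rfl⟩ := hind
    have hc0 : c ≠ 0 := fun h => hw0 (by rw [h, zero_smul])
    obtain ⟨x, hx0, hQx, hx⟩ := exists_singular_ker Q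
      (Fin.cons (QuadraticMap.polarBilin Q u) (Fin.cons θ S.φ)) (by omega)
    have hux : polar Q u x = 0 := by simpa using hx 0
    have hθx : θ x = 0 := by simpa using hx (Fin.succ 0)
    have hxS : S.Mem x := fun i => by simpa using hx i.succ.succ
    have hindx : ∀ d : F, x ≠ d • u := fun d hd => by
      rw [hd, map_smul, smul_eq_mul] at hθx
      exact hx0 (by rw [hd, (mul_eq_zero.1 hθx).resolve_right hθ, zero_smul])
    obtain ⟨g, hg, eg⟩ := key u x hu hxS hQu hQx hu0 hux hindx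
    obtain ⟨g', hg', eg'⟩ := key x (c • u) hxS hw hQx hQw hx0
      (by rw [polar_smul_right, polar_comm, hux, smul_zero]) fun d hd => by
        have hd' : (d * θ x) = c * θ u := by
          have := congrArg θ hd
          simpa using this.symm
        rw [hθx, mul_zero] at hd'
        exact mul_ne_zero hc0 hθ hd'.symm
    exact ⟨g' * g, ⟨mul_mem hg'.1 hg.1, S.inE_mul hg'.2 hg.2⟩, by rw [orth_mul_apply, eg, eg']⟩

/-- The Siegel group of a large section is transitive on its hyperbolic pairs. -/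
theorem sec_transitive_hypPair (S : Sec Q k) (hM : ∀ z w : V, S.Mem z → S.Mem w → ∀ (hz : Q z = 0) (hw : polar Q z w = 0),
      siegel Q z w hz hw ∈ M) (hQ : Nondeg Q) (hk : k + 5 ≤ finrank F V)
    {u v u' v' : V} (hu : S.Mem u) (hv : S.Mem v) (hu' : S.Mem u') (hv' : S.Mem v')
    (h : IsHypPair Q (u, v)) (h' : IsHypPair Q (u', v')) :
    ∃ g, (g ∈ M ∧ S.InE g) ∧ (g : V ≃ₗ[F] V) u = u' ∧ (g : V ≃ₗ[F] V) v = v' := by
  obtain ⟨g, hg, eg⟩ := sec_transitive_singular S hM hQ hk hu hu' h.1 h'.1 h.fst_ne_zero h'.fst_ne_zero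
  have hgv : S.Mem ((g : V ≃ₗ[F] V) v) := hg.2.2.1 v hv
  obtain ⟨hw, e⟩ := siegel_sub_apply h'.1 (show Q ((g : V ≃ₗ[F] V) v) = 0 by rw [orth_apply, h.2.1])
    h'.2.1 (show polar Q u' ((g : V ≃ₗ[F] V) v) = 1 by rw [← eg, polar_apply, h.2.2]) h'.2.2
  refine ⟨siegel Q u' _ h'.1 hw * g,
    ⟨mul_mem (hM _ _ hu' (S.mem_sub hv' hgv) h'.1 hw) hg.1,
    S.inE_mul (S.inE_siegel hu' (S.mem_sub hv' hgv) h'.1 hw) hg.2⟩, ?_, by rw [orth_mul_apply, e]⟩
  rw [orth_mul_apply, eg, siegel_apply]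
  simp [polar_self_mul, h'.1, hw]

/-- The Siegel group of a large section is transitive on its vectors of a given non-zero value. -/
theorem sec_transitive_norm (S : Sec Q k) (hM : ∀ z w : V, S.Mem z → S.Mem w → ∀ (hz : Q z = 0) (hw : polar Q z w = 0),
      siegel Q z w hz hw ∈ M) (hQ : Nondeg Q) (hk : k + 5 ≤ finrank F V) {a b : V}
    (ha : S.Mem a) (hb : S.Mem b) (hab : Q a = Q b) (hne : Q a ≠ 0) :
    ∃ g, (g ∈ M ∧ S.InE g) ∧ (g : V ≃ₗ[F] V) a = b := by
  have ne0 : ∀ c : V, Q c = Q a → c ≠ 0 := fun c hc h0 => hne (by rw [← hc, h0, QuadraticMap.map_zero])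
  have key : ∀ c : V, S.Mem c → Q c = Q a →
      ∃ u v, S.Mem u ∧ S.Mem v ∧ IsHypPair Q (u, v) ∧ c = v + Q a • u := by
    intro c hc hQc
    obtain ⟨u, hu, hQu, huc⟩ := S.exists_singular_polar_one hQ (by omega) hc (ne0 c hQc)
    refine ⟨u, c - Q a • u, hu, S.mem_sub hc (S.mem_smul _ hu), ⟨hQu, ?_, ?_⟩, by abel⟩
    · simp [map_sub_eq, QuadraticMap.map_smul, hQu, polar_smul_right, polar_comm Q c u, huc, hQc]
    · simp [polar_sub_right, polar_smul_right, polar_self_mul, hQu, huc]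
  obtain ⟨u, v, hu, hv, hp, ha'⟩ := key a ha rfl
  obtain ⟨u', v', hu', hv', hp', hb'⟩ := key b hb hab.symm
  obtain ⟨g, hg, e1, e2⟩ := sec_transitive_hypPair S hM hQ hk hu hv hu' hv' hp hp'
  refine ⟨g, hg, ?_⟩
  conv_lhs => rw [ha', map_add, map_smul, e1, e2]
  exact hb'.symm

end CfsgLib.OrthMult
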