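import Cfsg.Agent.Lib.OrthMult.Basic
import Cfsg.Agent.Lib.OrthMult.Transitive

/-!
The parabolic subgroup of a central extension of a Siegel group, and the lifts of the elements
exchanging a hyperbolic pair.
-/

set_option autoImplicit false
set_option linter.unusedSectionVars false

namespace CfsgLib.OrthMult

open QuadraticMap CfsgLib.ClassicalForms Module

variable {F V : Type*} [Field F] [AddCommGroup V] [Module F V] [Finite F] [FiniteDimensional F V]
  {Q : QuadraticForm F V} {Γ : Type*} [Group Γ] {σ : Γ →* orth Q} {T : V → V → Γ}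

/-- Orthogonality to a pair of vectors. -/
def Mid (Q : QuadraticForm F V) (e f x : V) : Prop := polar Q e x = 0 ∧ polar Q f x = 0

/-- The data of the cell argument. -/
structure Frame (σ : Γ →* orth Q) (T : V → V → Γ) (e f : V) : Prop where
  ext : CExt σ
  lifts : Lifts σ T
  nondeg : Nondeg Q
  seven : 7 ≤ finrank F V
  pair : IsHypPair Q (e, f)

/-- The subgroup generated by the lifts living in the middle. -/
def levi (Q : QuadraticForm F V) (T : V → V → Γ) (e f : V) : Subgroup Γ :=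
  Subgroup.closure {g | ∃ a b, Mid Q e f a ∧ Mid Q e f b ∧ Q a = 0 ∧ polar Q a b = 0 ∧ g = T a b}

/-- The lift of an element exchanging the lines of the pair, attached to an anisotropic vector. -/
def nlift (Q : QuadraticForm F V) (T : V → V → Γ) (e f a : V) : Γ :=
  T f a * T e ((Q a)⁻¹ • a) * T f a

variable {e f : V}

namespace Frame

variable (C : Frame σ T e f)
include C

theorem he : Q e = 0 := C.pair.1
theorem hf : Q f = 0 := C.pair.2.1
theorem bef : polar Q e f = 1 := C.pair.2.2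
theorem bfe : polar Q f e = 1 := by rw [polar_comm]; exact C.bef
theorem bee : polar Q e e = 0 := polar_singular_self C.he
theorem bff : polar Q f f = 0 := polar_singular_self C.hf
theorem e_ne : e ≠ 0 := C.pair.fst_ne_zero
theorem f_ne : f ≠ 0 := fun h => by
  have := C.bef; rw [h, polar_zero_right] at this; exact zero_ne_one this

omit C in
theorem mid_zero' : Mid Q e f 0 := ⟨by simp, by simp⟩

theorem mid_zero : Mid Q e f 0 := mid_zero'

theorem mid_add {x y : V} (hx : Mid Q e f x) (hy : Mid Q e f y) : Mid Q e f (x + y) :=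
  ⟨by rw [polar_add_right, hx.1, hy.1, add_zero], by rw [polar_add_right, hx.2, hy.2, add_zero]⟩

theorem mid_smul (c : F) {x : V} (hx : Mid Q e f x) : Mid Q e f (c • x) :=
  ⟨by rw [polar_smul_right, hx.1, smul_zero], by rw [polar_smul_right, hx.2, smul_zero]⟩

theorem mid_neg {x : V} (hx : Mid Q e f x) : Mid Q e f (-x) :=
  ⟨by rw [polar_neg_right, hx.1, neg_zero], by rw [polar_neg_right, hx.2, neg_zero]⟩

theorem mid_sub {x y : V} (hx : Mid Q e f x) (hy : Mid Q e f y) : Mid Q e f (x - y) := by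
  rw [sub_eq_add_neg]; exact C.mid_add hx (C.mid_neg hy)

theorem mid_proj (x : V) : Mid Q e f (x - polar Q f x • e - polar Q e x • f) :=
  ⟨by simp [polar_sub_right, polar_smul_right, C.bee, C.bef],
    by simp [polar_sub_right, polar_smul_right, C.bfe, C.bff]⟩

theorem mid_proj' {x : V} (hx : polar Q e x = 0) : Mid Q e f (x - polar Q f x • e) := by
  have := C.mid_proj x
  rwa [hx, zero_smul, sub_zero] at this

theorem mid_left_e {x : V} (hx : Mid Q e f x) : polar Q x e = 0 := by rw [polar_comm]; exact hx.1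

theorem mid_left_f {x : V} (hx : Mid Q e f x) : polar Q x f = 0 := by rw [polar_comm]; exact hx.2

/-- The section of vectors orthogonal to the pair. -/
noncomputable def sec : Sec Q (0 + 2) := (Sec.top Q).cut e f (Sec.mem_top e) (Sec.mem_top f) C.pair

theorem mem_sec {x : V} : C.sec.Mem x ↔ Mid Q e f x := by
  rw [sec, Sec.mem_cut_iff]
  exact ⟨fun h => ⟨h.1, h.2.1⟩, fun h => ⟨h.1, h.2, Sec.mem_top _⟩⟩

theorem partner {a : V} (ha : Mid Q e f a) (hQa : Q a = 0) (ha0 : a ≠ 0) :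
    ∃ z, Mid Q e f z ∧ Q z = 0 ∧ polar Q a z = 1 := by
  obtain ⟨z, hz, -, h1, h2⟩ := C.sec.exists_partner C.nondeg (C.mem_sec.2 ha) hQa ha0
  exact ⟨z, C.mem_sec.1 hz, h1, h2⟩

theorem value (c : F) : ∃ a, Mid Q e f a ∧ Q a = c := by
  obtain ⟨a, ha, h⟩ := exists_value C.sec C.nondeg (by have := C.seven; omega) c
  exact ⟨a, C.mem_sec.1 ha, h⟩

theorem value_perp {w : V} (hw : Mid Q e f w) (hQw : Q w = 0) (hw0 : w ≠ 0) (c : F) :
    ∃ a, Mid Q e f a ∧ Q a = c ∧ polar Q w a = 0 := by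
  obtain ⟨z, hz, hp⟩ := C.sec.exists_partner C.nondeg (C.mem_sec.2 hw) hQw hw0
  obtain ⟨a, ha, h⟩ := exists_value (C.sec.cut w z (C.mem_sec.2 hw) hz hp) C.nondeg
    (by have := C.seven; omega) c
  obtain ⟨h1, -, h3⟩ := (Sec.mem_cut_iff _ _ _ hp a).1 ha
  exact ⟨a, C.mem_sec.1 h3, h, h1⟩

theorem sT {u w : V} (hu : Q u = 0) (hw : polar Q u w = 0) (x : V) :
    ap (σ (T u w)) x = x + polar Q x u • w - (polar Q x w + Q w * polar Q x u) • u := by
  rw [C.lifts.map u w hu hw]; rfl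

theorem sT_fix {u w : V} (hu : Q u = 0) (hw : polar Q u w = 0) {x : V} (h1 : polar Q x u = 0)
    (h2 : polar Q x w = 0) : ap (σ (T u w)) x = x := by
  rw [C.sT hu hw]; simp [h1, h2]

theorem sTe_e {w : V} (hw : Mid Q e f w) : ap (σ (T e w)) e = e :=
  C.sT_fix C.he hw.1 C.bee hw.1

theorem sTe_f {w : V} (hw : Mid Q e f w) : ap (σ (T e w)) f = f + w - Q w • e := by
  rw [C.sT C.he hw.1, C.bfe, hw.2]; simp

theorem sTe_mid {w x : V} (hw : Mid Q e f w) (hx : Mid Q e f x) :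
    ap (σ (T e w)) x = x - polar Q x w • e := by
  rw [C.sT C.he hw.1, C.mid_left_e hx]; simp

theorem sTf_f {w : V} (hw : Mid Q e f w) : ap (σ (T f w)) f = f :=
  C.sT_fix C.hf hw.2 C.bff hw.2

theorem sTf_e {w : V} (hw : Mid Q e f w) : ap (σ (T f w)) e = e + w - Q w • f := by
  rw [C.sT C.hf hw.2, C.bef, hw.1]; simp

theorem sTf_mid {w x : V} (hw : Mid Q e f w) (hx : Mid Q e f x) :
    ap (σ (T f w)) x = x - polar Q x w • f := by
  rw [C.sT C.hf hw.2, C.mid_left_f hx]; simp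

/-! ### the Levi part -/

theorem T_mem_levi {a b : V} (ha : Mid Q e f a) (hb : Mid Q e f b) (hQa : Q a = 0)
    (hab : polar Q a b = 0) : T a b ∈ levi Q T e f :=
  Subgroup.subset_closure ⟨a, b, ha, hb, hQa, hab, rfl⟩

theorem levi_fix {l : Γ} (hl : l ∈ levi Q T e f) : ap (σ l) e = e ∧ ap (σ l) f = f ∧
    ∀ x, Mid Q e f x → Mid Q e f (ap (σ l) x) := by
  have h2 : ap (σ l) e = e ∧ ap (σ l) f = f := by
    induction hl using Subgroup.closure_induction with
    | mem g hg =>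
      obtain ⟨a, b, ha, hb, hQa, hab, rfl⟩ := hg
      exact ⟨C.sT_fix hQa hab ha.1 hb.1, C.sT_fix hQa hab ha.2 hb.2⟩
    | one => rw [map_one]; exact ⟨rfl, rfl⟩
    | mul g h _ _ hg hh =>
      rw [map_mul, ap_mul, ap_mul, hh.1, hg.1, hh.2, hg.2]; exact ⟨rfl, rfl⟩
    | inv g _ hg =>
      rw [map_inv]
      exact ⟨by rw [← congrArg (ap (σ g)⁻¹) hg.1, ap_inv_ap],
        by rw [← congrArg (ap (σ g)⁻¹) hg.2, ap_inv_ap]⟩
  refine ⟨h2.1, h2.2, fun x hx => ⟨?_, ?_⟩⟩
  · conv_lhs => rw [← h2.1, polar_ap]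
    exact hx.1
  · conv_lhs => rw [← h2.2, polar_ap]
    exact hx.2

theorem levi_transitive {a b : V} (ha : Mid Q e f a) (hb : Mid Q e f b) (hab : Q a = Q b)
    (hne : Q a ≠ 0) : ∃ l ∈ levi Q T e f, ap (σ l) a = b := by
  obtain ⟨g, ⟨⟨l, hl, rfl⟩, -⟩, hg⟩ := sec_transitive_norm C.sec
    (M := (levi Q T e f).map σ)
    (fun z w hz hw hQz hzw => ⟨T z w, C.T_mem_levi (C.mem_sec.1 hz) (C.mem_sec.1 hw) hQz hzw,
      C.lifts.map z w hQz hzw⟩)
    C.nondeg (by have := C.seven; omega) (C.mem_sec.2 ha) (C.mem_sec.2 hb) hab hne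
  exact ⟨l, hl, hg⟩

theorem levi_conj_mem {γ : Γ} (h : ∀ x, Mid Q e f x → Mid Q e f (ap (σ γ) x)) {l : Γ}
    (hl : l ∈ levi Q T e f) : γ * l * γ⁻¹ ∈ levi Q T e f := by
  induction hl using Subgroup.closure_induction with
  | mem g hg =>
    obtain ⟨a, b, ha, hb, hQa, hab, rfl⟩ := hg
    rw [C.lifts.equiv γ a b hQa hab]
    exact C.T_mem_levi (h a ha) (h b hb) (by rw [Q_ap, hQa]) (by rw [polar_ap, hab])
  | one => rw [mul_one, mul_inv_cancel]; exact one_mem _
  | mul g h' _ _ hg hh =>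
    rw [show γ * (g * h') * γ⁻¹ = γ * g * γ⁻¹ * (γ * h' * γ⁻¹) by group]
    exact mul_mem hg hh
  | inv g _ hg =>
    rw [show γ * g⁻¹ * γ⁻¹ = (γ * g * γ⁻¹)⁻¹ by group]
    exact inv_mem hg

/-! ### the parabolic -/

/-- The unipotent radical. -/
def radical : Subgroup Γ where
  carrier := {γ | ∃ w, Mid Q e f w ∧ γ = T e w}
  one_mem' := ⟨0, C.mid_zero, (C.lifts.right_zero C.he).symm⟩
  mul_mem' := by
    rintro _ _ ⟨v, hv, rfl⟩ ⟨w, hw, rfl⟩
    exact ⟨v + w, C.mid_add hv hw, C.lifts.add e v w C.he hv.1 hw.1⟩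
  inv_mem' := by
    rintro _ ⟨w, hw, rfl⟩
    exact ⟨-w, C.mid_neg hw, (C.lifts.neg C.he hw.1).symm⟩

theorem levi_mul_Te {l : Γ} (hl : l ∈ levi Q T e f) {w : V} (hw : Mid Q e f w) :
    l * T e w = T e (ap (σ l) w) * l := by
  rw [C.lifts.mul_comm' l C.he hw.1, (C.levi_fix hl).1]

/-- The stabiliser of the line. -/
def para : Subgroup Γ where
  carrier := {γ | ∃ w l, Mid Q e f w ∧ l ∈ levi Q T e f ∧ γ = T e w * l}
  one_mem' := ⟨0, 1, C.mid_zero, one_mem _, by rw [C.lifts.right_zero C.he, one_mul]⟩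
  mul_mem' := by
    rintro _ _ ⟨v, l, hv, hl, rfl⟩ ⟨w, l', hw, hl', rfl⟩
    have hw' := (C.levi_fix hl).2.2 w hw
    refine ⟨v + ap (σ l) w, l * l', C.mid_add hv hw', mul_mem hl hl', ?_⟩
    rw [← C.lifts.add e v _ C.he hv.1 hw'.1,
      show T e v * l * (T e w * l') = T e v * (l * T e w) * l' by group, C.levi_mul_Te hl hw]
    group
  inv_mem' := by
    rintro _ ⟨w, l, hw, hl, rfl⟩
    have hw' := C.mid_neg ((C.levi_fix (inv_mem hl)).2.2 w hw)
    refine ⟨_, l⁻¹, hw', inv_mem hl, ?_⟩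
    rw [C.lifts.neg C.he ((C.levi_fix (inv_mem hl)).2.2 w hw).1]
    have h := C.levi_mul_Te (inv_mem hl) hw
    have h' : T e (ap (σ l⁻¹) w) = l⁻¹ * T e w * l := by rw [h]; group
    rw [h']; group

theorem levi_le_para {l : Γ} (hl : l ∈ levi Q T e f) : l ∈ C.para :=
  ⟨0, l, C.mid_zero, hl, by rw [C.lifts.right_zero C.he, one_mul]⟩

theorem Te_mem_para {w : V} (hw : Mid Q e f w) : T e w ∈ C.para :=
  ⟨w, 1, hw, one_mem _, (mul_one _).symm⟩

theorem Te_mem_para' {b : V} (hb : polar Q e b = 0) : T e b ∈ C.para := by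
  rw [show b = (b - polar Q f b • e) + polar Q f b • e by abel,
    C.lifts.add_smul _ e _ C.he (C.mid_proj' hb).1]
  exact C.Te_mem_para (C.mid_proj' hb)

theorem para_fix_e {γ : Γ} (hγ : γ ∈ C.para) : ap (σ γ) e = e := by
  obtain ⟨w, l, hw, hl, rfl⟩ := hγ
  rw [map_mul, ap_mul, (C.levi_fix hl).1, C.sTe_e hw]

theorem T_mem_para {a b : V} (hQa : Q a = 0) (hab : polar Q a b = 0) (hea : polar Q e a = 0)
    (heb : polar Q e b = 0) : T a b ∈ C.para := by
  have ha' := C.mid_proj' hea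
  by_cases h0 : a - polar Q f a • e = 0
  · rw [sub_eq_zero] at h0
    rw [h0, C.lifts.smul _ e b C.he heb]
    exact C.Te_mem_para' (by rw [polar_smul_right, heb, smul_zero])
  set c := polar Q f a
  set a' := a - c • e
  have hQa' : Q a' = 0 := by
    simp [a', map_sub_eq, QuadraticMap.map_smul, hQa, C.he, polar_smul_right, polar_comm Q a e, hea]
  obtain ⟨z, hz, -, hz1⟩ := C.partner ha' hQa' h0
  have hzc := C.mid_smul (-c) hz
  have hga : ap (σ (T e (-c • z))) a' = a := by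
    rw [C.sTe_mid hzc ha', polar_smul_right, hz1]; simp [a']
  set γ := T e (-c • z)
  set b' := ap (σ γ)⁻¹ b
  have hb' : ap (σ γ) b' = b := ap_ap_inv _ _
  have heb' : polar Q e b' = 0 := by
    rw [← polar_ap (σ γ), hb', C.sTe_e hzc, heb]
  have ha'b' : polar Q a' b' = 0 := by rw [← polar_ap (σ γ), hga, hb', hab]
  have hb₁ := C.mid_proj' heb'
  set d := polar Q f b'
  have hab1 : polar Q a' (b' - d • e) = 0 := by
    rw [polar_sub_right, ha'b', polar_smul_right, C.mid_left_e ha']; simp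
  have hade : polar Q a' (d • e) = 0 := by rw [polar_smul_right, C.mid_left_e ha', smul_zero]
  have hmem : T a' b' ∈ C.para := by
    rw [show b' = (b' - d • e) + d • e by abel, ← C.lifts.add a' _ _ hQa' hab1 hade]
    refine mul_mem (C.levi_le_para (C.T_mem_levi ha' hb₁ hQa' hab1)) ?_
    rw [← C.lifts.swap a' (d • e) hQa' hade (by simp [QuadraticMap.map_smul, C.he]),
      C.lifts.smul d e (-a') C.he (C.mid_neg ha').1]
    exact C.Te_mem_para (C.mid_smul d (C.mid_neg ha'))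
  have hT : T a b = γ * T a' b' * γ⁻¹ := by rw [C.lifts.equiv γ a' b' hQa' ha'b', hga, hb']
  rw [hT]
  exact mul_mem (mul_mem (C.Te_mem_para hzc) hmem) (inv_mem (C.Te_mem_para hzc))

theorem fix_coset (g : Γ) {a b : V} (hQa : Q a = 0) (hab : polar Q a b = 0)
    (ha : polar Q (ap (σ g) e) a = 0) (hb : polar Q (ap (σ g) e) b = 0) :
    ((T a b * g : Γ) : Γ ⧸ C.para) = (g : Γ ⧸ C.para) := by
  refine (QuotientGroup.eq.2 ?_).symm
  have h := C.lifts.equiv g⁻¹ a b hQa hab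
  rw [inv_inv, map_inv] at h
  rw [show g⁻¹ * (T a b * g) = g⁻¹ * T a b * g by group, h]
  refine C.T_mem_para (by rw [Q_ap, hQa]) (by rw [polar_ap, hab]) ?_ ?_
  · rw [← ap_inv_ap (σ g) e, polar_ap, ha]
  · rw [← ap_inv_ap (σ g) e, polar_ap, hb]

/-! ### exchanging elements -/

section nlift

variable {a : V} (ha : Mid Q e f a) (hq : Q a ≠ 0)
include ha hq

omit hq in
theorem mid_inv_smul : Mid Q e f ((Q a)⁻¹ • a) := C.mid_smul _ ha

theorem n_e : ap (σ (nlift Q T e f a)) e = -Q a • f := by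
  have hb := C.mid_inv_smul ha
  simp only [nlift, map_mul, ap_mul, C.sTf_e ha, ap_add, ap_sub, ap_smul, C.sTe_e hb, C.sTe_f hb,
    C.sTe_mid hb ha, C.sTf_f ha, C.sTf_mid ha ha, QuadraticMap.map_smul, polar_smul_right,
    polar_self_mul, smul_eq_mul]
  match_scalars <;> field_simp <;> ring

theorem n_f : ap (σ (nlift Q T e f a)) f = -(Q a)⁻¹ • e := by
  have hb := C.mid_inv_smul ha
  simp only [nlift, map_mul, ap_mul, C.sTf_e ha, ap_add, ap_sub, ap_smul, C.sTe_e hb, C.sTe_f hb,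
    C.sTe_mid hb ha, C.sTf_f ha, C.sTf_mid ha ha, QuadraticMap.map_smul, polar_smul_right,
    polar_self_mul, smul_eq_mul]
  match_scalars <;> field_simp <;> ring

theorem n_mid {x : V} (hx : Mid Q e f x) :
    ap (σ (nlift Q T e f a)) x = ap (ClassicalForms.refl Q a hq) x := by
  have hb := C.mid_inv_smul ha
  simp only [nlift, map_mul, ap_mul, C.sTf_e ha, ap_add, ap_sub, ap_smul, C.sTe_e hb, C.sTe_f hb,
    C.sTe_mid hb hx, C.sTf_f ha, C.sTf_mid ha hx, C.sTf_mid ha ha, C.sTe_mid hb ha,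
    QuadraticMap.map_smul, polar_smul_right, polar_self_mul, smul_eq_mul, refl_apply]
  match_scalars <;> field_simp <;> ring

omit ha hq in
theorem mid_refl {a x : V} (ha : Mid Q e f a) (hq : Q a ≠ 0) (hx : Mid Q e f x) :
    Mid Q e f (ap (ClassicalForms.refl Q a hq) x) := by
  show Mid Q e f ((ClassicalForms.refl Q a hq : V ≃ₗ[F] V) x)
  rw [refl_apply]
  exact C.mid_sub hx (C.mid_smul _ ha)

theorem n_preserves {x : V} (hx : Mid Q e f x) : Mid Q e f (ap (σ (nlift Q T e f a)) x) := by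
  rw [C.n_mid ha hq hx]; exact C.mid_refl ha hq hx

theorem n_self : ap (σ (nlift Q T e f a)) a = -a := by
  rw [C.n_mid ha hq ha]; exact refl_self a hq

theorem n_normal {l : Γ} (hl : l ∈ levi Q T e f) :
    nlift Q T e f a * l * (nlift Q T e f a)⁻¹ ∈ levi Q T e f :=
  C.levi_conj_mem (fun _ hx => C.n_preserves ha hq hx) hl

theorem n_neg : nlift Q T e f (-a) = (nlift Q T e f a)⁻¹ := by
  rw [nlift, nlift, QuadraticMap.map_neg, smul_neg, C.lifts.neg C.hf ha.2,
    C.lifts.neg C.he (C.mid_inv_smul ha).1]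
  group

theorem n_bab : nlift Q T e f a =
    T e ((Q a)⁻¹ • a) * T f a * T e ((Q a)⁻¹ • a) := by
  set n := nlift Q T e f a with hn
  have h : n * T f a * n⁻¹ = T e ((Q a)⁻¹ • a) := by
    rw [C.lifts.equiv n f a C.hf ha.2, C.n_f ha hq, C.n_self ha hq,
      C.lifts.smul _ e _ C.he (C.mid_neg ha).1, smul_neg, neg_smul, neg_neg]
  have h' : n = T e ((Q a)⁻¹ • a) * n * (T f a)⁻¹ := by rw [← h]; group
  conv_lhs => rw [h', hn, nlift]
  group

theorem n_conj {b : V} (hb : Mid Q e f b) (hqb : Q b ≠ 0) :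
    nlift Q T e f a * nlift Q T e f b * (nlift Q T e f a)⁻¹ =
      nlift Q T e f (-(Q a / Q b) • ap (ClassicalForms.refl Q a hq) b) := by
  set n := nlift Q T e f a with hn
  set r := ap (ClassicalForms.refl Q a hq) b with hr
  have hrm : Mid Q e f r := C.mid_refl ha hq hb
  have hQr : Q r = Q b := Q_ap _ _
  have hbb := C.mid_inv_smul hb
  have h1 : n * T f b * n⁻¹ = T e (-(Q a)⁻¹ • r) := by
    rw [C.lifts.equiv n f b C.hf hb.2, C.n_f ha hq, C.n_mid ha hq hb, C.lifts.smul _ e _ C.he hrm.1]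
  have h2 : n * T e ((Q b)⁻¹ • b) * n⁻¹ = T f (-(Q a / Q b) • r) := by
    rw [C.lifts.equiv n e _ C.he hbb.1, C.n_e ha hq, ap_smul, C.n_mid ha hq hb,
      C.lifts.smul _ f _ C.hf (C.mid_smul _ hrm).2, smul_smul]
    congr 2
    field_simp
  have hQc : Q (-(Q a / Q b) • r) = Q a * Q a / Q b := by
    rw [QuadraticMap.map_smul, hQr, smul_eq_mul]; field_simp
  have hcm : Mid Q e f (-(Q a / Q b) • r) := C.mid_smul _ hrm
  have hcne : Q (-(Q a / Q b) • r) ≠ 0 := by rw [hQc]; exact div_ne_zero (mul_ne_zero hq hq) hqb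
  rw [C.n_bab hcm hcne, hQc]
  have e3 : (Q a * Q a / Q b)⁻¹ • -(Q a / Q b) • r = -(Q a)⁻¹ • r := by
    rw [smul_smul]; congr 1; field_simp
  rw [e3, ← h1, ← h2]
  conv_lhs => rw [show nlift Q T e f b = T f b * T e ((Q b)⁻¹ • b) * T f b from rfl]
  group

end nlift

end Frame

end CfsgLib.OrthMult
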