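import Cfsg.Agent.Lib.OrthMult.MinusBound
import Cfsg.Agent.Lib.ClassicalForms.Ortho.Index
import Cfsg.Agent.Lib.ClassicalForms.Ortho.CharTwo
import Cfsg.Agent.Lib.ClassicalLinear.SympPerfect
import Cfsg.Agent.Lib.ClassK.OrthPlusMult.Central
import Cfsg.Agent.Lib.SpMult.Amalgam

/-!
In characteristic two, the group of Siegel transformations orthogonal to a vector of norm one in a
space of minus type is symplectic, and its preimage in a central extension has a section.
-/

set_option autoImplicit false
set_option linter.unusedSectionVars false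

namespace CfsgLib.OrthMult

open QuadraticMap CfsgLib.ClassicalForms Module
open scoped commutatorElement

universe u

section general

variable {F V : Type*} [Field F] [AddCommGroup V] [Module F V]

/-- The Siegel transformations orthogonal to a vector generate this subgroup. -/
def perpSiegel (Q : QuadraticForm F V) (a : V) : Subgroup (orth Q) :=
  Subgroup.closure {g | ∃ (u w : V) (hu : Q u = 0) (hw : polar Q u w = 0),
    polar Q a u = 0 ∧ polar Q a w = 0 ∧ g = siegel Q u w hu hw}

variable {Q : QuadraticForm F V}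

theorem siegel_mem_perpSiegel {a u w : V} (hu : Q u = 0) (hw : polar Q u w = 0) (hau : polar Q a u = 0)
    (haw : polar Q a w = 0) : siegel Q u w hu hw ∈ perpSiegel Q a :=
  Subgroup.subset_closure ⟨u, w, hu, hw, hau, haw, rfl⟩

theorem perpSiegel_le (a : V) : perpSiegel Q a ≤ siegelGroup Q :=
  Subgroup.closure_mono fun _ ⟨u, w, hu, hw, _, _, e⟩ => ⟨u, w, hu, hw, e⟩

theorem perpSiegel_fix {a : V} {g : orth Q} (hg : g ∈ perpSiegel Q a) : ap g a = a := by
  induction hg using Subgroup.closure_induction with
  | mem g hg =>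
    obtain ⟨u, w, hu, hw, hau, haw, rfl⟩ := hg
    exact siegel_fix hu hw hau haw
  | one => rw [ap_one]
  | mul g h _ _ hg hh => rw [ap_mul, hh, hg]
  | inv g _ hg => conv_lhs => rw [← hg, ap_inv_ap]

theorem conj_mem_perpSiegel (g : orth Q) {a : V} {h : orth Q} (hh : h ∈ perpSiegel Q a) :
    g * h * g⁻¹ ∈ perpSiegel Q (ap g a) := by
  induction hh using Subgroup.closure_induction with
  | mem x hx =>
    obtain ⟨u, w, hu, hw, hau, haw, rfl⟩ := hx
    rw [conj_siegel]
    exact siegel_mem_perpSiegel _ _ (by rw [polar_apply, hau]) (by rw [polar_apply, haw])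
  | one => rw [mul_one, mul_inv_cancel]; exact one_mem _
  | mul x y _ _ hx hy =>
    rw [show g * (x * y) * g⁻¹ = g * x * g⁻¹ * (g * y * g⁻¹) by group]
    exact mul_mem hx hy
  | inv x _ hx =>
    rw [show g * x⁻¹ * g⁻¹ = (g * x * g⁻¹)⁻¹ by group]
    exact inv_mem hx

/-- The product of two Siegel transformations with orthogonal singular vectors along the same vector
of norm one, in characteristic two. -/
theorem siegel_add_vec (h2 : (2 : F) = 0) {u v a : V} (hu : Q u = 0) (hv : Q v = 0) (huv : polar Q u v = 0)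
    (ha : Q a = 1) (hua : polar Q u a = 0) (hva : polar Q v a = 0) :
    siegel Q (u + v) a (by rw [QuadraticMap.map_add ⇑Q, hu, hv, huv]; simp)
        (by rw [polar_add_left, hua, hva, add_zero]) =
      siegel Q u a hu hua * siegel Q v a hv hva * siegel Q u v hu huv := by
  refine ap_ext fun x => ?_
  have hvu : polar Q v u = 0 := by rw [polar_comm, huv]
  have hau : polar Q a u = 0 := by rw [polar_comm, hua]
  have hav : polar Q a v = 0 := by rw [polar_comm, hva]
  have huu : polar Q u u = 0 := polar_singular_self hu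
  have hvv : polar Q v v = 0 := polar_singular_self hv
  have haa : polar Q a a = 0 := by rw [polar_self_mul, h2, zero_mul]
  simp only [ap_mul, ap_siegel, polar_add_right, polar_add_left, polar_sub_left, polar_smul_left, hu, hv, ha, huv,
    hua, hva, hvu, hau, hav, huu, hvv, haa, smul_eq_mul, mul_zero, zero_mul, add_zero, zero_add, sub_zero, one_mul]
  match_scalars
  all_goals first
    | ring1
    | linear_combination polar Q x u * h2
    | linear_combination polar Q x v * h2
    | linear_combination -polar Q x u * h2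
    | linear_combination -polar Q x v * h2

end general

variable {F : Type u} [Field F] [Finite F] {m : ℕ} {a b : F}

/-- The hyperbolic part. -/
def jW (F : Type u) [Field F] (m : ℕ) : (Fin m ⊕ Fin m → F) →ₗ[F] VMinus F m where
  toFun w := Sum.elim w 0
  map_add' x y := funext fun i => by rcases i with i | i <;> simp
  map_smul' c x := funext fun i => by rcases i with i | i <;> simp

/-- The projection to the hyperbolic part. -/
def pW (F : Type u) [Field F] (m : ℕ) : VMinus F m →ₗ[F] (Fin m ⊕ Fin m → F) :=
  LinearMap.funLeft F F Sum.inl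

theorem pW_jW (w : Fin m ⊕ Fin m → F) : pW F m (jW F m w) = w := rfl

theorem pW_aMinus : pW F m (aMinus F m) = 0 := rfl

theorem qMinus_jW (w : Fin m ⊕ Fin m → F) : qMinus m F a b (jW F m w) = hyp w := by
  rw [qMinus_apply]; simp [jW, Cfsg.quadFormMinus, Cfsg.quadFormPlus, hyp]

theorem qMinus_aMinus : qMinus m F a b (aMinus F m) = 1 := by
  rw [qMinus_apply]; simp [aMinus, Cfsg.quadFormMinus, Cfsg.quadFormPlus]

variable [CharP F 2]

theorem two_zero : (2 : F) = 0 := CharP.cast_eq_zero F 2

theorem a_ne_zero (hab : Aniso a b) : a ≠ 0 := fun h => by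
  refine hab.disc_ne_zero ?_
  rw [h, show (4 : F) = 2 * 2 by norm_num, two_zero]; ring

theorem polar_aMinus (v : VMinus F m) : polar (qMinus m F a b) (aMinus F m) v = a * v (.inr 1) := by
  rw [polar_qMinus]; simp [aMinus, two_zero]

theorem polar_jW (x y : Fin m ⊕ Fin m → F) :
    polar (qMinus m F a b) (jW F m x) (jW F m y) = Cfsg.sympForm m F x y := by
  rw [polar_qMinus, sympForm_apply]
  simp [jW, two_zero, CharTwo.sub_eq_add]
  exact Finset.sum_congr rfl fun i _ => by ring

theorem polar_aMinus_jW (x : Fin m ⊕ Fin m → F) : polar (qMinus m F a b) (aMinus F m) (jW F m x) = 0 := by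
  rw [polar_aMinus]; simp [jW]

theorem polar_aMinus_self : polar (qMinus m F a b) (aMinus F m) (aMinus F m) = 0 := by
  rw [polar_aMinus]; simp [aMinus]

theorem perp_decomp (hab : Aniso a b) {v : VMinus F m} (hv : polar (qMinus m F a b) (aMinus F m) v = 0) :
    v = jW F m (pW F m v) + v (.inr 0) • aMinus F m := by
  rw [polar_aMinus, mul_eq_zero, or_iff_right (a_ne_zero hab)] at hv
  funext i
  rcases i with i | i
  · simp [jW, pW, LinearMap.funLeft_apply, aMinus]
  · fin_cases i <;> simp [jW, aMinus, hv]

/-- The action on the hyperbolic part. -/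
def actW (g : perpSiegel (qMinus m F a b) (aMinus F m)) : (Fin m ⊕ Fin m → F) →ₗ[F] (Fin m ⊕ Fin m → F) :=
  (pW F m).comp (((g : orth (qMinus m F a b)) : VMinus F m ≃ₗ[F] VMinus F m).toLinearMap.comp (jW F m))

theorem actW_apply (g : perpSiegel (qMinus m F a b) (aMinus F m)) (w : Fin m ⊕ Fin m → F) :
    actW g w = pW F m (ap (g : orth (qMinus m F a b)) (jW F m w)) := rfl

theorem ap_jW (hab : Aniso a b) (g : perpSiegel (qMinus m F a b) (aMinus F m)) (w : Fin m ⊕ Fin m → F) :
    ∃ c : F, ap (g : orth (qMinus m F a b)) (jW F m w) = jW F m (actW g w) + c • aMinus F m :=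
  ⟨_, perp_decomp hab (by
    have h := polar_ap (g : orth (qMinus m F a b)) (aMinus F m) (jW F m w)
    rw [perpSiegel_fix g.2, polar_aMinus_jW] at h
    exact h)⟩

theorem actW_mul (hab : Aniso a b) (g h : perpSiegel (qMinus m F a b) (aMinus F m)) (w : Fin m ⊕ Fin m → F) :
    actW (g * h) w = actW g (actW h w) := by
  obtain ⟨c, hc⟩ := ap_jW hab h w
  rw [actW_apply, Subgroup.coe_mul, ap_mul, hc, ap_add, ap_smul, perpSiegel_fix g.2, map_add, map_smul, pW_aMinus,
    smul_zero, add_zero]
  rfl

theorem actW_one (w : Fin m ⊕ Fin m → F) : actW (1 : perpSiegel (qMinus m F a b) (aMinus F m)) w = w := rfl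

theorem sympForm_actW (hab : Aniso a b) (g : perpSiegel (qMinus m F a b) (aMinus F m)) (x y : Fin m ⊕ Fin m → F) :
    Cfsg.sympForm m F (actW g x) (actW g y) = Cfsg.sympForm m F x y := by
  obtain ⟨c, hc⟩ := ap_jW hab g x
  obtain ⟨d, hd⟩ := ap_jW hab g y
  have h := polar_ap (g : orth (qMinus m F a b)) (jW F m x) (jW F m y)
  rw [hc, hd] at h
  simp only [polar_add_left, polar_add_right, polar_smul_left, polar_smul_right, polar_jW, polar_aMinus_jW,
    polar_comm _ (jW F m (actW g x)) (aMinus F m), polar_aMinus_self, smul_zero, add_zero] at h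
  exact h

/-- The action as an automorphism. -/
def actWEquiv (hab : Aniso a b) (g : perpSiegel (qMinus m F a b) (aMinus F m)) :
    (Fin m ⊕ Fin m → F) ≃ₗ[F] (Fin m ⊕ Fin m → F) :=
  LinearEquiv.ofLinear (actW g) (actW g⁻¹)
    (LinearMap.ext fun w => by rw [LinearMap.comp_apply, ← actW_mul hab, mul_inv_cancel, actW_one]; rfl)
    (LinearMap.ext fun w => by rw [LinearMap.comp_apply, ← actW_mul hab, inv_mul_cancel, actW_one]; rfl)

theorem sympForm_actWEquiv (hab : Aniso a b) (g : perpSiegel (qMinus m F a b) (aMinus F m))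
    (x y : Fin m ⊕ Fin m → F) :
    Cfsg.sympForm m F (actWEquiv hab g x) (actWEquiv hab g y) = Cfsg.sympForm m F x y :=
  sympForm_actW hab g x y

/-- The map to the symplectic group. -/
noncomputable def toSpW (hab : Aniso a b) :
    perpSiegel (qMinus m F a b) (aMinus F m) →* Matrix.symplecticGroup (Fin m) F where
  toFun g := CfsgLib.Forms.spOfEquiv (actWEquiv hab g) (sympForm_actWEquiv hab g)
  map_one' := CfsgLib.ClassicalLinear.sp_ext fun x => by
    rw [CfsgLib.ClassicalLinear.sp_smul_eq, CfsgLib.Forms.spOfEquiv_mulVec, one_smul]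
    exact actW_one x
  map_mul' g h := CfsgLib.ClassicalLinear.sp_ext fun x => by
    rw [mul_smul, CfsgLib.ClassicalLinear.sp_smul_eq, CfsgLib.Forms.spOfEquiv_mulVec,
      CfsgLib.ClassicalLinear.sp_smul_eq, CfsgLib.Forms.spOfEquiv_mulVec,
      CfsgLib.ClassicalLinear.sp_smul_eq, CfsgLib.Forms.spOfEquiv_mulVec]
    exact actW_mul hab g h x

theorem toSpW_smul (hab : Aniso a b) (g : perpSiegel (qMinus m F a b) (aMinus F m)) (w : Fin m ⊕ Fin m → F) :
    toSpW hab g • w = actW g w := by
  rw [CfsgLib.ClassicalLinear.sp_smul_eq]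
  exact CfsgLib.Forms.spOfEquiv_mulVec _ (sympForm_actWEquiv hab g) w

/-- The image of a short Siegel transformation is a transvection. -/
theorem toSpW_siegel (hab : Aniso a b) (v : Fin m ⊕ Fin m → F) (s t : F)
    (hu : qMinus m F a b (jW F m v + s • aMinus F m) = 0)
    (hw : polar (qMinus m F a b) (jW F m v + s • aMinus F m) (t • aMinus F m) = 0)
    (hm' : siegel _ _ _ hu hw ∈ perpSiegel (qMinus m F a b) (aMinus F m)) :
    toSpW hab ⟨_, hm'⟩ = CfsgLib.ClassicalLinear.spT v (t * t) := by
  refine CfsgLib.ClassicalLinear.sp_ext fun x => ?_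
  rw [toSpW_smul, CfsgLib.ClassicalLinear.spT_smul, actW_apply]
  show pW F m (ap (siegel _ _ _ hu hw) (jW F m x)) = _
  rw [ap_siegel]
  simp only [polar_add_right, polar_smul_right, polar_jW, polar_comm _ (jW F m x) (aMinus F m), polar_aMinus_jW,
    QuadraticMap.map_smul, qMinus_aMinus, smul_eq_mul, smul_zero, mul_zero, add_zero, zero_add, mul_one]
  rw [LinearMap.map_sub, LinearMap.map_add, LinearMap.map_smul, LinearMap.map_smul, LinearMap.map_smul,
    LinearMap.map_add, LinearMap.map_smul, pW_aMinus, pW_jW, pW_jW]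
  simp only [smul_zero, add_zero]
  rw [sub_eq_add_neg, ← neg_smul, CharTwo.neg_eq]

theorem toSpW_surjective (hab : Aniso a b) : Function.Surjective (toSpW (m := m) hab) := by
  rw [← MonoidHom.range_eq_top, eq_top_iff, ← CfsgLib.ClassicalLinear.closure_spT_eq_top, Subgroup.closure_le]
  rintro _ ⟨v, c, rfl⟩
  have hchar : ringChar F = 2 := ringChar.eq F 2
  obtain ⟨t, rfl⟩ := FiniteField.isSquare_of_char_two hchar c
  obtain ⟨s, hs⟩ := FiniteField.isSquare_of_char_two hchar (hyp v)
  have hu : qMinus m F a b (jW F m v + s • aMinus F m) = 0 := by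
    rw [QuadraticMap.map_add ⇑(qMinus m F a b), qMinus_jW, QuadraticMap.map_smul, qMinus_aMinus, polar_smul_right,
      polar_comm _ (jW F m v) (aMinus F m), polar_aMinus_jW, hs]
    simp [CharTwo.add_self_eq_zero]
  have hau : polar (qMinus m F a b) (aMinus F m) (jW F m v + s • aMinus F m) = 0 := by
    rw [polar_add_right, polar_smul_right, polar_aMinus_jW, polar_aMinus_self, smul_zero, add_zero]
  have hw : polar (qMinus m F a b) (jW F m v + s • aMinus F m) (t • aMinus F m) = 0 := by
    rw [polar_smul_right, polar_comm, hau, smul_zero]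
  have hm' := siegel_mem_perpSiegel (a := aMinus F m) hu hw hau (by rw [polar_smul_right, polar_aMinus_self, smul_zero])
  exact ⟨⟨_, hm'⟩, toSpW_siegel hab v s t hu hw hm'⟩

theorem toSpW_injective (hab : Aniso a b) (hm : 3 ≤ m) : Function.Injective (toSpW (m := m) hab) := by
  rw [injective_iff_map_eq_one]
  rintro ⟨g, hg⟩ hone
  have hp : ∀ w, actW ⟨g, hg⟩ w = w := fun w => by rw [← toSpW_smul hab, hone, one_smul]
  have hQ : Nondeg (qMinus m F a b) := nondeg_qMinus hab m
  have hfa : ap g (aMinus F m) = (aMinus F m) := perpSiegel_fix hg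
  have hW : ∀ w, ap g (jW F m w) = jW F m w := fun w => by
    obtain ⟨c, hc⟩ := ap_jW hab ⟨g, hg⟩ w
    rw [hp] at hc
    have h := Q_ap g (jW F m w)
    rw [hc, QuadraticMap.map_add ⇑(qMinus m F a b), QuadraticMap.map_smul, qMinus_aMinus, polar_smul_right,
      polar_comm _ (jW F m w) (aMinus F m), polar_aMinus_jW] at h
    simp at h
    rw [hc, h, zero_smul, add_zero]
  have hperp : ∀ v, polar (qMinus m F a b) (aMinus F m) v = 0 → ap g v = v := fun v hv => by
    rw [perp_decomp hab hv, ap_add, ap_smul, hW, hfa]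
  set c : VMinus F m := Sum.elim 0 ![0, a⁻¹] with hc
  have hac : polar (qMinus m F a b) (aMinus F m) c = 1 := by
    rw [polar_aMinus]; simp [c, mul_inv_cancel₀ (a_ne_zero hab)]
  set y := ap g c - c with hy
  have hyperp : ∀ x, polar (qMinus m F a b) (aMinus F m) x = 0 → polar (qMinus m F a b) y x = 0 := fun x hx => by
    rw [hy, polar_sub_left]
    conv_lhs => enter [1]; rw [← hperp x hx]
    rw [polar_ap, sub_self]
  have hya : y = polar (qMinus m F a b) y c • (aMinus F m) := by
    refine sub_eq_zero.1 (hQ _ fun z => ?_)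
    have h0 : polar (qMinus m F a b) y (z - polar (qMinus m F a b) (aMinus F m) z • c) = 0 := hyperp _ (by
      rw [polar_sub_right, polar_smul_right, hac, smul_eq_mul, mul_one, sub_self])
    rw [polar_sub_right, polar_smul_right, sub_eq_zero, smul_eq_mul] at h0
    rw [polar_sub_left, polar_smul_left, smul_eq_mul, h0]; ring
  have hμ : polar (qMinus m F a b) y c * polar (qMinus m F a b) y c + polar (qMinus m F a b) y c = 0 := by
    have h := Q_ap g c
    rw [show ap g c = c + polar (qMinus m F a b) y c • aMinus F m by rw [← hya, hy, add_sub_cancel],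
      QuadraticMap.map_add ⇑(qMinus m F a b), QuadraticMap.map_smul, qMinus_aMinus, polar_smul_right, polar_comm (qMinus m F a b) c (aMinus F m), hac] at h
    simp only [smul_eq_mul, mul_one] at h
    linear_combination h
  have hgc : ∀ v, ap g v = v + (polar (qMinus m F a b) (aMinus F m) v * polar (qMinus m F a b) y c) • (aMinus F m) := fun v => by
    have h := hperp (v - polar (qMinus m F a b) (aMinus F m) v • c) (by
      rw [polar_sub_right, polar_smul_right, hac, smul_eq_mul, mul_one, sub_self])
    rw [ap_sub, ap_smul, show ap g c = c + y by rw [hy, add_sub_cancel], smul_add] at h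
    rw [mul_smul, ← hya]
    linear_combination (norm := module) h
  rcases mul_eq_zero.1 (show polar (qMinus m F a b) y c * (polar (qMinus m F a b) y c + 1) = 0 by linear_combination hμ) with h | h
  · exact Subtype.ext (ap_ext fun v => by rw [hgc, h, mul_zero, zero_smul, add_zero]; rfl)
  · exfalso
    have hn : 5 ≤ Fintype.card ((Fin m ⊕ Fin m) ⊕ Fin 2) := by simp; omega
    have hqa : (qMinus m F a b) (aMinus F m) ≠ 0 := by rw [qMinus_aMinus]; exact one_ne_zero
    have hgr : g = refl (qMinus m F a b) (aMinus F m) hqa := ap_ext fun v => by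
      rw [hgc]
      show _ = v - (((qMinus m F a b) (aMinus F m))⁻¹ * polar (qMinus m F a b) v (aMinus F m)) • (aMinus F m)
      rw [qMinus_aMinus, polar_comm (qMinus m F a b) v (aMinus F m), eq_neg_of_add_eq_zero_left h,
        inv_one, one_mul, mul_neg, mul_one, neg_smul, sub_eq_add_neg]
    have hgen := isGen_qMinus hab m
    have hS : g ∈ commutator (orth (qMinus m F a b)) := by
      rw [commutator_qMinus hab (by omega)]; exact perpSiegel_le _ hg
    have hker := commutator_le_ker (parityHom hQ (reflGroup_eq_top hQ hn hgen)) hS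
    rw [MonoidHom.mem_ker, parityHom_apply, hgr, parity_refl hQ] at hker
    exact absurd hker (by decide)

/-- The identification with the symplectic group. -/
noncomputable def perpEquiv (hab : Aniso a b) (hm : 3 ≤ m) :
    perpSiegel (qMinus m F a b) (aMinus F m) ≃* Matrix.symplecticGroup (Fin m) F :=
  MulEquiv.ofBijective (toSpW hab) ⟨toSpW_injective hab hm, toSpW_surjective hab⟩

theorem commutator_perp (hab : Aniso a b) (hm : 3 ≤ m) :
    commutator (perpSiegel (qMinus m F a b) (aMinus F m)) = ⊤ := by
  rw [commutator_def, ← Subgroup.map_top_of_surjective (perpEquiv hab hm).symm.toMonoidHom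
    (perpEquiv hab hm).symm.surjective, ← Subgroup.map_commutator, ← commutator_def,
    CfsgLib.ClassicalLinear.commutator_sp_eq_top (Or.inl hm)]

end CfsgLib.OrthMult
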