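import Cfsg.Agent.Lib.OrthMult.EvenSection
import Cfsg.Agent.Lib.OrthMult.Cells
import Mathlib.LinearAlgebra.Dual.Lemmas

/-!
In characteristic two the sections over the symplectic subgroups agree, hence central extensions of the
orthogonal groups of minus type carry equivariant lifts, and are trivial.
-/

set_option autoImplicit false
set_option linter.unusedSectionVars false

namespace CfsgLib.OrthMult

open QuadraticMap CfsgLib.ClassicalForms Module
open scoped commutatorElement

universe u

variable {F : Type u} [Field F] [Finite F] {m : ℕ} {a b : F}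

/-! ### Linear algebra -/

/-- Dropping the first pair. -/
def dropW (F : Type u) [Field F] (m : ℕ) : VMinus F (m + 1) →ₗ[F] VMinus F m where
  toFun v := Sum.elim (Sum.elim (fun i => v (.inl (.inl i.succ))) fun i => v (.inl (.inr i.succ))) fun i => v (.inr i)
  map_add' x y := funext fun i => by rcases i with (i | i) | i <;> simp
  map_smul' c x := funext fun i => by rcases i with (i | i) | i <;> simp

/-- The Witt index. -/
theorem finrank_singular_le (hab : Aniso a b) : ∀ (m : ℕ) (U : Submodule F (VMinus F m)),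
    (∀ x ∈ U, qMinus m F a b x = 0) → finrank F U ≤ m := by
  intro m
  induction m with
  | zero =>
    intro U hU
    have : U = ⊥ := by
      refine (Submodule.eq_bot_iff U).2 fun x hx => funext fun i => ?_
      rcases i with i | i
      · rcases i with i | i <;> exact i.elim0
      · have h := hU x hx
        rw [qMinus_apply] at h
        have hb : binForm a b (fun j => x (.inr j)) = 0 := by
          rw [binForm_apply]; simpa [Cfsg.quadFormMinus, Cfsg.quadFormPlus] using h
        exact congrFun (hab.eq_zero hb) i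
    rw [this, finrank_bot]
  | succ m ih =>
    intro U hU
    have hdrop : ∀ x : VMinus F (m + 1), x (.inl (.inr 0)) = 0 →
        qMinus m F a b (dropW F m x) = qMinus (m + 1) F a b x := by
      intro x hx
      rw [qMinus_apply, qMinus_apply]
      simp [dropW, Cfsg.quadFormMinus, Cfsg.quadFormPlus, Fin.sum_univ_succ, hx]
    let φ : U →ₗ[F] F := (LinearMap.proj (Sum.inl (Sum.inr (0 : Fin (m + 1))))).comp U.subtype
    let K : Submodule F (VMinus F (m + 1)) := (LinearMap.ker φ).map U.subtype
    have hK : finrank F U ≤ finrank F K + finrank F (LinearMap.range φ) := by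
      have h1 := LinearMap.finrank_range_add_finrank_ker φ
      have h2 : finrank F K = finrank F (LinearMap.ker φ) := Submodule.finrank_map_subtype_eq U (LinearMap.ker φ)
      omega
    have hr1 : finrank F (LinearMap.range φ) ≤ 1 := by
      have := Submodule.finrank_le (LinearMap.range φ)
      rwa [finrank_self] at this
    have hKU : ∀ x ∈ K, x ∈ U ∧ x (.inl (.inr 0)) = 0 := by
      rintro _ ⟨⟨x, hx⟩, h0, rfl⟩
      exact ⟨hx, h0⟩
    let ψ : K →ₗ[F] VMinus F m := (dropW F m).comp K.subtype
    have him : finrank F (LinearMap.range ψ) ≤ m := ih _ (by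
      rintro _ ⟨⟨x, hx⟩, rfl⟩
      show qMinus m F a b (dropW F m x) = 0
      rw [hdrop x (hKU x hx).2, hU x (hKU x hx).1])
    have hψ := LinearMap.finrank_range_add_finrank_ker ψ
    set e₀ : VMinus F (m + 1) := Sum.elim (Pi.single (Sum.inl 0) 1) 0 with he₀
    have hsupp : ∀ x : LinearMap.ker ψ, ((x : K) : VMinus F (m + 1)) =
        ((x : K) : VMinus F (m + 1)) (.inl (.inl 0)) • e₀ := by
      rintro ⟨⟨x, hx⟩, h0⟩
      have h0' : dropW F m x = 0 := h0
      funext i
      rcases i with (i | i) | i
      · refine Fin.cases ?_ (fun j => ?_) i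
        · simp [e₀]
        · simpa [dropW, e₀] using congrFun h0' (.inl (.inl j))
      · refine Fin.cases ?_ (fun j => ?_) i
        · simpa [e₀] using (hKU x hx).2
        · simpa [dropW, e₀] using congrFun h0' (.inl (.inr j))
      · simpa [dropW, e₀] using congrFun h0' (.inr i)
    have hk1 : finrank F (LinearMap.ker ψ) ≤ 1 := by
      let χ : LinearMap.ker ψ →ₗ[F] F :=
        (LinearMap.proj (Sum.inl (Sum.inl (0 : Fin (m + 1))))).comp (K.subtype.comp (LinearMap.ker ψ).subtype)
      have := LinearMap.finrank_le_finrank_of_injective (f := χ) fun x y h => by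
        refine Subtype.ext (Subtype.ext ?_)
        rw [hsupp x, hsupp y]
        exact congrArg (· • e₀) h
      rwa [finrank_self] at this
    by_cases hk0 : LinearMap.ker ψ = ⊥
    · rw [hk0, finrank_bot, add_zero] at hψ
      omega
    · obtain ⟨x, hx, hx0⟩ := Submodule.exists_mem_ne_zero_of_ne_bot hk0
      have hxe := hsupp ⟨x, hx⟩
      set c := ((x : K) : VMinus F (m + 1)) (.inl (.inl 0)) with hc
      have hc0 : c ≠ 0 := fun h => hx0 (Subtype.ext (by rw [hxe, h, zero_smul]; rfl))
      have hr0 : LinearMap.range φ = ⊥ := by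
        refine (Submodule.eq_bot_iff _).2 ?_
        rintro _ ⟨⟨y, hy⟩, rfl⟩
        have hxU := (hKU _ x.2).1
        have h := hU _ (U.add_mem hy hxU)
        rw [QuadraticMap.map_add ⇑(qMinus (m + 1) F a b), hU y hy, hU _ hxU, zero_add, zero_add] at h
        rw [hxe, polar_smul_right, smul_eq_mul, mul_eq_zero, or_iff_right hc0, polar_qMinus] at h
        simpa [e₀, Fin.sum_univ_succ, φ] using h
      rw [hr0, finrank_bot, add_zero] at hK
      omega

variable [CharP F 2]

/-- The orthogonal complement of finitely many vectors. -/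
def perpAll (a b : F) {k : ℕ} (L : Fin k → VMinus F m) : Submodule F (VMinus F m) :=
  LinearMap.ker (LinearMap.pi fun i => QuadraticMap.polarBilin (qMinus m F a b) (L i))

theorem mem_perpAll {k : ℕ} {L : Fin k → VMinus F m} {x : VMinus F m} :
    x ∈ perpAll a b L ↔ ∀ i, polar (qMinus m F a b) (L i) x = 0 := by
  simp [perpAll, LinearMap.mem_ker, funext_iff]

theorem finrank_perpAll {k : ℕ} (L : Fin k → VMinus F m) : 2 * m + 2 ≤ finrank F (perpAll a b L) + k := by
  have h : finrank F (LinearMap.range (LinearMap.pi fun i => QuadraticMap.polarBilin (qMinus m F a b) (L i))) +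
      finrank F (perpAll a b L) = 2 * m + 2 :=
    (LinearMap.finrank_range_add_finrank_ker _).trans (finrank_qMinus m)
  have h' := Submodule.finrank_le
    (LinearMap.range (LinearMap.pi fun i => QuadraticMap.polarBilin (qMinus m F a b) (L i)))
  rw [Module.finrank_fin_fun] at h'
  omega

theorem exists_sqrt (c : F) : ∃ d : F, d * d = c := by
  obtain ⟨d, hd⟩ := FiniteField.isSquare_of_char_two (ringChar.eq F 2) c
  exact ⟨d, hd.symm⟩

/-- A vector of norm one in a large orthogonal complement. -/
theorem exists_norm_one (hab : Aniso a b) {k : ℕ} (L : Fin k → VMinus F m) (hk : m + k < 2 * m + 2) :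
    ∃ x ∈ perpAll a b L, qMinus m F a b x = 1 := by
  by_contra hcon
  have hz : ∀ x ∈ perpAll a b L, qMinus m F a b x = 0 := fun x hx => by
    by_contra h
    obtain ⟨d, hd⟩ := exists_sqrt (qMinus m F a b x)⁻¹
    exact hcon ⟨d • x, Submodule.smul_mem _ _ hx, by
      rw [QuadraticMap.map_smul, smul_eq_mul, hd, inv_mul_cancel₀ h]⟩
  have := finrank_singular_le hab m _ hz
  have := finrank_perpAll (a := a) (b := b) L
  omega

theorem mem_span_of_perp (hab : Aniso a b) {k : ℕ} (L : Fin k → VMinus F m) {x : VMinus F m}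
    (hx : ∀ y ∈ perpAll a b L, polar (qMinus m F a b) x y = 0) : x ∈ Submodule.span F (Set.range L) := by
  have h := FiniteDimensional.mem_span_of_iInf_ker_le_ker
    (L := fun i => QuadraticMap.polarBilin (qMinus m F a b) (L i)) (K := QuadraticMap.polarBilin (qMinus m F a b) x)
    (fun y hy => hx y (mem_perpAll.2 fun i => Submodule.mem_iInf _ |>.1 hy i))
  rw [Set.range_comp' (QuadraticMap.polarBilin (qMinus m F a b)) L, ← Submodule.map_span] at h
  obtain ⟨y, hy, e⟩ := h
  have : y = x := sub_eq_zero.1 (nondeg_qMinus hab m _ fun z => by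
    rw [polar_sub_left]
    exact sub_eq_zero.2 (LinearMap.congr_fun e z))
  exact this ▸ hy

/-! ### The sections -/

theorem neg_eq_self' (x : VMinus F m) : -x = x := by
  rw [neg_eq_iff_add_eq_zero, ← two_smul F, two_zero, zero_smul]

variable {Γ : Type u} [Group Γ] [Finite Γ] {σ : Γ →* orth (qMinus m F a b)}

/-- Conjugation between the subgroups. -/
def conjPerp (g : orth (qMinus m F a b)) {x y : VMinus F m} (e : ap g x = y) :
    perpSiegel (qMinus m F a b) x →* perpSiegel (qMinus m F a b) y :=
  ((MulAut.conj g).toMonoidHom.comp (perpSiegel (qMinus m F a b) x).subtype).codRestrict _ fun h =>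
    e ▸ conj_mem_perpSiegel g h.2

theorem exists_moves (hab : Aniso a b) (hm : 3 ≤ m) {x y : VMinus F m} (hx : qMinus m F a b x = 1)
    (hy : qMinus m F a b y = 1) : ∃ g ∈ siegelGroup (qMinus m F a b), ap g x = y := by
  obtain ⟨g, hg, e⟩ := (Sec.top (qMinus m F a b)).transitive_norm (nondeg_qMinus hab m)
    (by rw [finrank_qMinus]; omega) (Sec.mem_top x) (Sec.mem_top y) (hx.trans hy.symm)
    (by rw [hx]; exact one_ne_zero)
  exact ⟨g, hg.1, e⟩

theorem exists_section_at (E : CExt σ) (hab : Aniso a b) (hm : 3 ≤ m) {x : VMinus F m}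
    (hx : qMinus m F a b x = 1) :
    ∃ s : perpSiegel (qMinus m F a b) x →* Γ, ∀ h, σ (s h) = h := by
  obtain ⟨s₀, hs₀⟩ := exists_section E hab hm
  obtain ⟨g, hg, e⟩ := exists_moves hab hm qMinus_aMinus hx
  obtain ⟨γ, hγ⟩ := E.exists_lift hg
  have e' : ap g⁻¹ x = aMinus F m := by rw [← e, ap_inv_ap]
  refine ⟨(MulAut.conj γ).toMonoidHom.comp (s₀.comp (conjPerp g⁻¹ e')), fun h => ?_⟩
  show σ (γ * s₀ (conjPerp g⁻¹ e' h) * γ⁻¹) = h
  rw [map_mul, map_mul, map_inv, hγ, hs₀]
  show g * (g⁻¹ * (h : orth (qMinus m F a b)) * g⁻¹⁻¹) * g⁻¹ = _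
  group

theorem section_unique (E : CExt σ) (hab : Aniso a b) (hm : 3 ≤ m) {x : VMinus F m}
    (hx : qMinus m F a b x = 1) {f f' : perpSiegel (qMinus m F a b) x →* Γ} (h : ∀ k, σ (f k) = σ (f' k)) :
    f = f' := by
  obtain ⟨g, -, e⟩ := exists_moves hab hm qMinus_aMinus hx
  have hc : ∀ p q : Γ, σ p = 1 → p * q = q * p := fun p q hp => (Subgroup.mem_center_iff.1 (E.central hp) q).symm
  have hcomp := ClassK.OrthPlusMult.hom_eq_of_map_eq hc (commutator_perp hab hm)
    (f := f.comp (conjPerp g e)) (g := f'.comp (conjPerp g e)) fun k => h _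
  ext k
  have e' : ap g⁻¹ x = aMinus F m := by rw [← e, ap_inv_ap]
  have hk : k = conjPerp g e (conjPerp g⁻¹ e' k) := Subtype.ext (by
    show (k : orth (qMinus m F a b)) = g * (g⁻¹ * (k : orth (qMinus m F a b)) * g⁻¹⁻¹) * g⁻¹
    group)
  rw [hk]
  exact DFunLike.congr_fun hcomp _

section

variable (E : CExt σ) (hab : Aniso a b) (hm : 3 ≤ m)

/-- The section at a vector of norm one. -/
noncomputable def secAt (x : VMinus F m) (hx : qMinus m F a b x = 1) :
    perpSiegel (qMinus m F a b) x →* Γ := (exists_section_at E hab hm hx).choose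

theorem map_secAt (x : VMinus F m) (hx : qMinus m F a b x = 1) (h : perpSiegel (qMinus m F a b) x) :
    σ (secAt E hab hm x hx h) = h := (exists_section_at E hab hm hx).choose_spec h

open scoped Classical in
/-- The lift attached to a vector of norm one. -/
noncomputable def liftAt (x u w : VMinus F m) : Γ :=
  if h : qMinus m F a b x = 1 ∧ qMinus m F a b u = 0 ∧ polar (qMinus m F a b) u w = 0 ∧
      polar (qMinus m F a b) x u = 0 ∧ polar (qMinus m F a b) x w = 0 then
    secAt E hab hm x h.1 ⟨_, siegel_mem_perpSiegel h.2.1 h.2.2.1 h.2.2.2.1 h.2.2.2.2⟩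
  else 1

/-- The conditions for a lift. -/
def Good (a b : F) (x u w : VMinus F m) : Prop :=
  qMinus m F a b x = 1 ∧ qMinus m F a b u = 0 ∧ polar (qMinus m F a b) u w = 0 ∧
    polar (qMinus m F a b) x u = 0 ∧ polar (qMinus m F a b) x w = 0

theorem liftAt_eq {x u w : VMinus F m} (h : Good a b x u w) :
    liftAt E hab hm x u w = secAt E hab hm x h.1 ⟨_, siegel_mem_perpSiegel h.2.1 h.2.2.1 h.2.2.2.1 h.2.2.2.2⟩ :=
  dif_pos h

theorem map_liftAt {x u w : VMinus F m} (h : Good a b x u w) :
    σ (liftAt E hab hm x u w) = siegel (qMinus m F a b) u w h.2.1 h.2.2.1 := by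
  rw [liftAt_eq E hab hm h, map_secAt]

theorem liftAt_congr {x u w u' w' : VMinus F m} (h : Good a b x u w) (h' : Good a b x u' w')
    (e : siegel (qMinus m F a b) u w h.2.1 h.2.2.1 = siegel (qMinus m F a b) u' w' h'.2.1 h'.2.2.1) :
    liftAt E hab hm x u w = liftAt E hab hm x u' w' := by
  rw [liftAt_eq E hab hm h, liftAt_eq E hab hm h']
  exact congrArg _ (Subtype.ext e)

theorem Good.add {x u w w' : VMinus F m} (h : Good a b x u w) (h' : Good a b x u w') : Good a b x u (w + w') :=
  ⟨h.1, h.2.1, by rw [polar_add_right, h.2.2.1, h'.2.2.1, add_zero], h.2.2.2.1,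
    by rw [polar_add_right, h.2.2.2.2, h'.2.2.2.2, add_zero]⟩

theorem liftAt_add {x u w w' : VMinus F m} (h : Good a b x u w) (h' : Good a b x u w') :
    liftAt E hab hm x u w * liftAt E hab hm x u w' = liftAt E hab hm x u (w + w') := by
  rw [liftAt_eq E hab hm h, liftAt_eq E hab hm h', liftAt_eq E hab hm (h.add h'), ← map_mul]
  exact congrArg _ (Subtype.ext (siegel_mul h.2.1 h.2.2.1 h'.2.2.1))

theorem liftAt_equiv (γ : Γ) {x u w : VMinus F m} (h : Good a b x u w) :
    γ * liftAt E hab hm x u w * γ⁻¹ = liftAt E hab hm (ap (σ γ) x) (ap (σ γ) u) (ap (σ γ) w) := by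
  have h' : Good a b (ap (σ γ) x) (ap (σ γ) u) (ap (σ γ) w) :=
    ⟨by rw [Q_ap, h.1], by rw [Q_ap, h.2.1], by rw [polar_ap, h.2.2.1], by rw [polar_ap, h.2.2.2.1],
      by rw [polar_ap, h.2.2.2.2]⟩
  rw [liftAt_eq E hab hm h, liftAt_eq E hab hm h']
  have huniq := section_unique E hab hm h.1
    (f := (MulAut.conj γ).toMonoidHom.comp (secAt E hab hm x h.1))
    (f' := (secAt E hab hm _ h'.1).comp (conjPerp (σ γ) rfl)) fun k => by
      show σ (γ * secAt E hab hm x h.1 k * γ⁻¹) = σ (secAt E hab hm _ h'.1 _)
      rw [map_mul, map_mul, map_inv, map_secAt, map_secAt]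
      rfl
  refine (DFunLike.congr_fun huniq _).trans (congrArg (secAt E hab hm (ap (σ γ) x) h'.1) (Subtype.ext ?_))
  exact conj_siegel _ h.2.1 h.2.2.1

/-- Agreement when the common complement carries a pair. -/
theorem agree_of_pair {x y u w p p' : VMinus F m} (hxw : Good a b x u w) (hyw : Good a b y u w)
    (hw0 : qMinus m F a b w = 0) (hp : p ∈ perpAll a b ![u, w, x, y]) (hp' : p' ∈ perpAll a b ![u, w, x, y])
    (hpp : polar (qMinus m F a b) p p' = 1) : liftAt E hab hm x u w = liftAt E hab hm y u w := by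
  have m1 := mem_perpAll.1 hp
  have m2 := mem_perpAll.1 hp'
  have pu : polar (qMinus m F a b) u p = 0 := m1 0
  have pw : polar (qMinus m F a b) w p = 0 := m1 1
  have pu' : polar (qMinus m F a b) u p' = 0 := m2 0
  have pw' : polar (qMinus m F a b) w p' = 0 := m2 1
  have key : ∀ z, Good a b z u w → polar (qMinus m F a b) z p = 0 → polar (qMinus m F a b) z p' = 0 →
      Good a b z u p ∧ Good a b z w p' ∧
      liftAt E hab hm z u w = ⁅liftAt E hab hm z u p, liftAt E hab hm z w p'⁆ := by
    intro z hz zp zp'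
    have g1 : Good a b z u p := ⟨hz.1, hz.2.1, pu, hz.2.2.2.1, zp⟩
    have g2 : Good a b z w p' := ⟨hz.1, hw0, pw', hz.2.2.2.2, zp'⟩
    refine ⟨g1, g2, ?_⟩
    rw [liftAt_eq E hab hm hz, liftAt_eq E hab hm g1, liftAt_eq E hab hm g2, ← map_commutatorElement]
    refine congrArg _ (Subtype.ext ?_)
    show _ = ⁅(siegel (qMinus m F a b) u p g1.2.1 pu : orth (qMinus m F a b)), siegel (qMinus m F a b) w p' hw0 pw'⁆
    have wu : polar (qMinus m F a b) w u = 0 := by rw [polar_comm, hz.2.2.1]
    have e1 : ap (siegel (qMinus m F a b) u p g1.2.1 pu) w = w :=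
      siegel_fix _ _ wu pw
    have e2 : ap (siegel (qMinus m F a b) u p g1.2.1 pu) p' = p' + u := by
      rw [ap_siegel, polar_comm _ p' u, pu', polar_comm _ p' p, hpp, mul_zero, add_zero, one_smul, zero_smul,
        add_zero, sub_eq_add_neg, neg_eq_self']
    have hwp : polar (qMinus m F a b) w (p' + u) = 0 := by rw [polar_add_right, pw', wu, add_zero]
    have h1 : siegel (qMinus m F a b) u p g1.2.1 pu * siegel (qMinus m F a b) w p' hw0 pw' *
        (siegel (qMinus m F a b) u p g1.2.1 pu)⁻¹ = siegel (qMinus m F a b) w (p' + u) hw0 hwp :=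
      (conj_siegel _ _ _).trans (siegel_congr e1 e2 _ _)
    rw [commutatorElement_def, h1, eq_mul_inv_iff_mul_eq]
    refine ap_ext fun v => ?_
    simp only [ap_mul, ap_siegel, polar_add_right, polar_add_left, polar_sub_left, polar_smul_left,
      QuadraticMap.map_add ⇑(qMinus m F a b), hz.2.1, hw0, wu, hz.2.2.1, pu', polar_comm _ p' u, polar_comm _ p' w, pw',
      polar_singular_self hw0, polar_singular_self hz.2.1, smul_eq_mul, mul_zero, add_zero, zero_add]
    match_scalars
    all_goals first
      | ring1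
      | linear_combination polar (qMinus m F a b) v w * (two_zero (F := F))
      | linear_combination polar (qMinus m F a b) v u * (two_zero (F := F))
      | linear_combination -polar (qMinus m F a b) v w * (two_zero (F := F))
      | linear_combination -polar (qMinus m F a b) v u * (two_zero (F := F))
  obtain ⟨g1, g2, e⟩ := key x hxw (m1 2) (m2 2)
  obtain ⟨g1', g2', e'⟩ := key y hyw (m1 3) (m2 3)
  rw [e, e']
  exact SchurMult.comm_eq_of_map_eq E.central (by rw [map_liftAt E hab hm g1, map_liftAt E hab hm g1'])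
    (by rw [map_liftAt E hab hm g2, map_liftAt E hab hm g2'])

/-- Either a pair exists or the four vectors span their orthogonal complement. -/
theorem pair_or {x y u w : VMinus F m} (hxw : Good a b x u w) (hyw : Good a b y u w)
    (hw0 : qMinus m F a b w = 0) :
    liftAt E hab hm x u w = liftAt E hab hm y u w ∨
      (polar (qMinus m F a b) x y = 0 ∧ m = 3 ∧
        Function.Surjective (LinearMap.pi fun i => QuadraticMap.polarBilin (qMinus m F a b) (![u, w, x, y] i))) := by
  by_cases h : ∃ p ∈ perpAll a b ![u, w, x, y], ∃ p' ∈ perpAll a b ![u, w, x, y], polar (qMinus m F a b) p p' ≠ 0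
  · obtain ⟨p, hp, p', hp', hne⟩ := h
    exact Or.inl (agree_of_pair E hab hm hxw hyw hw0 hp (Submodule.smul_mem _ (polar (qMinus m F a b) p p')⁻¹ hp')
      (by rw [polar_smul_right, smul_eq_mul, inv_mul_cancel₀ hne]))
  · simp only [not_exists, not_and, not_not] at h
    right
    have hle : perpAll a b ![u, w, x, y] ≤ Submodule.span F (Set.range ![u, w, x, y]) :=
      fun p hp => mem_span_of_perp hab _ (h p hp)
    have h1 := finrank_perpAll (a := a) (b := b) ![u, w, x, y]
    have h2 : finrank F (Submodule.span F (Set.range ![u, w, x, y])) ≤ 4 :=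
      (finrank_range_le_card (R := F) ![u, w, x, y]).trans (by simp)
    have h3 := Submodule.finrank_mono hle
    have heq := Submodule.eq_of_le_of_finrank_le hle (by omega)
    refine ⟨?_, by omega, ?_⟩
    · have hx : x ∈ perpAll a b ![u, w, x, y] := heq ▸ Submodule.subset_span ⟨2, rfl⟩
      rw [polar_comm]
      exact mem_perpAll.1 hx 3
    · rw [← LinearMap.range_eq_top]
      refine Submodule.eq_top_of_finrank_eq ?_
      have h : finrank F (LinearMap.range (LinearMap.pi fun i => QuadraticMap.polarBilin (qMinus m F a b) (![u, w, x, y] i))) +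
          finrank F (perpAll a b ![u, w, x, y]) = 2 * m + 2 :=
        (LinearMap.finrank_range_add_finrank_ker _).trans (finrank_qMinus m)
      have h6 := Submodule.finrank_le
        (LinearMap.range (LinearMap.pi fun i => QuadraticMap.polarBilin (qMinus m F a b) (![u, w, x, y] i)))
      rw [Module.finrank_fin_fun] at h6 ⊢
      omega

/-- Agreement for a singular second vector. -/
theorem agree_singular {x y u w : VMinus F m} (hxw : Good a b x u w) (hyw : Good a b y u w)
    (hw0 : qMinus m F a b w = 0) : liftAt E hab hm x u w = liftAt E hab hm y u w := by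
  rcases pair_or E hab hm hxw hyw hw0 with h | ⟨hxy, h3, hs⟩
  · exact h
  have viaMid : ∀ c, Good a b c u w → polar (qMinus m F a b) x c ≠ 0 → polar (qMinus m F a b) c y ≠ 0 →
      liftAt E hab hm x u w = liftAt E hab hm y u w := fun c hc h1 h2 =>
    ((pair_or E hab hm hxw hc hw0).resolve_right fun h => h1 h.1).trans
      ((pair_or E hab hm hc hyw hw0).resolve_right fun h => h2 h.1)
  obtain ⟨c, hc⟩ := hs ![0, 0, 1, 1]
  obtain ⟨yu, hyu⟩ := hs ![1, 0, 0, 0]
  obtain ⟨yw, hyw'⟩ := hs ![0, 1, 0, 0]
  obtain ⟨yx, hyx⟩ := hs ![0, 0, 1, 0]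
  have cu : polar (qMinus m F a b) u c = 0 := congrFun hc 0
  have cw : polar (qMinus m F a b) w c = 0 := congrFun hc 1
  have cx : polar (qMinus m F a b) x c = 1 := congrFun hc 2
  have cy : polar (qMinus m F a b) y c = 1 := congrFun hc 3
  by_cases hqc : qMinus m F a b c = 0
  · exfalso
    obtain ⟨-, hu, huw, hxu, hxw'⟩ := id hxw
    obtain ⟨-, -, -, hyu', hyw''⟩ := id hyw
    set z := x + y
    let v : Fin 4 → VMinus F m := ![u, w, z, c]
    have hqz : qMinus m F a b z = 0 := by
      rw [QuadraticMap.map_add ⇑(qMinus m F a b), hxw.1, hyw.1, hxy, add_zero, one_add_one_eq_two, two_zero]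
    have hzu : polar (qMinus m F a b) z u = 0 := by rw [polar_add_left, hxu, hyu', add_zero]
    have hzw : polar (qMinus m F a b) z w = 0 := by rw [polar_add_left, hxw', hyw'', add_zero]
    have hzc : polar (qMinus m F a b) z c = 0 := by rw [polar_add_left, cx, cy, one_add_one_eq_two, two_zero]
    have hsing : ∀ p ∈ Submodule.span F (Set.range v), qMinus m F a b p = 0 := by
      intro p hp
      obtain ⟨g, rfl⟩ := (Submodule.mem_span_range_iff_exists_fun F).1 hp
      simp [v, Fin.sum_univ_four, QuadraticMap.map_add ⇑(qMinus m F a b), QuadraticMap.map_smul, polar_add_left,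
        polar_smul_left, polar_smul_right, hu, hw0, hqz, hqc, huw, cu, cw, polar_comm _ u z, hzu, polar_comm _ w z,
        hzw, hzc]
    have hli : LinearIndependent F v := by
      rw [Fintype.linearIndependent_iff]
      intro g hg
      have ev : ∀ t, g 0 * polar (qMinus m F a b) u t + g 1 * polar (qMinus m F a b) w t +
          g 2 * polar (qMinus m F a b) z t + g 3 * polar (qMinus m F a b) c t = 0 := fun t => by
        have := congrArg (fun p => polar (qMinus m F a b) p t) hg
        simpa [v, Fin.sum_univ_four, polar_add_left, polar_smul_left] using this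
      have h3' : g 3 = 0 := by
        have := ev x
        rw [polar_comm _ u x, hxu, polar_comm _ w x, hxw', polar_add_left, polar_comm _ y x, hxy,
          polar_self_mul, two_zero, polar_comm _ c x, cx] at this
        simpa using this
      have pick : ∀ t (vu vw vx vy : F), polar (qMinus m F a b) u t = vu → polar (qMinus m F a b) w t = vw →
          polar (qMinus m F a b) x t = vx → polar (qMinus m F a b) y t = vy →
          g 0 * vu + g 1 * vw + g 2 * (vx + vy) = 0 := fun t vu vw vx vy e1 e2 e3 e4 => by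
        have := ev t
        rw [h3', zero_mul, add_zero, polar_add_left, e1, e2, e3, e4] at this
        exact this
      have h0' := pick yu 1 0 0 0 (congrFun hyu 0) (congrFun hyu 1) (congrFun hyu 2) (congrFun hyu 3)
      have h1' := pick yw 0 1 0 0 (congrFun hyw' 0) (congrFun hyw' 1) (congrFun hyw' 2) (congrFun hyw' 3)
      have h2' := pick yx 0 0 1 0 (congrFun hyx 0) (congrFun hyx 1) (congrFun hyx 2) (congrFun hyx 3)
      intro i
      fin_cases i
      · simpa using h0'
      · simpa using h1'
      · simpa using h2'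
      · simpa using h3'
    have h4 := finrank_singular_le hab m _ hsing
    rw [finrank_span_eq_card hli, Fintype.card_fin] at h4
    omega
  · obtain ⟨d, hd⟩ := exists_sqrt (qMinus m F a b c)⁻¹
    have hd0 : d ≠ 0 := fun h => inv_ne_zero hqc (by rw [← hd, h, zero_mul])
    refine viaMid (d • c) ⟨by rw [QuadraticMap.map_smul, smul_eq_mul, hd, inv_mul_cancel₀ hqc], hxw.2.1, hxw.2.2.1,
      by rw [polar_smul_left, polar_comm, cu, smul_zero], by rw [polar_smul_left, polar_comm, cw, smul_zero]⟩ ?_ ?_
    · rw [polar_smul_right, cx, smul_eq_mul, mul_one]; exact hd0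
    · rw [polar_smul_left, polar_comm, cy, smul_eq_mul, mul_one]; exact hd0

/-- Agreement. -/
theorem agree {x y u w : VMinus F m} (hxw : Good a b x u w) (hyw : Good a b y u w) :
    liftAt E hab hm x u w = liftAt E hab hm y u w := by
  have mem3 : ∀ {r}, r ∈ perpAll a b ![u, x, y] → ∀ {z}, (z = x ∨ z = y) → Good a b z u w →
      Good a b z u r := fun {r} hr {z} hz g => by
    have h := mem_perpAll.1 hr
    refine ⟨g.1, g.2.1, h 0, g.2.2.2.1, ?_⟩
    rcases hz with rfl | rfl
    · exact h 1
    · exact h 2
  have hwR : w ∈ perpAll a b ![u, x, y] := mem_perpAll.2 fun i => by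
    fin_cases i
    · exact hxw.2.2.1
    · exact hxw.2.2.2.2
    · exact hyw.2.2.2.2
  have paux : polar (qMinus m F a b) u x = 0 := by rw [polar_comm, hxw.2.2.2.1]
  have pauy : polar (qMinus m F a b) u y = 0 := by rw [polar_comm, hyw.2.2.2.1]
  have pxx : polar (qMinus m F a b) x x = 0 := by rw [polar_self_mul, two_zero, zero_mul]
  have main : ∀ r ∈ perpAll a b ![u, x, y], r ∉ Submodule.span F (Set.range ![u, x, y]) →
      liftAt E hab hm x u r = liftAt E hab hm y u r := by
    intro r hr hrs
    by_cases hr0 : qMinus m F a b r = 0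
    · exact agree_singular E hab hm (mem3 hr (Or.inl rfl) hxw) (mem3 hr (Or.inr rfl) hyw) hr0
    obtain ⟨t, htR, hrt⟩ : ∃ t ∈ perpAll a b ![u, x, y], polar (qMinus m F a b) r t ≠ 0 := by
      by_contra hcon
      simp only [not_exists, not_and, not_not] at hcon
      exact hrs (mem_span_of_perp hab _ hcon)
    obtain ⟨ru, rx, ry⟩ : polar (qMinus m F a b) u r = 0 ∧ polar (qMinus m F a b) x r = 0 ∧
        polar (qMinus m F a b) y r = 0 := ⟨mem_perpAll.1 hr 0, mem_perpAll.1 hr 1, mem_perpAll.1 hr 2⟩
    obtain ⟨tu, tx, ty⟩ : polar (qMinus m F a b) u t = 0 ∧ polar (qMinus m F a b) x t = 0 ∧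
        polar (qMinus m F a b) y t = 0 := ⟨mem_perpAll.1 htR 0, mem_perpAll.1 htR 1, mem_perpAll.1 htR 2⟩
    obtain ⟨k, hkR, hkr, hkt, hk0⟩ : ∃ k ∈ perpAll a b ![u, x, y], polar (qMinus m F a b) r k = 0 ∧
        polar (qMinus m F a b) t k = 0 ∧ qMinus m F a b k ≠ 0 := by
      by_cases hxy : polar (qMinus m F a b) x y = 0
      · refine ⟨x, mem_perpAll.2 fun i => ?_, by rw [polar_comm, rx], by rw [polar_comm, tx],
          by rw [hxw.1]; exact one_ne_zero⟩
        fin_cases i
        · exact paux
        · exact pxx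
        · show polar (qMinus m F a b) y x = 0
          rw [polar_comm, hxy]
      by_contra hcon
      simp only [not_exists, not_and, not_not] at hcon
      have sub5 : ∀ k ∈ perpAll a b ![u, x, y, r, t], k ∈ perpAll a b ![u, x, y] ∧
          polar (qMinus m F a b) r k = 0 ∧ polar (qMinus m F a b) t k = 0 := fun k hk =>
        ⟨mem_perpAll.2 fun i => by
          fin_cases i
          · exact mem_perpAll.1 hk 0
          · exact mem_perpAll.1 hk 1
          · exact mem_perpAll.1 hk 2, mem_perpAll.1 hk 3, mem_perpAll.1 hk 4⟩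
      have hq : ∀ k ∈ perpAll a b ![u, x, y, r, t], qMinus m F a b k = 0 := fun k hk =>
        hcon k (sub5 k hk).1 (sub5 k hk).2.1 (sub5 k hk).2.2
      have hle : perpAll a b ![u, x, y, r, t] ≤ Submodule.span F {u} := fun k hk => by
        have hm' := mem_span_of_perp hab ![u, x, y, r, t] (x := k) fun k' hk' => by
          rw [show polar (qMinus m F a b) k k' = qMinus m F a b (k + k') - qMinus m F a b k - qMinus m F a b k' from rfl,
            hq _ (Submodule.add_mem _ hk hk'), hq k hk, hq k' hk', sub_zero, sub_zero]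
        obtain ⟨g, hg⟩ := (Submodule.mem_span_range_iff_exists_fun F).1 hm'
        have hk' := mem_perpAll.1 hk
        have ev : ∀ s, g 0 * polar (qMinus m F a b) s u + g 1 * polar (qMinus m F a b) s x +
            g 2 * polar (qMinus m F a b) s y + g 3 * polar (qMinus m F a b) s r + g 4 * polar (qMinus m F a b) s t =
            polar (qMinus m F a b) s k := fun s => by
          rw [← hg]; simp [Fin.sum_univ_five, polar_add_right, polar_smul_right]
        have e1 := ev x
        rw [hxw.2.2.2.1, pxx, rx, tx, show polar (qMinus m F a b) x k = 0 from hk' 1] at e1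
        have e2 := ev y
        rw [hyw.2.2.2.1, polar_comm _ y x, polar_self_mul y, two_zero, ry, ty,
          show polar (qMinus m F a b) y k = 0 from hk' 2] at e2
        have e3 := ev r
        rw [polar_comm _ r u, ru, polar_comm _ r x, rx, polar_comm _ r y, ry, polar_self_mul r, two_zero,
          show polar (qMinus m F a b) r k = 0 from hk' 3] at e3
        have e4 := ev t
        rw [polar_comm _ t u, tu, polar_comm _ t x, tx, polar_comm _ t y, ty, polar_self_mul t, two_zero,
          polar_comm _ t r, show polar (qMinus m F a b) t k = 0 from hk' 4] at e4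
        simp [hxy, hrt] at e1 e2 e3 e4
        rw [Submodule.mem_span_singleton]
        exact ⟨g 0, by rw [← hg]; simp [Fin.sum_univ_five, e1, e2, e3, e4]⟩
      have h1 := finrank_perpAll (a := a) (b := b) ![u, x, y, r, t]
      have h2 := (Submodule.finrank_mono hle).trans (finrank_span_le_card {u})
      simp at h2
      omega
    obtain ⟨d, hd⟩ := exists_sqrt (qMinus m F a b t / qMinus m F a b k)
    set t' := t + d • k with ht'
    have qt' : qMinus m F a b t' = 0 := by
      rw [ht', QuadraticMap.map_add ⇑(qMinus m F a b), QuadraticMap.map_smul, polar_smul_right, hkt, smul_eq_mul, hd,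
        div_mul_cancel₀ _ hk0, smul_zero, add_zero]
      exact CharTwo.add_self_eq_zero _
    have hrt' : polar (qMinus m F a b) r t' = polar (qMinus m F a b) r t := by
      rw [ht', polar_add_right, polar_smul_right, hkr, smul_zero, add_zero]
    set s := (qMinus m F a b r / polar (qMinus m F a b) r t) • t' with hs
    have hsR : s ∈ perpAll a b ![u, x, y] :=
      Submodule.smul_mem _ _ (Submodule.add_mem _ htR (Submodule.smul_mem _ _ hkR))
    have qs : qMinus m F a b s = 0 := by rw [hs, QuadraticMap.map_smul, qt', smul_zero]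
    have qrs : qMinus m F a b (r - s) = 0 := by
      rw [map_sub_eq, qs, hs, polar_smul_right, hrt', smul_eq_mul, div_mul_cancel₀ _ hrt, add_zero, sub_self]
    have hrsR : r - s ∈ perpAll a b ![u, x, y] := Submodule.sub_mem _ hr hsR
    rw [show r = (r - s) + s by rw [sub_add_cancel],
      ← liftAt_add E hab hm (mem3 hrsR (Or.inl rfl) hxw) (mem3 hsR (Or.inl rfl) hxw),
      ← liftAt_add E hab hm (mem3 hrsR (Or.inr rfl) hyw) (mem3 hsR (Or.inr rfl) hyw),
      agree_singular E hab hm (mem3 hrsR (Or.inl rfl) hxw) (mem3 hrsR (Or.inr rfl) hyw) qrs,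
      agree_singular E hab hm (mem3 hsR (Or.inl rfl) hxw) (mem3 hsR (Or.inr rfl) hyw) qs]
  by_cases hws : w ∈ Submodule.span F (Set.range ![u, x, y])
  swap
  · exact main w hwR hws
  obtain ⟨r, hr, hrs⟩ : ∃ r ∈ perpAll a b ![u, x, y], r ∉ Submodule.span F (Set.range ![u, x, y]) := by
    by_contra hcon
    simp only [not_exists, not_and, not_not] at hcon
    have h1 := finrank_perpAll (a := a) (b := b) ![u, x, y]
    have h2 : finrank F (Submodule.span F (Set.range ![u, x, y])) ≤ 3 :=
      (finrank_range_le_card (R := F) ![u, x, y]).trans (by simp)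
    have h3 := Submodule.finrank_mono (s := perpAll a b ![u, x, y]) (fun r hr => hcon r hr)
    omega
  have hwr : w - r ∈ perpAll a b ![u, x, y] := Submodule.sub_mem _ hwR hr
  have hwrs : w - r ∉ Submodule.span F (Set.range ![u, x, y]) := fun h =>
    hrs (by simpa using Submodule.sub_mem _ hws h)
  rw [show w = (w - r) + r by rw [sub_add_cancel],
    ← liftAt_add E hab hm (mem3 hwr (Or.inl rfl) hxw) (mem3 hr (Or.inl rfl) hxw),
    ← liftAt_add E hab hm (mem3 hwr (Or.inr rfl) hyw) (mem3 hr (Or.inr rfl) hyw), main _ hwr hwrs, main r hr hrs]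

open scoped Classical in
/-- The lifts. -/
noncomputable def liftT (u w : VMinus F m) : Γ :=
  if h : ∃ x, Good a b x u w then liftAt E hab hm h.choose u w else 1

theorem liftT_eq {x u w : VMinus F m} (h : Good a b x u w) :
    liftT E hab hm u w = liftAt E hab hm x u w := by
  have h' : ∃ x, Good a b x u w := ⟨x, h⟩
  rw [liftT, dif_pos h']
  exact agree E hab hm h'.choose_spec h

include hab hm in
theorem exists_good {u w : VMinus F m} (hu : qMinus m F a b u = 0) (huw : polar (qMinus m F a b) u w = 0) :
    ∃ x, Good a b x u w := by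
  obtain ⟨x, hx, h1⟩ := exists_norm_one hab ![u, w] (by omega)
  exact ⟨x, h1, hu, huw, by rw [polar_comm]; exact mem_perpAll.1 hx 0, by rw [polar_comm]; exact mem_perpAll.1 hx 1⟩

theorem lifts_liftT : Lifts σ (liftT E hab hm) := by
  refine ⟨?_, ?_, ?_, ?_, ?_, ?_⟩
  · intro u w hu hw
    obtain ⟨x, h⟩ := exists_good hab hm hu hw
    rw [liftT_eq E hab hm h, map_liftAt E hab hm h]
  · intro u w w' hu hw hw'
    obtain ⟨x, hx, h1⟩ := exists_norm_one hab ![u, w, w'] (by omega)
    have g : Good a b x u w :=
      ⟨h1, hu, hw, by rw [polar_comm]; exact mem_perpAll.1 hx 0, by rw [polar_comm]; exact mem_perpAll.1 hx 1⟩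
    have g' : Good a b x u w' := ⟨h1, hu, hw', g.2.2.2.1, by rw [polar_comm]; exact mem_perpAll.1 hx 2⟩
    rw [liftT_eq E hab hm g, liftT_eq E hab hm g', liftT_eq E hab hm (g.add g'), liftAt_add E hab hm g g']
  · intro γ u w hu hw
    obtain ⟨x, h⟩ := exists_good hab hm hu hw
    have h' : Good a b (ap (σ γ) x) (ap (σ γ) u) (ap (σ γ) w) :=
      ⟨by rw [Q_ap, h.1], by rw [Q_ap, h.2.1], by rw [polar_ap, h.2.2.1], by rw [polar_ap, h.2.2.2.1],
        by rw [polar_ap, h.2.2.2.2]⟩
    rw [liftT_eq E hab hm h, liftT_eq E hab hm h', liftAt_equiv E hab hm γ h]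
  · intro c u w hu hw
    obtain ⟨x, h⟩ := exists_good hab hm hu hw
    have g : Good a b x (c • u) w := ⟨h.1, by simp [QuadraticMap.map_smul, hu], by simp [polar_smul_left, hw],
      by simp [polar_smul_right, h.2.2.2.1], h.2.2.2.2⟩
    have g' : Good a b x u (c • w) := ⟨h.1, hu, by simp [polar_smul_right, hw], h.2.2.2.1,
      by simp [polar_smul_right, h.2.2.2.2]⟩
    rw [liftT_eq E hab hm g, liftT_eq E hab hm g']
    exact liftAt_congr E hab hm g g' (siegel_smul hu hw c)
  · intro c u w hu hw
    obtain ⟨x, h⟩ := exists_good hab hm hu hw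
    have g : Good a b x u (w + c • u) := ⟨h.1, hu,
      by rw [polar_add_right, hw, polar_smul_right, polar_singular_self hu, smul_zero, add_zero], h.2.2.2.1,
      by rw [polar_add_right, h.2.2.2.2, polar_smul_right, h.2.2.2.1, smul_zero, add_zero]⟩
    rw [liftT_eq E hab hm g, liftT_eq E hab hm h]
    exact liftAt_congr E hab hm g h (siegel_add_smul hu hw c)
  · intro u w hu hw hQw
    obtain ⟨x, h⟩ := exists_good hab hm hu hw
    have g : Good a b x w (-u) := ⟨h.1, hQw, by rw [polar_neg_right, polar_comm, hw, neg_zero], h.2.2.2.2,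
      by rw [polar_neg_right, h.2.2.2.1, neg_zero]⟩
    rw [liftT_eq E hab hm g, liftT_eq E hab hm h]
    refine liftAt_congr E hab hm g h (ap_ext fun v => ?_)
    rw [ap_siegel, ap_siegel, QuadraticMap.map_neg, hu, hQw, polar_neg_right]
    simp only [zero_mul, add_zero]
    module

include E hab hm in
/-- Central extensions are trivial. -/
theorem ker_eq_bot_minus_even : σ.ker = ⊥ := by
  have ha := a_ne_zero hab
  set e : VMinus F m := Sum.elim (Sum.elim (Pi.single ⟨0, by omega⟩ 1) (Pi.single ⟨0, by omega⟩ (b * a⁻¹ * a⁻¹)))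
    ![0, a⁻¹] with he
  have qe : qMinus m F a b e = 0 := by
    rw [qMinus_apply]
    simp [e, Cfsg.quadFormMinus, Cfsg.quadFormPlus, Pi.single_apply, Finset.sum_ite_eq', ite_mul]
    linear_combination (b * a⁻¹ * a⁻¹) * (two_zero (F := F))
  have hae : polar (qMinus m F a b) (aMinus F m) e = 1 := by
    rw [polar_aMinus]; simp [e, mul_inv_cancel₀ ha]
  have hp : IsHypPair (qMinus m F a b) (e, aMinus F m - e) := by
    refine ⟨qe, ?_, ?_⟩
    · rw [map_sub_eq, qMinus_aMinus, qe, hae]; ring
    · rw [polar_sub_right, polar_comm _ e (aMinus F m), hae, polar_singular_self qe, sub_zero]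
  have C : Frame σ (liftT E hab hm) e (aMinus F m - e) :=
    ⟨E, lifts_liftT E hab hm, nondeg_qMinus hab m, by rw [finrank_qMinus]; omega, hp⟩
  have hle : levi (qMinus m F a b) (liftT E hab hm) e (aMinus F m - e) ≤
      (secAt E hab hm (aMinus F m) qMinus_aMinus).range := by
    rw [levi, Subgroup.closure_le]
    rintro _ ⟨u, w, hu, hw, hQu, huw, rfl⟩
    have pm : ∀ v, Mid (qMinus m F a b) e (aMinus F m - e) v → polar (qMinus m F a b) (aMinus F m) v = 0 :=
      fun v hv => by
        have h := hv.2
        rw [polar_sub_left, hv.1, sub_zero] at h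
        exact h
    have g : Good a b (aMinus F m) u w := ⟨qMinus_aMinus, hQu, huw, pm u hu, pm w hw⟩
    rw [SetLike.mem_coe, liftT_eq E hab hm g, liftAt_eq E hab hm g]
    exact ⟨_, rfl⟩
  refine (Subgroup.eq_bot_iff_forall _).2 fun k hk => ?_
  obtain ⟨h, rfl⟩ := hle (C.ker_le_levi hk)
  rw [MonoidHom.mem_ker, map_secAt] at hk
  rw [show h = 1 from Subtype.ext hk, map_one]

end

end CfsgLib.OrthMult
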