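import Cfsg.Agent.Lib.OrthMult.EvenBase

/-!
The section over the symplectic subgroup.
-/

set_option autoImplicit false
set_option linter.unusedSectionVars false

namespace CfsgLib.OrthMult

open QuadraticMap CfsgLib.ClassicalForms Module
open scoped commutatorElement

universe u

section general

variable {F V : Type*} [Field F] [AddCommGroup V] [Module F V] {Q : QuadraticForm F V}
  {Γ : Type*} [Group Γ] {σ : Γ →* orth Q}

theorem siegel_commute {x y u w : V} (hx : Q x = 0) (hy : polar Q x y = 0) (hu : Q u = 0) (hw : polar Q u w = 0)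
    (e1 : ap (siegel Q x y hx hy) u = u) (e2 : ap (siegel Q x y hx hy) w = w) :
    Commute (siegel Q x y hx hy) (siegel Q u w hu hw) := by
  have h := conj_siegel (siegel Q x y hx hy) hu hw
  rw [mul_inv_eq_iff_eq_mul] at h
  refine h.trans ?_
  congr 1
  exact siegel_congr e1 e2 _ _

variable [Finite F] [FiniteDimensional F V]

/-- The pairing of two short root elements along a common vector of norm one is trivial. -/
theorem commute_short (E : CExt σ) (h2 : (2 : F) = 0) (hQ : Nondeg Q) (hn : 5 ≤ finrank F V)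
    {u₁ u₂ u₃ a a' z z' : V} (q1 : Q u₁ = 0) (q2 : Q u₂ = 0) (q3 : Q u₃ = 0) (b12 : polar Q u₁ u₂ = 0)
    (b13 : polar Q u₁ u₃ = 0) (b23 : polar Q u₂ u₃ = 0) (qa : Q a = 1) (qa' : Q a' = 1) (baa : polar Q a a' = 1)
    (b1a : polar Q u₁ a = 0) (b2a : polar Q u₂ a = 0) (b3a : polar Q u₃ a = 0) (b1a' : polar Q u₁ a' = 0)
    (b2a' : polar Q u₂ a' = 0) (b3a' : polar Q u₃ a' = 0) (qz : Q z = 0) (z1 : polar Q z u₁ = 1)
    (z2 : polar Q z u₂ = 1) (z3 : polar Q z u₃ = 0) (za : polar Q z a = 0) (qz' : Q z' = 0)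
    (z'1 : polar Q z' u₁ = 1) (z'2 : polar Q z' u₂ = 0) (z'3 : polar Q z' u₃ = 0) (z'a : polar Q z' a = 0)
    {x y : Γ} (hx : σ x = siegel Q u₁ a q1 b1a) (hy : σ y = siegel Q u₃ a q3 b3a) : Commute x y := by
  have hc := E.central
  have paa : polar Q a a = 0 := by rw [polar_self_mul, h2, zero_mul]
  have pa'a' : polar Q a' a' = 0 := by rw [polar_self_mul, h2, zero_mul]
  have neg_id : ∀ v : V, -v = v := fun v => by
    rw [neg_eq_iff_add_eq_zero, ← two_smul F, h2, zero_smul]
  have lft : ∀ u w, ∀ (hu : Q u = 0) (hw : polar Q u w = 0), ∃ g, σ g = siegel Q u w hu hw :=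
    fun u w hu hw => E.exists_lift (siegel_mem_siegelGroup hu hw)
  have sw : polar Q u₃ (a + a') = 0 := by rw [polar_add_right, b3a, b3a', add_zero]
  obtain ⟨v, hv⟩ := lft u₁ u₂ q1 b12
  obtain ⟨y', hy'⟩ := lft u₃ a' q3 b3a'
  obtain ⟨y'', hy''⟩ := lft u₃ (a + a') q3 sw
  have fix12 : ∀ w, polar Q w u₁ = 0 → polar Q w u₂ = 0 → ap (siegel Q u₁ u₂ q1 b12) w = w :=
    fun w h h' => siegel_fix q1 b12 h h'
  have c12 : ∀ w (hw : polar Q u₃ w = 0), polar Q w u₁ = 0 → polar Q w u₂ = 0 →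
      Commute (σ v) (siegel Q u₃ w q3 hw) := fun w hw h h' => by
    rw [hv]
    exact siegel_commute q1 b12 q3 hw (fix12 _ (by rw [polar_comm, b13]) (by rw [polar_comm, b23])) (fix12 _ h h')
  have pa1 : polar Q a u₁ = 0 := by rw [polar_comm, b1a]
  have pa2 : polar Q a u₂ = 0 := by rw [polar_comm, b2a]
  have pa'1 : polar Q a' u₁ = 0 := by rw [polar_comm, b1a']
  have pa'2 : polar Q a' u₂ = 0 := by rw [polar_comm, b2a']
  -- the additivity in the plane
  have esum : ⁅v, y''⁆ = ⁅v, y⁆ * ⁅v, y'⁆ := by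
    rw [← SchurMult.comm_mul_right hc (by rw [hy']; exact c12 a' b3a' pa'1 pa'2)]
    refine SchurMult.comm_eq_of_map_eq hc rfl ?_
    rw [map_mul, hy, hy', hy'', siegel_mul]
  -- the rotation
  have qs : Q (a + a') = 1 := by
    rw [QuadraticMap.map_add ⇑Q, qa, qa', baa]; linear_combination h2
  have n0 : Q a ≠ 0 := by rw [qa]; exact one_ne_zero
  have n2 : Q (a + a') ≠ 0 := by rw [qs]; exact one_ne_zero
  set r := refl Q a n0 * refl Q (a + a') n2 with hr
  have hrm : r ∈ siegelGroup Q := by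
    have := refl_div_mem_siegelGroup hQ hn n0 n2 ⟨1, by rw [qa, qs]; simp⟩
    rwa [ClassicalForms.refl_inv] at this
  have rfl1 : ∀ w, ap (refl Q a n0) w = w + polar Q w a • a := fun w => by
    show w - ((Q a)⁻¹ * polar Q w a) • a = _
    rw [qa, inv_one, one_mul, sub_eq_add_neg, ← smul_neg, neg_id]
  have rfl2 : ∀ w, ap (refl Q (a + a') n2) w = w + polar Q w (a + a') • (a + a') := fun w => by
    show w - ((Q (a + a'))⁻¹ * polar Q w (a + a')) • (a + a') = _
    rw [qs, inv_one, one_mul, sub_eq_add_neg, ← smul_neg, neg_id]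
  have baa' : polar Q a' a = 1 := by rw [polar_comm, baa]
  have hra : ap r a = a + a' := by
    rw [hr, ap_mul, rfl2, polar_add_right, paa, baa, zero_add, one_smul,
      show a + (a + a') = a' by rw [← add_assoc, ← two_smul F a, h2, zero_smul, zero_add], rfl1, baa', one_smul,
      add_comm]
  have hra' : ap r a' = a := by
    rw [hr, ap_mul, rfl2, polar_add_right, baa', pa'a', add_zero, one_smul,
      show a' + (a + a') = a by rw [add_left_comm, ← two_smul F a', h2, zero_smul, add_zero], rfl1, paa, zero_smul,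
      add_zero]
  have hru : ∀ w, polar Q w a = 0 → polar Q w a' = 0 → ap r w = w := fun w h h' => by
    rw [hr, ap_mul, rfl2, polar_add_right, h, h', add_zero, zero_smul, add_zero, rfl1, h, zero_smul, add_zero]
  obtain ⟨γ, hγ⟩ := E.exists_lift hrm
  have rot : ∀ w (hw : polar Q u₃ w = 0), polar Q w u₁ = 0 → polar Q w u₂ = 0 → ∀ g g' : Γ,
      σ g = siegel Q u₃ w q3 hw → ∀ w' (hw' : polar Q u₃ w' = 0), ap r w = w' →
      σ g' = siegel Q u₃ w' q3 hw' → ⁅v, g'⁆ = ⁅v, g⁆ := by
    intro w hw h h' g g' hg w' hw' ew hg'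
    rw [← SchurMult.comm_conj hc (show Commute (σ v) (σ g) by rw [hg]; exact c12 w hw h h') γ]
    refine SchurMult.comm_eq_of_map_eq hc ?_ ?_
    · rw [map_mul, map_mul, map_inv, hγ, hv, conj_siegel]
      exact siegel_congr (hru _ b1a b1a').symm (hru _ b2a b2a').symm _ _
    · rw [map_mul, map_mul, map_inv, hγ, hg, hg', conj_siegel]
      exact siegel_congr (hru _ b3a b3a').symm ew.symm _ _
  have e1 : ⁅v, y''⁆ = ⁅v, y⁆ := rot a b3a pa1 pa2 y y'' hy (a + a') sw hra hy''
  have e2 : ⁅v, y⁆ = ⁅v, y'⁆ := rot a' b3a' pa'1 pa'2 y' y hy' a b3a hra' hy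
  have hχ : ⁅v, y⁆ = 1 := by
    rw [e1, ← e2] at esum
    exact mul_eq_left.1 esum.symm
  -- the sum of two vectors
  have hS : polar Q (u₁ + u₂) a = 0 := by rw [polar_add_left, b1a, b2a, add_zero]
  have qS : Q (u₁ + u₂) = 0 := by rw [QuadraticMap.map_add ⇑Q, q1, q2, b12]; simp
  obtain ⟨x₂, hx₂⟩ := lft u₂ a q2 b2a
  obtain ⟨xs, hxs⟩ := lft (u₁ + u₂) a qS hS
  have c2 : Commute (σ x₂) (σ y) := by
    rw [hx₂, hy]
    exact siegel_commute q2 b2a q3 b3a (siegel_fix q2 b2a (by rw [polar_comm, b23]) b3a) (siegel_fix q2 b2a pa2 paa)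
  have hxs' : ⁅xs, y⁆ = ⁅x, y⁆ * ⁅x₂, y⁆ := by
    rw [← mul_one (⁅x, y⁆ * ⁅x₂, y⁆), ← hχ, ← SchurMult.comm_mul_left hc c2,
      ← SchurMult.comm_mul_left hc (by rw [hy]; exact c12 a b3a pa1 pa2)]
    refine SchurMult.comm_eq_of_map_eq hc ?_ rfl
    rw [map_mul, map_mul, hxs, hx, hx₂, hv]
    exact siegel_add_vec h2 q1 q2 b12 qa b1a b2a
  have cx : Commute (σ x) (σ y) := by
    rw [hx, hy]
    exact siegel_commute q1 b1a q3 b3a (siegel_fix q1 b1a (by rw [polar_comm, b13]) b3a) (siegel_fix q1 b1a pa1 paa)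
  have move : ∀ w : V, ∀ (qw : Q w = 0) (wa : polar Q w a = 0) (zw : V), Q zw = 0 → polar Q zw u₁ = 1 →
      polar Q zw w = 1 → polar Q zw u₃ = 0 → polar Q zw a = 0 → polar Q u₃ w = 0 → ∀ g,
      σ g = siegel Q w a qw wa → ⁅g, y⁆ = ⁅x, y⁆ := by
    intro w qw wa zw qzw zw1 zww zw3 zwa h3w g hg
    obtain ⟨hz, ez⟩ := siegel_sub_apply qzw q1 qw zw1 zww
    obtain ⟨δ, hδ⟩ := lft zw (w - u₁) qzw hz
    rw [← SchurMult.comm_conj hc cx δ]
    refine SchurMult.comm_eq_of_map_eq hc ?_ ?_
    · rw [map_mul, map_mul, map_inv, hδ, hg, hx, conj_siegel]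
      refine siegel_congr ez.symm (siegel_fix qzw hz (by rw [polar_comm, zwa]) ?_).symm _ _
      rw [polar_sub_right, polar_comm Q a w, wa, pa1, sub_zero]
    · rw [map_mul, map_mul, map_inv, hδ, hy, conj_siegel]
      refine siegel_congr (siegel_fix qzw hz (by rw [polar_comm, zw3]) ?_).symm
        (siegel_fix qzw hz (by rw [polar_comm, zwa]) ?_).symm _ _
      · rw [polar_sub_right, h3w, polar_comm Q u₃ u₁, b13, sub_zero]
      · rw [polar_sub_right, polar_comm Q a w, wa, pa1, sub_zero]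
  have m2 := move u₂ q2 b2a z qz z1 z2 z3 za (by rw [polar_comm, b23]) x₂ hx₂
  have m12 := move (u₁ + u₂) qS hS z' qz' z'1 (by rw [polar_add_right, z'1, z'2, add_zero]) z'3 z'a
    (by rw [polar_add_right, polar_comm Q u₃ u₁, b13, polar_comm Q u₃ u₂, b23, add_zero]) xs hxs
  rw [m2, m12] at hxs'
  exact commutatorElement_eq_one_iff_commute.1 (mul_eq_left.1 hxs'.symm)

end general

variable {F : Type u} [Field F] [Finite F] [CharP F 2] {m : ℕ} {a b : F}

open CfsgLib.SpAmalgam in
theorem spT_eq_T (v : Vec m F) (s : F) : CfsgLib.ClassicalLinear.spT v s = SpAmalgam.T v s := by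
  refine CfsgLib.ClassicalLinear.sp_ext fun x => ?_
  rw [CfsgLib.ClassicalLinear.spT_smul, CfsgLib.ClassicalLinear.sp_smul_eq]
  refine Eq.trans ?_ (ap_T v s x).symm
  rw [show Cfsg.sympForm m F x v = om v x by
    rw [sympForm_apply, om]; exact Finset.sum_congr rfl fun i _ => by ring]

open CfsgLib.ClassK.OrthPlusMult CfsgLib.SpAmalgam in
/-- A section over the subgroup orthogonal to the standard vector. -/
theorem exists_section {Γ : Type u} [Group Γ] [Finite Γ] {σ : Γ →* orth (qMinus m F a b)} (E : CExt σ)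
    (hab : Aniso a b) (hm : 3 ≤ m) :
    ∃ s : perpSiegel (qMinus m F a b) (aMinus F m) →* Γ, ∀ h, σ (s h) = h := by
  classical
  set H := perpSiegel (qMinus m F a b) (aMinus F m) with hH
  let σ₀ : H.comap σ →* H := (σ.comp (H.comap σ).subtype).codRestrict H fun x => x.2
  have h₀s : Function.Surjective σ₀ := fun g => by
    obtain ⟨x, hx⟩ := E.exists_lift (perpSiegel_le _ g.2)
    exact ⟨⟨x, by rw [Subgroup.mem_comap, hx]; exact g.2⟩, Subtype.ext hx⟩
  let φ : H.comap σ →* Matrix.symplecticGroup (Fin m) F := (perpEquiv hab hm).toMonoidHom.comp σ₀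
  have hφs : Function.Surjective φ := (perpEquiv hab hm).surjective.comp h₀s
  have hperf : commutator (Matrix.symplecticGroup (Fin m) F) = ⊤ :=
    CfsgLib.ClassicalLinear.commutator_sp_eq_top (Or.inl hm)
  have hφc : φ.ker ≤ Subgroup.center (H.comap σ) := fun x hx => by
    have h1 : σ₀ x = 1 := (perpEquiv hab hm).injective (hx.trans (map_one (perpEquiv hab hm)).symm)
    refine Subgroup.mem_center_iff.2 fun y => Subtype.ext ?_
    exact Subgroup.mem_center_iff.1 (E.central (show (x : Γ) ∈ σ.ker from congrArg Subtype.val h1)) y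
  let θ : commutator (H.comap σ) →* Sp m F := φ.comp (commutator (H.comap σ)).subtype
  have hθs : Function.Surjective θ := commutator_surjective hφs hperf
  have hθc : θ.ker ≤ Subgroup.center (commutator (H.comap σ)) := fun x hx => Subgroup.mem_center_iff.2 fun y =>
    Subtype.ext (Subgroup.mem_center_iff.1 (hφc (show (x : H.comap σ) ∈ φ.ker from hx)) y)
  have hDp : commutator (commutator (H.comap σ) : Subgroup (H.comap σ)) = ⊤ := commutator_perfect hφs hφc hperf
  have hcases : SpMult.Cases m F := by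
    by_cases h : ∀ s : F, s = 0 ∨ s = 1
    · exact .two hm h
    · simp only [not_forall, not_or] at h
      obtain ⟨c, h0, h1⟩ := h
      refine .big c h0 fun e => h1 ?_
      rcases mul_self_eq_one_iff.1 e with e' | e'
      · exact e'
      · rw [e', CharTwo.neg_eq]
  have key : ∀ (i : Fin m) (x : commutator (H.comap σ)), θ x = T (eV i) 1 →
      ∀ (hu : qMinus m F a b (jW F m (eV i)) = 0) (hw : polar (qMinus m F a b) (jW F m (eV i)) (aMinus F m) = 0),
      σ ((x : H.comap σ) : Γ) = siegel _ _ _ hu hw := by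
    intro i x hx hu hw
    have hu' : qMinus m F a b (jW F m (eV i) + (0 : F) • aMinus F m) = 0 := by rw [zero_smul, add_zero, hu]
    have hw' : polar (qMinus m F a b) (jW F m (eV i) + (0 : F) • aMinus F m) ((1 : F) • aMinus F m) = 0 := by
      rw [zero_smul, add_zero, one_smul, hw]
    have hmem := siegel_mem_perpSiegel (a := aMinus F m) hu' hw'
      (by rw [zero_smul, add_zero, polar_aMinus_jW]) (by rw [one_smul, polar_aMinus_self])
    have e : σ₀ x = ⟨_, hmem⟩ := (perpEquiv hab hm).injective (by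
      show θ x = toSpW hab ⟨_, hmem⟩
      rw [hx, toSpW_siegel hab (eV i) 0 1 hu' hw' hmem, one_mul, spT_eq_T])
    exact (congrArg Subtype.val e).trans (siegel_congr (by rw [zero_smul, add_zero]) (one_smul F _) hu' hw')
  have E' : SpMult.CExt m F θ := by
    refine ⟨by omega, hθs, hθc, hcases, ?_⟩
    intro h3 hF x y hx hy
    have ha1 : a = 1 := (hF a).resolve_left (a_ne_zero hab)
    have hb1 : b = 1 := (hF b).resolve_left fun hb0 => by
      have h := congrFun (hab.eq_zero (v := ![0, 1]) (by rw [binForm_apply]; simp [hb0])) 1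
      simp at h
    have hqe : ∀ i : Fin m, qMinus m F a b (jW F m (eV i)) = 0 := fun i => by
      rw [qMinus_jW]; simp [hyp, eV]
    have hqf : ∀ i : Fin m, qMinus m F a b (jW F m (fV i)) = 0 := fun i => by
      rw [qMinus_jW]; simp [hyp, fV]
    have sy : ∀ u v : Vec m F, polar (qMinus m F a b) (jW F m u) (jW F m v) = om u v := fun u v => by
      rw [polar_jW, sympForm_apply, om]
      exact Finset.sum_congr rfl fun i _ => by rw [CharTwo.sub_eq_add, CharTwo.sub_eq_add]; ring
    have hea : ∀ u : Vec m F, polar (qMinus m F a b) (jW F m u) (aMinus F m) = 0 := fun u => by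
      rw [polar_comm, polar_aMinus_jW]
    set a' : VMinus F m := Sum.elim 0 ![0, 1] with ha'
    have qa' : qMinus m F a b a' = 1 := by
      rw [qMinus_apply]; simp [a', Cfsg.quadFormMinus, Cfsg.quadFormPlus, hb1]
    have hea' : ∀ u : Vec m F, polar (qMinus m F a b) (jW F m u) a' = 0 := fun u => by
      rw [polar_qMinus]; simp [a', jW]
    have baa : polar (qMinus m F a b) (aMinus F m) a' = 1 := by
      rw [polar_aMinus]; simp [a', ha1]
    let i₂ : Fin m := ⟨2, by omega⟩
    have n02 : SpMult.i₀ (show 2 ≤ m by omega) ≠ i₂ := by simp [SpMult.i₀, i₂, Fin.ext_iff]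
    have n12 : SpMult.i₁ (show 2 ≤ m by omega) ≠ i₂ := by simp [SpMult.i₁, i₂, Fin.ext_iff]
    have n01 : SpMult.i₀ (show 2 ≤ m by omega) ≠ SpMult.i₁ (show 2 ≤ m by omega) := by
      simp [SpMult.i₀, SpMult.i₁, Fin.ext_iff]
    set i := SpMult.i₀ (show 2 ≤ m by omega)
    set k := SpMult.i₁ (show 2 ≤ m by omega)
    have zf : qMinus m F a b (jW F m (fV i + fV i₂)) = 0 := by
      rw [qMinus_jW]; simp [hyp, fV]
    have hnn : -(1 : F) = 1 := CharTwo.neg_eq 1
    have hc : Commute ((x : H.comap σ) : Γ) ((y : H.comap σ) : Γ) :=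
      commute_short E two_zero (nondeg_qMinus hab m) (by rw [finrank_qMinus]; omega)
        (u₁ := jW F m (eV i)) (u₂ := jW F m (eV i₂)) (u₃ := jW F m (eV k)) (a := aMinus F m) (a' := a')
        (z := jW F m (fV i + fV i₂)) (z' := jW F m (fV i))
        (hqe i) (hqe i₂) (hqe k) (by rw [sy, om_eV_eV]) (by rw [sy, om_eV_eV]) (by rw [sy, om_eV_eV])
        qMinus_aMinus qa' baa (hea _) (hea _) (hea _) (hea' _) (hea' _) (hea' _) zf
        (by rw [sy, om_add_left, om_swap (fV i), om_swap (fV i₂), om_eV_fV, om_eV_fV_ne n02, neg_zero, add_zero, hnn])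
        (by rw [sy, om_add_left, om_swap (fV i), om_swap (fV i₂), om_eV_fV, om_eV_fV_ne n02.symm, neg_zero, zero_add, hnn])
        (by rw [sy, om_add_left, om_swap (fV i), om_swap (fV i₂), om_eV_fV_ne n01.symm, om_eV_fV_ne n12, neg_zero, add_zero])
        (hea _) (hqf i)
        (by rw [sy, om_swap, om_eV_fV, hnn]) (by rw [sy, om_swap, om_eV_fV_ne n02.symm, neg_zero])
        (by rw [sy, om_swap, om_eV_fV_ne n01.symm, neg_zero]) (hea _)
        (key i x hx _ _) (key k y hy _ _)
    rw [commutatorElement_eq_one_iff_commute]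
    exact Subtype.ext (Subtype.ext hc.eq)
  have hk : θ.ker = ⊥ := SpMult.ker_eq_bot E' (by rw [hDp]; exact le_top)
  let e := MulEquiv.ofBijective θ ⟨(MonoidHom.ker_eq_bot_iff θ).1 hk, hθs⟩
  refine ⟨((H.comap σ).subtype.comp (commutator (H.comap σ)).subtype).comp
    (e.symm.toMonoidHom.comp (perpEquiv hab hm).toMonoidHom), fun h => ?_⟩
  have e1 : θ (e.symm (perpEquiv hab hm h)) = perpEquiv hab hm h := e.apply_symm_apply _
  exact congrArg Subtype.val ((perpEquiv hab hm).injective e1)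

end CfsgLib.OrthMult
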