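import Cfsg.Agent.Lib.OrthMult.Basic
import Cfsg.Agent.Lib.SchurMult.CentralComm
import Mathlib.Algebra.CharP.Basic

/-!
Existence of equivariant lifts of the Siegel transformations, for odd characteristic and more than
three elements.
-/

set_option autoImplicit false
set_option linter.unusedSectionVars false

namespace CfsgLib.OrthMult

open QuadraticMap CfsgLib.ClassicalForms Module
open scoped commutatorElement

variable {F V : Type*} [Field F] [AddCommGroup V] [Module F V] [Finite F] [FiniteDimensional F V]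
  {Q : QuadraticForm F V} {Γ : Type*} [Group Γ] {σ : Γ →* orth Q}

/-- Being a lift of a Siegel transformation along `u`. -/
def IsRootLift (σ : Γ →* orth Q) (u : V) (y : Γ) : Prop :=
  ∃ (w : V) (hu : Q u = 0) (hw : polar Q u w = 0), σ y = siegel Q u w hu hw

theorem IsRootLift.mul {u : V} {y y' : Γ} (h : IsRootLift σ u y) (h' : IsRootLift σ u y') :
    IsRootLift σ u (y * y') := by
  obtain ⟨w, hu, hw, e⟩ := h
  obtain ⟨w', _, hw', e'⟩ := h'
  exact ⟨w + w', hu, by rw [polar_add_right, hw, hw', add_zero], by rw [map_mul, e, e', siegel_mul]⟩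

theorem IsRootLift.inv {u : V} {y : Γ} (h : IsRootLift σ u y) : IsRootLift σ u y⁻¹ := by
  obtain ⟨w, hu, hw, e⟩ := h
  exact ⟨-w, hu, by rw [polar_neg_right, hw, neg_zero], by rw [map_inv, e, siegel_inv]⟩

theorem IsRootLift.conj {u : V} {y : Γ} (h : IsRootLift σ u y) (γ : Γ) {c : F}
    (hc : ap (σ γ) u = c • u) : IsRootLift σ u (γ * y * γ⁻¹) := by
  obtain ⟨w, hu, hw, e⟩ := h
  have hw' : polar Q (c • u) (ap (σ γ) w) = 0 := by rw [← hc, polar_ap, hw]
  by_cases hc0 : c = 0
  · have hu0 : u = 0 := by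
      have h1 := congrArg (ap (σ γ)⁻¹) hc
      rwa [ap_inv_ap, hc0, zero_smul, ap_zero] at h1
    refine ⟨0, hu, by simp, ?_⟩
    rw [map_mul, map_mul, map_inv, e, conj_siegel]
    refine ap_ext fun x => ?_
    simp [ap_siegel, hu0]
  · have huw : polar Q u (ap (σ γ) w) = 0 := by
      rw [polar_smul_left, smul_eq_mul] at hw'
      exact (mul_eq_zero.1 hw').resolve_left hc0
    refine ⟨c • ap (σ γ) w, hu, by rw [polar_smul_right, huw, smul_zero], ?_⟩
    rw [map_mul, map_mul, map_inv, e, conj_siegel]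
    refine Eq.trans (siegel_congr (u' := c • u) (w' := ap (σ γ) w) hc rfl _ _) ?_
    exact siegel_smul hu huw c

theorem isRootLift_of_ker {u : V} (hu : Q u = 0) {k : Γ} (hk : σ k = 1) : IsRootLift σ u k :=
  ⟨0, hu, by simp, by rw [hk, siegel_zero]⟩

variable (E : CExt σ)
include E

theorem CExt.exists_rootLift {u w : V} (hu : Q u = 0) (hw : polar Q u w = 0) :
    ∃ y, σ y = siegel Q u w hu hw := E.exists_lift (siegel_mem_siegelGroup hu hw)

theorem CExt.comm_congr {x x' y y' : Γ} (hx : σ x = σ x') (hy : σ y = σ y') : ⁅x, y⁆ = ⁅x', y'⁆ :=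
  SchurMult.comm_eq_of_map_eq E.central hx hy

theorem CExt.comm_central {x y : Γ} (h : σ x * σ y = σ y * σ x) (g : Γ) : g * ⁅x, y⁆ = ⁅x, y⁆ * g :=
  Subgroup.mem_center_iff.1 (E.central (by
    rw [MonoidHom.mem_ker, map_commutatorElement, commutatorElement_eq_one_iff_mul_comm, h])) g

omit E in
theorem rootLift_map_comm {u : V} {x y : Γ} (hx : IsRootLift σ u x) (hy : IsRootLift σ u y) :
    σ x * σ y = σ y * σ x := by
  obtain ⟨w, hu, hw, e⟩ := hx
  obtain ⟨w', _, hw', e'⟩ := hy
  rw [e, e', siegel_mul, siegel_mul, siegel_congr rfl (add_comm w w')]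

section abelian

variable (h2 : (2 : F) ≠ 0) (hQ : Nondeg Q) (hn : 7 ≤ finrank F V)
include h2 hQ hn

/-- Lifts along one singular vector commute. -/
theorem CExt.rootLift_commute {u : V} (hu0 : u ≠ 0) {x y : Γ} (hx : IsRootLift σ u x)
    (hy : IsRootLift σ u y) : x * y = y * x := by
  classical
  obtain ⟨w₁, hu, hw₁, ex⟩ := hx
  obtain ⟨w₂, _, hw₂, ey⟩ := hy
  obtain ⟨f, -, hp⟩ := (Sec.top Q).exists_partner hQ (Sec.mem_top u) hu hu0
  obtain ⟨-, hf, huf⟩ := hp
  set S := (Sec.top Q).cut u f (Sec.mem_top u) (Sec.mem_top f) ⟨hu, hf, huf⟩ with hS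
  have hSu : ∀ v, S.Mem v → polar Q u v = 0 := fun v hv =>
    ((Sec.mem_cut_iff _ _ _ _ v).1 hv).1
  have hrl : ∀ v (_hv : polar Q u v = 0), ∃ z, σ z = siegel Q u (v - polar Q f v • u) hu
      (by simp [polar_sub_right, polar_smul_right, polar_singular_self hu, _hv]) :=
    fun v hv => E.exists_rootLift hu _
  choose! lft hlft using hrl
  have hlft' : ∀ v (hv : polar Q u v = 0), σ (lft v) = siegel Q u v hu hv := by
    intro v hv
    rw [hlft v hv]
    refine Eq.trans ?_ (siegel_add_smul hu hv (-polar Q f v))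
    exact siegel_congr rfl (by rw [neg_smul, sub_eq_add_neg]) _ _
  set b : V → V → Γ := fun v w => ⁅lft v, lft w⁆ with hb
  have hcomm : ∀ v w, polar Q u v = 0 → polar Q u w = 0 → σ (lft v) * σ (lft w) = σ (lft w) * σ (lft v) :=
    fun v w hv hw => rootLift_map_comm ⟨v, hu, hv, hlft' v hv⟩ ⟨w, hu, hw, hlft' w hw⟩
  have badd : ∀ v v' w, polar Q u v = 0 → polar Q u v' = 0 → polar Q u w = 0 →
      b (v + v') w = b v w * b v' w := by
    intro v v' w hv hv' hw
    have hvv : polar Q u (v + v') = 0 := by rw [polar_add_right, hv, hv', add_zero]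
    have e : b (v + v') w = ⁅lft v * lft v', lft w⁆ := E.comm_congr
      (by rw [map_mul, hlft' _ hvv, hlft' _ hv, hlft' _ hv', siegel_mul]) rfl
    have h1 : ⁅lft v * lft v', lft w⁆ = lft v * ⁅lft v', lft w⁆ * (lft v)⁻¹ * ⁅lft v, lft w⁆ := by
      simp only [commutatorElement_def]; group
    rw [e, h1, E.comm_central (hcomm v' w hv' hw) (lft v), mul_inv_cancel_right]
    exact (E.comm_central (hcomm v' w hv' hw) _).symm
  have bflip : ∀ v w, b w v = (b v w)⁻¹ := fun v w => (commutatorElement_inv _ _).symm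
  have baddr : ∀ v w w', polar Q u v = 0 → polar Q u w = 0 → polar Q u w' = 0 →
      b v (w + w') = b v w * b v w' := by
    intro v w w' hv hw hw'
    rw [bflip (w + w') v, badd w w' v hw hw' hv, mul_inv_rev, ← bflip, ← bflip]
    exact E.comm_central (hcomm v w' hv hw') _ ▸ rfl
  have bzero : ∀ w, polar Q u w = 0 → b 0 w = 1 := fun w hw => by
    have h := badd 0 0 w (by simp) (by simp) hw
    rw [add_zero] at h
    exact mul_eq_left.1 h.symm
  have bzero' : ∀ w, polar Q u w = 0 → b w 0 = 1 := fun w hw => by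
    rw [bflip 0 w, bzero w hw, inv_one]
  have binv : ∀ (l : Γ), ap (σ l) u = u → ∀ v w, polar Q u v = 0 → polar Q u w = 0 →
      b (ap (σ l) v) (ap (σ l) w) = b v w := by
    intro l hl v w hv hw
    have hv' : polar Q u (ap (σ l) v) = 0 := by rw [← hl, polar_ap, hv]
    have hw' : polar Q u (ap (σ l) w) = 0 := by rw [← hl, polar_ap, hw]
    have hsg : ∀ z (hz : polar Q u z = 0) (hz' : polar Q u (ap (σ l) z) = 0),
        σ (lft (ap (σ l) z)) = σ (l * lft z * l⁻¹) := fun z hz hz' => by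
      rw [map_mul, map_mul, map_inv, hlft' _ hz', hlft' _ hz, conj_siegel]
      exact siegel_congr hl.symm rfl _ _
    have e : b (ap (σ l) v) (ap (σ l) w) = l * b v w * l⁻¹ := by
      show ⁅lft _, lft _⁆ = _
      rw [E.comm_congr (hsg v hv hv') (hsg w hw hw')]
      simp only [hb, commutatorElement_def]; group
    rw [e, E.comm_central (hcomm v w hv hw) l, mul_inv_cancel_right]
  have hdim : 2 + 3 ≤ finrank F V := by omega
  -- singular against orthogonal
  have key1 : ∀ v w, S.Mem v → S.Mem w → Q v = 0 → polar Q v w = 0 → b v w = 1 := by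
    intro v w hvS hwS hv hvw
    by_cases hv0 : v = 0
    · rw [hv0]; exact bzero w (hSu w hwS)
    obtain ⟨z, hzS, hvz⟩ := S.exists_partner hQ hvS hv hv0
    obtain ⟨-, hz, hvz'⟩ := hvz
    have hmul : ∀ (c : F), S.Mem (c • v) := fun c => S.mem_smul c hvS
    have step : ∀ z', S.Mem z' → polar Q v z' = 1 → ∀ k, S.Mem k → polar Q v k = 0 →
        b v (k - (polar Q z' k + Q k) • v) = 1 := by
      intro z' hz'S hvz1 k hk hvk
      obtain ⟨l, hl⟩ := E.exists_rootLift hv hvk
      have hlu : ap (σ l) u = u := by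
        rw [hl]; exact siegel_fix hv hvk (hSu v hvS) (hSu k hk)
      have h := binv l hlu v z' (hSu v hvS) (hSu z' hz'S)
      have hlv : ap (σ l) v = v := by rw [hl]; exact siegel_fix hv hvk (polar_singular_self hv) hvk
      have hlz : ap (σ l) z' = z' + (k - (polar Q z' k + Q k) • v) := by
        rw [hl, ap_siegel, polar_comm Q z' v, hvz1, one_smul, mul_one]; abel
      rw [hlv, hlz, baddr v z' _ (hSu v hvS) (hSu z' hz'S) (hSu _ (S.mem_sub hk (hmul _)))] at h
      exact mul_eq_left.1 h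
    obtain ⟨k, hk, hk0⟩ := exists_mem_ne_zero_value (S.cut v z hvS hzS ⟨hv, hz, hvz'⟩) hQ (by omega)
    obtain ⟨hvk, -, hkS⟩ := (Sec.mem_cut_iff _ _ _ _ k).1 hk
    have hmulv : ∀ d : F, b v (d • v) = 1 := by
      intro d
      set y := (d / (2 * Q k)) • k with hy
      have hyS : S.Mem y := S.mem_smul _ hkS
      have hyk : polar Q y k = d := by
        rw [hy, polar_smul_left, polar_self_mul, smul_eq_mul]; field_simp
      have h1 := step z hzS hvz' k hkS hvk
      have h2' := step (z + y) (S.mem_add hzS hyS)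
        (by rw [polar_add_right, hvz', hy, polar_smul_right, hvk, smul_zero, add_zero]) k hkS hvk
      have e : k - (polar Q z k + Q k) • v = (k - (polar Q (z + y) k + Q k) • v) + d • v := by
        rw [polar_add_left, hyk]; module
      rw [e, baddr v _ _ (hSu v hvS) (hSu _ (S.mem_sub hkS (hmul _))) (hSu _ (hmul _)), h2', one_mul] at h1
      exact h1
    have h1 := step z hzS hvz' w hwS hvw
    have e : w = (w - (polar Q z w + Q w) • v) + (polar Q z w + Q w) • v := (sub_add_cancel _ _).symm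
    rw [e, baddr v _ _ (hSu v hvS) (hSu _ (S.mem_sub hwS (hmul _))) (hSu _ (hmul _)), h1, hmulv, one_mul]
  -- hyperbolic pairs
  have key2 : ∀ v z, S.Mem v → S.Mem z → IsHypPair Q (v, z) → ∀ a c : F, b (a • z) (c • v) = 1 := by
    intro v z hvS hzS hvz a c
    have hvz0 := hvz
    obtain ⟨hv, hz, hvz'⟩ := hvz
    obtain ⟨p, hp0, hQp, hp⟩ := exists_singular_ker Q (S.cut v z hvS hzS hvz0).φ (by omega)
    obtain ⟨r, hr, hpr⟩ := (S.cut v z hvS hzS hvz0).exists_partner hQ hp hQp hp0
    obtain ⟨hQp', hQr, hpr'⟩ := hpr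
    obtain ⟨hvp, hzp, hpS⟩ := (Sec.mem_cut_iff _ _ _ _ p).1 hp
    obtain ⟨hvr, hzr, hrS⟩ := (Sec.mem_cut_iff _ _ _ _ r).1 hr
    have R : ∀ p' r' : V, S.Mem p' → S.Mem r' → Q p' = 0 → Q r' = 0 → polar Q p' r' = 1 →
        polar Q v p' = 0 → polar Q z p' = 0 → polar Q v r' = 0 → polar Q z r' = 0 →
        ∀ a c : F, b (a • z) (c • v) = b (a • p') (c • r') := by
      intro p' r' hp'S hr'S hQp1 hQr1 hpr1 hvp1 hzp1 hvr1 hzr1 a c
      obtain ⟨l, hl⟩ := E.exists_rootLift hv hvp1
      have hlu : ap (σ l) u = u := by rw [hl]; exact siegel_fix hv hvp1 (hSu v hvS) (hSu p' hp'S)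
      have e1 : ap (σ l) (a • z) = a • z + a • p' := by
        rw [hl, ap_siegel, polar_smul_left, polar_smul_left, polar_comm Q z v, hvz', hzp1, hQp1]
        simp
      have e2 : ap (σ l) (c • r') = c • r' + (-c) • v := by
        rw [hl, ap_siegel, polar_smul_left, polar_smul_left, polar_comm Q r' v, hvr1, polar_comm Q r' p',
          hpr1]
        simp [neg_smul, sub_eq_add_neg]
      have m : ∀ {x : V}, S.Mem x → ∀ d : F, polar Q u (d • x) = 0 := fun hx d => hSu _ (S.mem_smul d hx)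
      have h := binv l hlu (a • z) (c • r') (m hzS a) (m hr'S c)
      rw [key1 _ _ (S.mem_smul _ hzS) (S.mem_smul _ hr'S) (by simp [QuadraticMap.map_smul, hz])
          (by simp [polar_smul_left, polar_smul_right, hzr1]), e1, e2,
        badd _ _ _ (m hzS a) (m hp'S a) (hSu _ (S.mem_add (S.mem_smul _ hr'S) (S.mem_smul _ hvS))),
        baddr _ _ _ (m hzS a) (m hr'S c) (m hvS _), baddr _ _ _ (m hp'S a) (m hr'S c) (m hvS _),
        key1 _ _ (S.mem_smul _ hzS) (S.mem_smul _ hr'S) (by simp [QuadraticMap.map_smul, hz])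
          (by simp [polar_smul_left, polar_smul_right, hzr1]),
        key1 (a • p') ((-c) • v) (S.mem_smul _ hp'S) (S.mem_smul _ hvS)
          (by simp [QuadraticMap.map_smul, hQp1])
          (by simp [polar_smul_left, polar_smul_right, polar_comm Q p' v, hvp1]),
        one_mul, mul_one] at h
      have h3 : b (a • z) ((-c) • v) = (b (a • z) (c • v))⁻¹ := by
        refine eq_inv_of_mul_eq_one_left ?_
        rw [← baddr _ _ _ (m hzS a) (m hvS _) (m hvS _), neg_smul, neg_add_cancel]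
        exact bzero' _ (m hzS a)
      rw [h3, inv_mul_eq_one] at h
      exact h
    by_cases ha : a = 0
    · rw [ha, zero_smul]; exact bzero _ (hSu _ (S.mem_smul _ hvS))
    by_cases hc : c = 0
    · rw [hc, zero_smul]; exact bzero' _ (hSu _ (S.mem_smul _ hzS))
    set X := b (a • p) (c • r) with hX
    have hXX : X = X⁻¹ := by
      have h1 := R p r hpS hrS hQp' hQr hpr' hvp hzp hvr hzr a c
      have h2' := R r p hrS hpS hQr hQp' (by rw [polar_comm, hpr']) hvr hzr hvp hzp a c
      have h3 := R ((c / a) • p) ((a / c) • r) (S.mem_smul _ hpS) (S.mem_smul _ hrS)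
        (by simp [QuadraticMap.map_smul, hQp']) (by simp [QuadraticMap.map_smul, hQr])
        (by simp [polar_smul_left, polar_smul_right, hpr']; field_simp)
        (by simp [polar_smul_right, hvp]) (by simp [polar_smul_right, hzp])
        (by simp [polar_smul_right, hvr]) (by simp [polar_smul_right, hzr]) a c
      rw [smul_smul, smul_smul, show a * (c / a) = c by field_simp, show c * (a / c) = a by field_simp] at h3
      calc X = b (a • r) (c • p) := h1.symm.trans h2'
        _ = (b (c • p) (a • r))⁻¹ := bflip _ _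
        _ = X⁻¹ := by rw [← h3, h1]
    obtain ⟨q, hqF⟩ := CharP.exists F
    haveI := hqF
    have hq : q.Prime := (CharP.char_is_prime_or_zero F q).resolve_right fun h0 => by
      subst h0
      haveI := CharP.charP_to_charZero F
      exact not_finite F
    have hpow : ∀ j : ℕ, X ^ j = b ((j : F) • (a • p)) (c • r) := by
      intro j
      induction j with
      | zero => rw [pow_zero, Nat.cast_zero, zero_smul, bzero _ (hSu _ (S.mem_smul _ hrS))]
      | succ j ih =>
        rw [pow_succ, ih, Nat.cast_succ, add_smul, one_smul,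
          badd _ _ _ (hSu _ (S.mem_smul _ (S.mem_smul _ hpS))) (hSu _ (S.mem_smul _ hpS))
            (hSu _ (S.mem_smul _ hrS))]
    have hXq : X ^ q = 1 := by
      rw [hpow, CharP.cast_eq_zero, zero_smul, bzero _ (hSu _ (S.mem_smul _ hrS))]
    have hX2 : X ^ 2 = 1 := by rw [pow_two]; nth_rewrite 1 [hXX]; exact inv_mul_cancel X
    have hq2 : ¬ q ∣ 2 := fun hd => h2 (by
      rw [show (2 : F) = ((2 : ℕ) : F) by norm_num, CharP.cast_eq_zero_iff F q]; exact hd)
    have hodd : Nat.Coprime 2 q := by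
      rw [Nat.coprime_primes Nat.prime_two hq]; exact fun e => hq2 (by rw [← e])
    have hX1 : X = 1 := by
      have := orderOf_dvd_of_pow_eq_one hX2
      have h' := orderOf_dvd_of_pow_eq_one hXq
      have : orderOf X ∣ Nat.gcd 2 q := Nat.dvd_gcd this h'
      rw [hodd] at this
      exact orderOf_eq_one_iff.1 (Nat.dvd_one.1 this)
    rw [R p r hpS hrS hQp' hQr hpr' hvp hzp hvr hzr a c, ← hX, hX1]
  have key3 : ∀ v w, S.Mem v → S.Mem w → Q v = 0 → b v w = 1 := by
    intro v w hvS hwS hv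
    by_cases hv0 : v = 0
    · rw [hv0]; exact bzero w (hSu w hwS)
    obtain ⟨z, hzS, hvz⟩ := S.exists_partner hQ hvS hv hv0
    have hp' : IsHypPair Q (z, v) := ⟨hvz.2.1, hvz.1, by rw [polar_comm]; exact hvz.2.2⟩
    set d := polar Q v w
    have h1 : b v (w - d • z) = 1 := key1 _ _ hvS (S.mem_sub hwS (S.mem_smul _ hzS)) hv
      (by rw [polar_sub_right, polar_smul_right, hvz.2.2]; simp [d])
    have h2' : b v (d • z) = 1 := by
      have := key2 z v hzS hvS hp' 1 d
      rwa [one_smul] at this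
    rw [show w = (w - d • z) + d • z from (sub_add_cancel _ _).symm,
      baddr v _ _ (hSu v hvS) (hSu _ (S.mem_sub hwS (S.mem_smul _ hzS))) (hSu _ (S.mem_smul _ hzS)),
      h1, h2', one_mul]
  have key4 : ∀ v w, S.Mem v → S.Mem w → b v w = 1 := by
    intro v w hvS hwS
    by_cases hv0 : v = 0
    · rw [hv0]; exact bzero w (hSu w hwS)
    obtain ⟨s, hsS, hQs, hsv⟩ := S.exists_singular_polar_one hQ (by omega) hvS hv0
    have hsing : Q (v - Q v • s) = 0 := by
      simp [map_sub_eq, QuadraticMap.map_smul, hQs, polar_smul_right, polar_comm Q v s, hsv]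
    rw [show v = (v - Q v • s) + Q v • s from (sub_add_cancel _ _).symm,
      badd _ _ _ (hSu _ (S.mem_sub hvS (S.mem_smul _ hsS))) (hSu _ (S.mem_smul _ hsS)) (hSu w hwS),
      key3 _ w (S.mem_sub hvS (S.mem_smul _ hsS)) hwS hsing,
      key3 _ w (S.mem_smul _ hsS) hwS (by simp [QuadraticMap.map_smul, hQs]), one_mul]
  have hproj : ∀ v, polar Q u v = 0 → S.Mem (v - polar Q f v • u) := fun v hv =>
    (Sec.mem_cut_iff _ _ _ _ _).2
      ⟨by simp [polar_sub_right, polar_smul_right, polar_singular_self hu, hv],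
        by simp [polar_sub_right, polar_smul_right, polar_comm Q f u, huf], Sec.mem_top _⟩
  have hsame : ∀ v (hv : polar Q u v = 0), σ (lft (v - polar Q f v • u)) = σ (lft v) := fun v hv => by
    rw [hlft' _ (hSu _ (hproj v hv))]
    exact (hlft v hv).symm
  have hfin : ⁅x, y⁆ = 1 := by
    rw [E.comm_congr (ex.trans ((hlft' _ hw₁).symm.trans (hsame _ hw₁).symm))
      (ey.trans ((hlft' _ hw₂).symm.trans (hsame _ hw₂).symm))]
    exact key4 _ _ (hproj _ hw₁) (hproj _ hw₂)
  exact commutatorElement_eq_one_iff_mul_comm.1 hfin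

/-- The canonical group of lifts along a singular vector. -/
def canon (σ : Γ →* orth Q) (u : V) : Subgroup Γ :=
  Subgroup.closure {g | ∃ x y : Γ, (∃ c : F, ap (σ x) u = c • u) ∧ IsRootLift σ u y ∧ g = ⁅x, y⁆}

/-- Lifts from an equivariant family of complements to the kernel. -/
theorem CExt.exists_lifts_of (C : V → Subgroup Γ)
    (spec : ∀ u : V, Q u = 0 → u ≠ 0 → (∀ g ∈ C u, σ g = 1 → g = 1) ∧
      ∀ (w : V) (hw : polar Q u w = 0), ∃ g ∈ C u, ∀ hu : Q u = 0, σ g = siegel Q u w hu hw)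
    (hconj : ∀ (γ : Γ) (u : V), Q u = 0 → u ≠ 0 → ∀ g ∈ C u, γ * g * γ⁻¹ ∈ C (ap (σ γ) u))
    (hscale : ∀ (d : F) (u : V), Q u = 0 → u ≠ 0 → d ≠ 0 → C (d • u) ≤ C u) :
    ∃ T : V → V → Γ, Lifts σ T := by
  classical
  have hT : ∀ u w : V, ∃ g : Γ, (Q u = 0 → polar Q u w = 0 → u ≠ 0 → g ∈ C u ∧
      ∀ (hu : Q u = 0) (hw : polar Q u w = 0), σ g = siegel Q u w hu hw) ∧ (u = 0 → g = 1) := by
    intro u w
    by_cases h : Q u = 0 ∧ polar Q u w = 0 ∧ u ≠ 0
    · obtain ⟨g, hg, e⟩ := (spec u h.1 h.2.2).2 w h.2.1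
      exact ⟨g, fun _ _ _ => ⟨hg, fun hu _ => e hu⟩, fun h0 => absurd h0 h.2.2⟩
    · exact ⟨1, fun a b c => absurd ⟨a, b, c⟩ h, fun _ => rfl⟩
  choose T hT using hT
  have hmap : ∀ (u w : V) (hu : Q u = 0) (hw : polar Q u w = 0), σ (T u w) = siegel Q u w hu hw := by
    intro u w hu hw
    by_cases hu0 : u = 0
    · rw [(hT u w).2 hu0, map_one]
      exact ap_ext fun x => by simp [ap_one, ap_siegel, hu0]
    · exact ((hT u w).1 hu hw hu0).2 hu hw
  have huniq : ∀ u w (hu : Q u = 0) (hw : polar Q u w = 0) (g : Γ), u ≠ 0 → g ∈ C u →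
      σ g = siegel Q u w hu hw → g = T u w := by
    intro u w hu hw g hu0 hg e
    have h := (spec u hu hu0).1 (g * (T u w)⁻¹) (mul_mem hg (inv_mem ((hT u w).1 hu hw hu0).1))
      (by rw [map_mul, map_inv, e, hmap u w hu hw, mul_inv_cancel])
    exact mul_inv_eq_one.1 h
  have hequiv : ∀ (γ : Γ) (u w : V), Q u = 0 → polar Q u w = 0 →
      γ * T u w * γ⁻¹ = T (ap (σ γ) u) (ap (σ γ) w) := by
    intro γ u w hu hw
    by_cases hu0 : u = 0
    · rw [(hT u w).2 hu0, (hT _ _).2 (by rw [hu0, ap_zero]), mul_one, mul_inv_cancel]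
    have hu' : Q (ap (σ γ) u) = 0 := by rw [Q_ap, hu]
    have hw' : polar Q (ap (σ γ) u) (ap (σ γ) w) = 0 := by rw [polar_ap, hw]
    have hu0' : ap (σ γ) u ≠ 0 := fun e => hu0 (by rw [← ap_inv_ap (σ γ) u, e, ap_zero])
    refine huniq _ _ hu' hw' _ hu0' ?_ (by rw [map_mul, map_mul, map_inv, hmap u w hu hw, conj_siegel])
    have hg := ((hT u w).1 hu hw hu0).1
    exact hconj γ u hu hu0 _ hg
  have hzeroR : ∀ u, Q u = 0 → T u 0 = 1 := fun u hu => by
    by_cases hu0 : u = 0
    · exact (hT u 0).2 hu0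
    · exact (huniq u 0 hu (by simp) 1 hu0 (one_mem _) (by rw [map_one, siegel_zero hu])).symm
  have hsmul : ∀ (d : F) (u w : V), Q u = 0 → polar Q u w = 0 → T (d • u) w = T u (d • w) := by
    intro d u w hu hw
    by_cases hd : d = 0
    · rw [hd, zero_smul, zero_smul, (hT _ _).2 rfl, hzeroR u hu]
    by_cases hu0 : u = 0
    · rw [hu0, smul_zero, (hT _ _).2 rfl, (hT _ _).2 rfl]
    have hdu : d • u ≠ 0 := smul_ne_zero hd hu0
    have hu' : Q (d • u) = 0 := by simp [QuadraticMap.map_smul, hu]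
    have hw' : polar Q (d • u) w = 0 := by simp [polar_smul_left, hw]
    have hw'' : polar Q u (d • w) = 0 := by simp [polar_smul_right, hw]
    refine huniq u _ hu hw'' _ hu0 ?_ (by rw [hmap _ _ hu' hw']; exact siegel_smul hu hw d)
    have hsub : C (d • u) ≤ C u := hscale d u hu hu0 hd
    exact hsub ((hT _ _).1 hu' hw' hdu).1
  refine ⟨T, ⟨hmap, ?_, hequiv, hsmul, ?_, ?_⟩⟩
  · intro u w w' hu hw hw'
    have hs : polar Q u (w + w') = 0 := by rw [polar_add_right, hw, hw', add_zero]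
    by_cases hu0 : u = 0
    · rw [(hT u w).2 hu0, (hT u w').2 hu0, (hT u _).2 hu0, mul_one]
    exact huniq u _ hu hs _ hu0 (mul_mem ((hT u w).1 hu hw hu0).1 ((hT u w').1 hu hw' hu0).1)
      (by rw [map_mul, hmap u w hu hw, hmap u w' hu hw', siegel_mul])
  · intro d u w hu hw
    have hs : polar Q u (w + d • u) = 0 := by
      rw [polar_add_right, hw, polar_smul_right, polar_singular_self hu, smul_zero, add_zero]
    by_cases hu0 : u = 0
    · rw [(hT u w).2 hu0, (hT u _).2 hu0]
    exact (huniq u _ hu hs _ hu0 ((hT u w).1 hu hw hu0).1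
      (by rw [hmap u w hu hw]; exact (siegel_add_smul hu hw d).symm)).symm
  · intro u w hu huw hQw
    by_cases hu0 : u = 0
    · rw [hu0, neg_zero, hzeroR w hQw, (hT 0 w).2 rfl]
    by_cases hind : ∀ d : F, w ≠ d • u
    · obtain ⟨x, z, hxz, hux, huz, hwx, hwz⟩ := exists_pair_perp hQ hn hu huw hQw hu0 hind
      obtain ⟨hQx, hQz, hxz'⟩ := hxz
      have hwu : polar Q w u = 0 := by rw [polar_comm, huw]
      have hww := polar_singular_self hQw
      have huu := polar_singular_self hu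
      have hu1 : ap (σ (T w x)) u = u := by
        rw [hmap w x hQw hwx]; exact siegel_fix hQw hwx huw hux
      have hz1 : ap (σ (T w x)) z = z + (-w) := by
        rw [hmap w x hQw hwx, ap_siegel, polar_comm Q z w, hwz, polar_comm Q z x, hxz']; simp [sub_eq_add_neg]
      have hw2 : ap (σ (T u z)) w = w := by
        rw [hmap u z hu huz]; exact siegel_fix hu huz hwu hwz
      have hx2 : ap (σ (T u z)) x = x + (-u) := by
        rw [hmap u z hu huz, ap_siegel, polar_comm Q x u, hux, hxz']; simp [sub_eq_add_neg]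
      have hnw : polar Q u (-w) = 0 := by rw [polar_neg_right, huw, neg_zero]
      have hnu : polar Q w (-u) = 0 := by rw [polar_neg_right, hwu, neg_zero]
      have hadd : ∀ a b b' : V, Q a = 0 → polar Q a b = 0 → polar Q a b' = 0 →
          T a b * T a b' = T a (b + b') := by
        intro a b b' ha hb hb'
        have hs : polar Q a (b + b') = 0 := by rw [polar_add_right, hb, hb', add_zero]
        by_cases ha0 : a = 0
        · rw [(hT a b).2 ha0, (hT a b').2 ha0, (hT a _).2 ha0, mul_one]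
        exact huniq a _ ha hs _ ha0 (mul_mem ((hT a b).1 ha hb ha0).1 ((hT a b').1 ha hb' ha0).1)
          (by rw [map_mul, hmap a b ha hb, hmap a b' ha hb', siegel_mul])
      have k1 : ⁅T w x, T u z⁆ = T u (-w) := by
        rw [commutatorElement_def, hequiv _ u z hu huz, hu1, hz1, add_comm, ← hadd u (-w) z hu hnw huz,
          mul_inv_cancel_right]
      have k2 : ⁅T u z, T w x⁆ = T w (-u) := by
        rw [commutatorElement_def, hequiv _ w x hQw hwx, hw2, hx2, add_comm, ← hadd w (-u) x hQw hnu hwx,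
          mul_inv_cancel_right]
      have k3 : T u (-w) * T u w = 1 := by rw [hadd u (-w) w hu hnw huw, neg_add_cancel, hzeroR u hu]
      rw [← k2, ← commutatorElement_inv, k1]
      exact inv_eq_of_mul_eq_one_right k3
    · simp only [not_forall, not_not] at hind
      obtain ⟨d, rfl⟩ := hind
      have hnu : polar Q u (-u) = 0 := by rw [polar_neg_right, polar_singular_self hu, neg_zero]
      rw [hsmul d u (-u) hu hnu]
      have e : ∀ t : F, T u (t • u) = 1 := fun t => by
        by_cases hu0' : u = 0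
        · exact (hT u _).2 hu0'
        refine (huniq u (t • u) hu (by simp [polar_smul_right, polar_singular_self hu]) 1 hu0' (one_mem _) ?_).symm
        rw [map_one]
        have := siegel_add_smul hu (w := 0) (by simp) t
        rw [siegel_zero hu] at this
        exact this.symm.trans (siegel_congr rfl (zero_add _) _ _)
      rw [smul_neg, ← neg_smul, e, e]

variable {c : F} (hc : c ≠ 0) (hc2 : c * c ≠ 1)
include hc hc2

theorem CExt.canon_spec {u : V} (hu : Q u = 0) (hu0 : u ≠ 0) :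
    (∀ g ∈ canon σ u, σ g = 1 → g = 1) ∧
      ∀ (w : V) (hw : polar Q u w = 0), ∃ g ∈ canon σ u, σ g = siegel Q u w hu hw := by
  obtain ⟨f, -, hp⟩ := (Sec.top Q).exists_partner hQ (Sec.mem_top u) hu hu0
  obtain ⟨-, hf, huf⟩ := hp
  have hfu : polar Q f u = 1 := by rw [polar_comm, huf]
  set μ := c * c with hμ
  have hμ0 : μ ≠ 0 := mul_ne_zero hc hc
  have ha : Q (u - f) = -1 := by rw [map_sub_eq, hu, hf, huf]; ring
  have hb : Q (c⁻¹ • (u - μ • f)) = -1 := by
    rw [QuadraticMap.map_smul, map_sub_eq, QuadraticMap.map_smul, hu, hf, polar_smul_right, huf, hμ]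
    simp only [smul_eq_mul]
    field_simp
    ring
  have ha0 : Q (u - f) ≠ 0 := by rw [ha]; exact neg_ne_zero.2 one_ne_zero
  have hb0 : Q (c⁻¹ • (u - μ • f)) ≠ 0 := by rw [hb]; exact neg_ne_zero.2 one_ne_zero
  obtain ⟨h, hh⟩ := E.exists_lift (refl_div_mem_siegelGroup hQ (by omega) ha0 hb0 ⟨1, by rw [ha, hb]; norm_num⟩)
  rw [refl_inv] at hh
  have huu := polar_singular_self hu
  have hff := polar_singular_self hf
  have hhu : ap (σ h) u = μ • u := by
    rw [hh, ap_mul]
    have e1 : ap (refl Q (c⁻¹ • (u - μ • f)) hb0) u = μ • f := by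
      show (refl Q _ hb0 : V ≃ₗ[F] V) u = _
      rw [refl_apply, hb, polar_smul_right, polar_sub_right, polar_smul_right, huu, huf, smul_smul]
      rw [show ((-1 : F)⁻¹ * (c⁻¹ • (0 - μ • (1 : F)))) * c⁻¹ = 1 by
        simp only [smul_eq_mul, hμ]; field_simp; ring, one_smul, sub_sub_cancel]
    rw [e1, ap_smul]
    congr 1
    show (refl Q _ ha0 : V ≃ₗ[F] V) f = u
    rw [refl_apply, ha, polar_sub_right, hfu, hff, sub_zero, mul_one, inv_neg, inv_one, neg_smul, one_smul]
    abel
  have hhf : ap (σ h) f = μ⁻¹ • f := by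
    have e1 : ap (σ h) (μ • f) = f := by
      rw [hh, ap_mul]
      have e2 : ap (refl Q (c⁻¹ • (u - μ • f)) hb0) (μ • f) = u := by
        show (refl Q _ hb0 : V ≃ₗ[F] V) _ = _
        rw [refl_apply, hb, polar_smul_right, polar_smul_left, polar_sub_right, polar_smul_right, hfu, hff,
          smul_smul]
        rw [show ((-1 : F)⁻¹ * (c⁻¹ • (μ • ((1 : F) - μ • (0 : F))))) * c⁻¹ = -1 by
          simp only [smul_eq_mul, hμ]; field_simp; ring, neg_smul, one_smul]
        abel
      rw [e2]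
      show (refl Q _ ha0 : V ≃ₗ[F] V) u = f
      rw [refl_apply, ha, polar_sub_right, huu, huf, zero_sub, show (-1 : F)⁻¹ * -1 = 1 by field_simp,
        one_smul, sub_sub_cancel]
    rw [ap_smul] at e1
    rw [← e1, smul_smul, inv_mul_cancel₀ hμ0, one_smul, e1]
  have hhw : ∀ x, polar Q u x = 0 → polar Q f x = 0 → ap (σ h) x = x := by
    intro x hxu hxf
    rw [hh, ap_mul]
    have e1 : ap (refl Q (c⁻¹ • (u - μ • f)) hb0) x = x := refl_fix hb0 (by
      simp [polar_smul_right, polar_sub_right, polar_comm Q x u, polar_comm Q x f, hxu, hxf])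
    rw [e1]
    exact refl_fix ha0 (by simp [polar_sub_right, polar_comm Q x u, polar_comm Q x f, hxu, hxf])
  set π : V → V := fun w => w - polar Q f w • u with hπ
  have hπu : ∀ w, polar Q u w = 0 → polar Q u (π w) = 0 := fun w hw => by
    simp [hπ, polar_sub_right, polar_smul_right, huu, hw]
  have hπf : ∀ w, polar Q f (π w) = 0 := fun w => by simp [hπ, polar_sub_right, polar_smul_right, hfu]
  have hsπ : ∀ w (hw : polar Q u w = 0), siegel Q u (π w) hu (hπu w hw) = siegel Q u w hu hw := by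
    intro w hw
    refine Eq.trans ?_ (siegel_add_smul hu hw (-polar Q f w))
    exact siegel_congr rfl (by simp [hπ, neg_smul, sub_eq_add_neg]) _ _
  have hDval : ∀ (y : Γ) (w : V) (hw : polar Q u w = 0), σ y = siegel Q u w hu hw →
      σ ⁅h, y⁆ = siegel Q u ((μ - 1) • π w) hu (by rw [polar_smul_right, hπu w hw, smul_zero]) := by
    intro y w hw e
    have h1 : σ (h * y * h⁻¹) = siegel Q u (μ • π w) hu (by rw [polar_smul_right, hπu w hw, smul_zero]) := by
      rw [map_mul, map_mul, map_inv, e, ← hsπ w hw, conj_siegel]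
      refine Eq.trans (siegel_congr (u' := μ • u) (w' := π w) hhu (hhw _ (hπu w hw) (hπf w)) _ _) ?_
      exact siegel_smul hu (hπu w hw) μ
    have h2' : σ y⁻¹ = siegel Q u (-π w) hu (by rw [polar_neg_right, hπu w hw, neg_zero]) := by
      rw [map_inv, e, ← hsπ w hw, siegel_inv]
    rw [commutatorElement_def, map_mul, h1, h2', siegel_mul]
    exact siegel_congr rfl (by module) _ _
  have hDlift : ∀ y, IsRootLift σ u y → IsRootLift σ u ⁅h, y⁆ := fun y hy => by
    rw [commutatorElement_def]; exact (hy.conj h hhu).mul hy.inv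
  let M : Subgroup Γ :=
    { carrier := {g | ∃ y, IsRootLift σ u y ∧ g = ⁅h, y⁆}
      one_mem' := ⟨1, isRootLift_of_ker hu (map_one σ), (commutatorElement_one_right h).symm⟩
      mul_mem' := by
        rintro _ _ ⟨y, hy, rfl⟩ ⟨y', hy', rfl⟩
        refine ⟨y * y', hy.mul hy', ?_⟩
        rw [show ⁅h, y * y'⁆ = ⁅h, y⁆ * (y * ⁅h, y'⁆ * y⁻¹) by simp only [commutatorElement_def]; group,
          E.rootLift_commute h2 hQ hn hu0 hy (hDlift y' hy'), mul_inv_cancel_right]
      inv_mem' := by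
        rintro _ ⟨y, hy, rfl⟩
        refine ⟨y⁻¹, hy.inv, ?_⟩
        refine inv_eq_of_mul_eq_one_right ?_
        have e : ⁅h, y⁻¹⁆ = y⁻¹ * ⁅h, y⁆⁻¹ * y := by simp only [commutatorElement_def]; group
        rw [e, (E.rootLift_commute h2 hQ hn hu0 hy.inv (hDlift y hy).inv), inv_mul_cancel_right,
          mul_inv_cancel] }
  have hμ1 : μ - 1 ≠ 0 := sub_ne_zero.2 hc2
  have hle : canon σ u ≤ M := by
    rw [canon, Subgroup.closure_le]
    rintro _ ⟨x, y, ⟨d, hd⟩, ⟨w, _, hw, ey⟩, rfl⟩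
    have hd0 : d ≠ 0 := fun e => hu0 (by
      have h1 := congrArg (ap (σ x)⁻¹) hd
      rwa [ap_inv_ap, e, zero_smul, ap_zero] at h1)
    have hw1 : polar Q u ((μ - 1)⁻¹ • π w) = 0 := by rw [polar_smul_right, hπu w hw, smul_zero]
    obtain ⟨y₁, ey₁⟩ := E.exists_rootLift hu hw1
    have hy₁ : IsRootLift σ u y₁ := ⟨_, hu, hw1, ey₁⟩
    have em : σ ⁅h, y₁⁆ = σ y := by
      rw [hDval y₁ _ hw1 ey₁, ey, ← hsπ w hw]
      refine siegel_congr rfl ?_ _ _
      rw [show π ((μ - 1)⁻¹ • π w) = (μ - 1)⁻¹ • π w by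
        simp [hπ, polar_smul_right, polar_sub_right, hfu], smul_smul, mul_inv_cancel₀ hμ1, one_smul]
    rw [E.comm_congr rfl em.symm, commutatorElement_def]
    refine mul_mem ?_ (inv_mem ⟨y₁, hy₁, rfl⟩)
    set f' := d • ap (σ x) f with hf'
    have hQf' : Q f' = 0 := by simp [hf', QuadraticMap.map_smul, Q_ap, hf]
    have huf' : polar Q u f' = 1 := by
      have := polar_ap (σ x) u f
      rw [hd, polar_smul_left, huf] at this
      rw [hf', polar_smul_right, smul_eq_mul, ← smul_eq_mul]; exact this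
    obtain ⟨hwa, ea⟩ := siegel_sub_apply hu hf hQf' huf huf'
    obtain ⟨a, hga⟩ := E.exists_rootLift hu hwa
    have hfix : ∀ g : orth Q, ap g u = u → ap g⁻¹ u = u := fun g hg => by
      conv_lhs => rw [← hg, ap_inv_ap]
    have hau : ap (σ a) u = u := by rw [hga]; exact siegel_fix hu hwa huu hwa
    have hlu : ap (σ (a⁻¹ * x)) u = d • u := by rw [map_mul, ap_mul, hd, ap_smul, map_inv, hfix _ hau]
    have hlf : ap (σ (a⁻¹ * x)) f = d⁻¹ • f := by
      rw [map_mul, ap_mul, map_inv, show ap (σ x) f = d⁻¹ • f' by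
        rw [hf', smul_smul, inv_mul_cancel₀ hd0, one_smul], ap_smul]
      congr 1
      conv_lhs => rw [← ea, hga, ap_inv_ap]
    have hcommh : σ (a⁻¹ * x * h * (a⁻¹ * x)⁻¹) = σ h := by
      rw [map_mul, map_mul, map_inv, mul_inv_eq_iff_eq_mul]
      refine ap_ext fun z => ?_
      have hz : z = polar Q f z • u + polar Q u z • f + (z - polar Q f z • u - polar Q u z • f) := by abel
      have h1 : polar Q u (z - polar Q f z • u - polar Q u z • f) = 0 := by
        simp [polar_sub_right, polar_smul_right, huu, huf]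
      have h2' : polar Q f (z - polar Q f z • u - polar Q u z • f) = 0 := by
        simp [polar_sub_right, polar_smul_right, hfu, hff]
      have h3 : ∀ g : orth Q, ap g u = d • u → ap g f = d⁻¹ • f → ∀ r, polar Q u r = 0 → polar Q f r = 0 →
          polar Q u (ap g r) = 0 ∧ polar Q f (ap g r) = 0 := by
        intro g hgu hgf r hr1 hr2
        have k1 := polar_ap g u r
        have k2 := polar_ap g f r
        rw [hgu, hr1, polar_smul_left, smul_eq_mul] at k1
        rw [hgf, hr2, polar_smul_left, smul_eq_mul] at k2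
        exact ⟨(mul_eq_zero.1 k1).resolve_left hd0, (mul_eq_zero.1 k2).resolve_left (inv_ne_zero hd0)⟩
      obtain ⟨h4, h5⟩ := h3 _ hlu hlf _ h1 h2'
      rw [hz, ap_mul, ap_mul]
      simp only [ap_add, ap_smul, hhu, hhf, hlu, hlf, hhw _ h1 h2', hhw _ h4 h5, smul_smul]
      congr 2 <;> congr 1 <;> ring
    have e1 : x * ⁅h, y₁⁆ * x⁻¹ =
        a * ⁅a⁻¹ * x * h * (a⁻¹ * x)⁻¹, a⁻¹ * x * y₁ * (a⁻¹ * x)⁻¹⁆ * a⁻¹ := by
      simp only [commutatorElement_def]; group
    rw [e1, E.comm_congr hcommh rfl]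
    have hy₂ : IsRootLift σ u (a⁻¹ * x * y₁ * (a⁻¹ * x)⁻¹) := hy₁.conj _ hlu
    rw [E.rootLift_commute h2 hQ hn hu0 ⟨_, hu, hwa, hga⟩ (hDlift _ hy₂), mul_inv_cancel_right]
    exact ⟨_, hy₂, rfl⟩
  refine ⟨fun g hg hg1 => ?_, fun w hw => ?_⟩
  · obtain ⟨y, hy, rfl⟩ := hle hg
    obtain ⟨w, _, hw, e⟩ := hy
    have h0 := hDval y w hw e
    rw [hg1] at h0
    have h1 := congrArg (fun k : orth Q => ap k f) h0
    simp only [ap_one, ap_siegel, hfu, one_smul, mul_one] at h1
    have hpw : (μ - 1) • π w = (polar Q f ((μ - 1) • π w) + Q ((μ - 1) • π w)) • u := by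
      have h1' := sub_eq_zero.2 h1.symm
      rw [← sub_eq_zero, ← h1']; abel
    have h2' := congrArg (fun z => polar Q f z) hpw
    simp only [polar_smul_right, hπf w, smul_zero, hfu, smul_eq_mul, mul_one, mul_zero, zero_add] at h2'
    rw [polar_smul_right, hπf w, smul_zero, ← h2', add_zero, zero_smul] at hpw
    have hπ0 : π w = 0 := (smul_eq_zero.1 hpw).resolve_left hμ1
    have hy1 : σ y = σ 1 := by
      rw [e, map_one, ← hsπ w hw]
      exact (siegel_congr rfl hπ0 hu (hπu w hw)).trans (siegel_zero hu)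
    rw [E.comm_congr rfl hy1, commutatorElement_one_right]
  · have hw1 : polar Q u ((μ - 1)⁻¹ • π w) = 0 := by rw [polar_smul_right, hπu w hw, smul_zero]
    obtain ⟨y₁, ey₁⟩ := E.exists_rootLift hu hw1
    refine ⟨⁅h, y₁⁆, Subgroup.subset_closure ⟨h, y₁, ⟨μ, hhu⟩, ⟨_, hu, hw1, ey₁⟩, rfl⟩, ?_⟩
    rw [hDval y₁ _ hw1 ey₁, ← hsπ w hw]
    refine siegel_congr rfl ?_ _ _
    rw [show π ((μ - 1)⁻¹ • π w) = (μ - 1)⁻¹ • π w by
      simp [hπ, polar_smul_right, polar_sub_right, hfu], smul_smul, mul_inv_cancel₀ hμ1, one_smul]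

/-- Equivariant lifts exist. -/
theorem CExt.exists_lifts : ∃ T : V → V → Γ, Lifts σ T := by
  refine E.exists_lifts_of h2 hQ hn (canon σ) (fun u hu hu0 => ?_) ?_ ?_
  · obtain ⟨h1, h3⟩ := E.canon_spec h2 hQ hn hc hc2 hu hu0
    exact ⟨h1, fun w hw => (h3 w hw).imp fun g hg => ⟨hg.1, fun _ => hg.2⟩⟩
  · intro γ u hu _ g hg
    have hu' : Q (ap (σ γ) u) = 0 := by rw [Q_ap, hu]
    have : canon σ u ≤ (canon σ (ap (σ γ) u)).comap (MulAut.conj γ).toMonoidHom := by
      rw [canon, Subgroup.closure_le]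
      rintro _ ⟨x, y, ⟨d, hd⟩, ⟨z, hu1, hz, ey⟩, rfl⟩
      refine Subgroup.subset_closure ⟨γ * x * γ⁻¹, γ * y * γ⁻¹, ⟨d, ?_⟩,
        ⟨ap (σ γ) z, hu', by rw [polar_ap, hz], ?_⟩, ?_⟩
      · rw [map_mul, map_mul, map_inv, ap_mul, ap_mul, ap_inv_ap, hd, ap_smul]
      · rw [map_mul, map_mul, map_inv, ey, conj_siegel]
      · show MulAut.conj γ ⁅x, y⁆ = _
        rw [MulAut.conj_apply]; simp only [commutatorElement_def]; group
    have h' := this hg
    rwa [Subgroup.mem_comap, MulEquiv.coe_toMonoidHom, MulAut.conj_apply] at h'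
  · intro d u hu _ hd
    refine Subgroup.closure_mono ?_
    rintro _ ⟨x, y, ⟨e, he⟩, ⟨z, hu1, hz, ey⟩, rfl⟩
    have hz' : polar Q u z = 0 := by
      rw [polar_smul_left, smul_eq_mul] at hz
      exact (mul_eq_zero.1 hz).resolve_left hd
    refine ⟨x, y, ⟨e, smul_right_injective V hd ?_⟩,
      ⟨d • z, hu, by rw [polar_smul_right, hz', smul_zero], ?_⟩, rfl⟩
    · show d • ap (σ x) u = d • e • u
      rw [← ap_smul, he, smul_comm]
    · rw [ey]; exact siegel_smul hu hz' d

end abelian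

end CfsgLib.OrthMult
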