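import Cfsg.Agent.Lib.OrthMult.Step
import Cfsg.Agent.Lib.ClassicalForms.Ortho.POmega
import Cfsg.Agent.Lib.ClassicalForms.Ortho.Index
import Cfsg.Agent.Lib.ClassicalForms.Exceptional.FiveSp
import Cfsg.Agent.Lib.ClassK.OrthPlusMult.Spin
import Cfsg.Agent.S2092

/-!
The Schur multiplier of odd-dimensional orthogonal groups, given the lifts of the Siegel transformations
in the top dimension.
-/

set_option autoImplicit false
set_option linter.unusedSectionVars false

namespace CfsgLib.OrthMult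

open QuadraticMap CfsgLib.ClassicalForms Module
open scoped commutatorElement

universe u

variable {F : Type u} [Field F]

/-- The vector space of the odd-dimensional standard form. -/
abbrev VOdd (F : Type u) (m : ℕ) : Type u := Unit ⊕ (Fin m ⊕ Fin m) → F

theorem center_qOdd_eq_bot [Finite F] (h2 : (2 : F) ≠ 0) {m : ℕ} (hm : 2 ≤ m) :
    Subgroup.center (siegelGroup (qOdd m F)) = ⊥ := by
  have := Fintype.ofFinite F
  have hc : 5 ≤ Fintype.card (Unit ⊕ (Fin m ⊕ Fin m)) := by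
    simp only [Fintype.card_sum, Fintype.card_unit, Fintype.card_fin]; omega
  rw [eq_bot_iff]
  intro g hg
  rcases center_eq_one_or_negI (nondeg_qOdd h2 m) hc hg with h | h
  · exact h
  · have := ((negI_mem_iff h2 (nondeg_qOdd h2 m) hc (isGen_qOdd h2 m)).1 (h ▸ g.2)).1
    simp only [Fintype.card_sum, Fintype.card_unit, Fintype.card_fin] at this
    exact absurd this (by rw [Nat.not_even_iff_odd]; exact ⟨m, by omega⟩)

/-- The Siegel group of the standard form as `PΩ`. -/
noncomputable def siegelPOmega [Finite F] (h2 : (2 : F) ≠ 0) {m : ℕ} (hm : 2 ≤ m) :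
    Cfsg.POmega F (Cfsg.quadFormOdd m F) ≃* siegelGroup (qOdd m F) :=
  (pOmegaEquiv (qOdd m F) (qOdd_apply m) (commutator_qOdd h2 hm)).trans
    ((QuotientGroup.quotientMulEquivOfEq (center_qOdd_eq_bot h2 hm)).trans QuotientGroup.quotientBot)

/-- The base case: dimension five. -/
theorem card_ker_five [Finite F] (h2 : (2 : F) ≠ 0) (hodd : Odd (Nat.card F)) {Γ : Type u} [Group Γ] [Finite Γ]
    {σ : Γ →* orth (qOdd 2 F)} (E : CExt σ) : Nat.card σ.ker ≤ 2 := by
  classical
  have := Fintype.ofFinite F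
  obtain ⟨e5⟩ := nonempty_pOmega_five hodd
  let e := ((siegelPOmega h2 le_rfl).symm).trans e5
  let ρ : Γ →* Cfsg.PSp 2 F := e.toMonoidHom.comp (σ.codRestrict (siegelGroup (qOdd 2 F))
    fun γ => E.range_eq ▸ ⟨γ, rfl⟩)
  have hker : ρ.ker = σ.ker := by
    ext γ
    rw [MonoidHom.mem_ker, MonoidHom.mem_ker, MonoidHom.comp_apply, MulEquiv.coe_toMonoidHom,
      EmbeddingLike.map_eq_one_iff, ← Subtype.coe_inj, Subgroup.coe_one]
    rfl
  have hstem : Cfsg.IsStemExtension ρ := by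
    refine ⟨fun y => ?_, hker ▸ E.central, by rw [E.perfect]; exact le_top⟩
    obtain ⟨γ, hγ⟩ := E.exists_lift (e.symm y).2
    refine ⟨γ, ?_⟩
    show e ⟨σ γ, _⟩ = y
    rw [← e.apply_symm_apply y]
    exact congrArg e (Subtype.ext hγ)
  have hq : 3 ≤ Fintype.card F := by
    have h1 : 1 < Fintype.card F := Fintype.one_lt_card
    rw [Nat.card_eq_fintype_card] at hodd
    obtain ⟨k, hk⟩ := hodd
    omega
  obtain ⟨-, hS⟩ := Cfsg.Agent.S2092.result (F := F) rfl 2 le_rfl (fun _ => hq) (by omega)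
  obtain ⟨π, hπ⟩ := hS Γ ρ hstem
  have hgcd : Nat.gcd 2 (Fintype.card F - 1) ≠ 0 := Nat.gcd_ne_zero_left (by omega)
  have : NeZero (Nat.gcd 2 (Fintype.card F - 1)) := ⟨hgcd⟩
  calc Nat.card σ.ker = Nat.card ρ.ker := by rw [hker]
    _ ≤ Nat.card (Multiplicative (ZMod (Nat.gcd 2 (Fintype.card F - 1)))) :=
        Nat.card_le_card_of_surjective _ hπ
    _ = Nat.gcd 2 (Fintype.card F - 1) := by rw [Nat.card_congr Multiplicative.toAdd, Nat.card_zmod]
    _ ≤ 2 := Nat.le_of_dvd two_pos (Nat.gcd_dvd_left _ _)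

/-- The first standard vector. -/
def eStd (F : Type u) [Field F] (m : ℕ) : VOdd F (m + 1) := Pi.single (Sum.inr (Sum.inl 0)) 1

/-- The second standard vector. -/
def fStd (F : Type u) [Field F] (m : ℕ) : VOdd F (m + 1) := Pi.single (Sum.inr (Sum.inr 0)) 1

/-- The embedding missing the first hyperbolic pair. -/
def oddEmb (F : Type u) [Field F] (m : ℕ) : VOdd F m →ₗ[F] VOdd F (m + 1) where
  toFun v := Sum.elim (fun _ => v (Sum.inl ()))
    (Sum.elim (Fin.cons 0 fun i => v (Sum.inr (Sum.inl i))) (Fin.cons 0 fun i => v (Sum.inr (Sum.inr i))))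
  map_add' x y := funext fun i => by
    rcases i with i | i | i
    · simp
    · refine Fin.cases ?_ (fun j => ?_) i <;> simp
    · refine Fin.cases ?_ (fun j => ?_) i <;> simp
  map_smul' c x := funext fun i => by
    rcases i with i | i | i
    · simp
    · refine Fin.cases ?_ (fun j => ?_) i <;> simp
    · refine Fin.cases ?_ (fun j => ?_) i <;> simp

theorem polar_eStd (m : ℕ) (x : VOdd F (m + 1)) :
    polar (qOdd (m + 1) F) (eStd F m) x = x (Sum.inr (Sum.inr 0)) := by
  simp [polar, qOdd_apply, Cfsg.quadFormOdd, Fin.sum_univ_succ, eStd, Pi.single_apply, Fin.succ_ne_zero]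
  ring

theorem polar_fStd (m : ℕ) (x : VOdd F (m + 1)) :
    polar (qOdd (m + 1) F) (fStd F m) x = x (Sum.inr (Sum.inl 0)) := by
  simp [polar, qOdd_apply, Cfsg.quadFormOdd, Fin.sum_univ_succ, fStd, Pi.single_apply, Fin.succ_ne_zero]
  ring

theorem isHypPair_std_odd (m : ℕ) : IsHypPair (qOdd (m + 1) F) (eStd F m, fStd F m) := by
  refine ⟨?_, ?_, ?_⟩
  · simp [qOdd_apply, Cfsg.quadFormOdd, Fin.sum_univ_succ, eStd, Pi.single_apply, Fin.succ_ne_zero]
  · simp [qOdd_apply, Cfsg.quadFormOdd, Fin.sum_univ_succ, fStd, Pi.single_apply, Fin.succ_ne_zero]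
  · rw [polar_eStd]; simp [fStd]

theorem oddEmb_injective (m : ℕ) : Function.Injective (oddEmb F m) := fun x y h => funext fun i => by
  rcases i with i | i | i
  · simpa [oddEmb] using congrFun h (Sum.inl i)
  · simpa [oddEmb] using congrFun h (Sum.inr (Sum.inl i.succ))
  · simpa [oddEmb] using congrFun h (Sum.inr (Sum.inr i.succ))

theorem qOdd_oddEmb (m : ℕ) (x : VOdd F m) : qOdd (m + 1) F (oddEmb F m x) = qOdd m F x := by
  simp [qOdd_apply, Cfsg.quadFormOdd, Fin.sum_univ_succ, oddEmb]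

theorem mid_oddEmb (m : ℕ) (x : VOdd F m) : Mid (qOdd (m + 1) F) (eStd F m) (fStd F m) (oddEmb F m x) :=
  ⟨by rw [polar_eStd]; simp [oddEmb], by rw [polar_fStd]; simp [oddEmb]⟩

theorem exists_oddEmb (m : ℕ) (v : VOdd F (m + 1)) (hv : Mid (qOdd (m + 1) F) (eStd F m) (fStd F m) v) :
    ∃ x, oddEmb F m x = v := by
  obtain ⟨h1, h2⟩ := hv
  rw [polar_eStd] at h1
  rw [polar_fStd] at h2
  refine ⟨Sum.elim (fun _ => v (Sum.inl ()))
    (Sum.elim (fun i => v (Sum.inr (Sum.inl i.succ))) fun i => v (Sum.inr (Sum.inr i.succ))), funext fun i => ?_⟩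
  rcases i with i | i | i
  · simp [oddEmb]
  · refine Fin.cases ?_ (fun j => ?_) i <;> simp [oddEmb, h2]
  · refine Fin.cases ?_ (fun j => ?_) i <;> simp [oddEmb, h1]

/-- Induction on the rank. -/
theorem card_ker_le_two [Finite F] (h2 : (2 : F) ≠ 0) (hodd : Odd (Nat.card F)) :
    ∀ {m : ℕ}, 2 ≤ m → ∀ {Γ : Type u} [Group Γ] [Finite Γ] (σ : Γ →* orth (qOdd m F)),
      CExt σ → (∃ T, Lifts σ T) → Nat.card σ.ker ≤ 2 := by
  intro m hm
  induction m, hm using Nat.le_induction with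
  | base => exact fun σ E _ => card_ker_five h2 hodd E
  | succ m hm ih =>
    intro Γ _ _ σ E hT
    obtain ⟨T, L⟩ := hT
    have C : Frame σ T (eStd F m) (fStd F m) :=
      ⟨E, L, nondeg_qOdd h2 (m + 1), by rw [finrank_qOdd]; omega, isHypPair_std_odd m⟩
    obtain ⟨σ', T', E', L', hc⟩ := C.exists_descent h2 (oddEmb F m) (oddEmb_injective m) (qOdd_oddEmb m)
      (mid_oddEmb m) (exists_oddEmb m)
    rw [hc]
    exact ih σ' E' ⟨T', L'⟩

/-- The multiplier is of order two, given the lifts in the top dimension. -/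
theorem hasCyclicSchurMultiplier_qOdd [Finite F] (h2 : (2 : F) ≠ 0) (hodd : Odd (Nat.card F)) {m : ℕ}
    (hm : 3 ≤ m)
    (hlift : ∀ {Γ : Type u} [Group Γ] [Finite Γ] (σ : Γ →* orth (qOdd m F)), CExt σ → ∃ T, Lifts σ T) :
    Cfsg.HasCyclicSchurMultiplier (Cfsg.POmega F (Cfsg.quadFormOdd m F)) 2 := by
  classical
  have := Fintype.ofFinite F
  set G := Cfsg.POmega F (Cfsg.quadFormOdd m F)
  let e : G ≃* siegelGroup (qOdd m F) := siegelPOmega h2 (by omega)
  have hn7 : 7 ≤ finrank F (VOdd F m) := by rw [finrank_qOdd]; omega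
  have hSperf : commutator (siegelGroup (qOdd m F)) = ⊤ := by
    rw [eq_top_iff]
    refine (Subgroup.map_le_map_iff_of_injective (f := (siegelGroup (qOdd m F)).subtype)
      (Subgroup.subtype_injective _)).1 ?_
    rw [← MonoidHom.range_eq_map, Subgroup.range_subtype, commutator_def, Subgroup.map_commutator,
      ← MonoidHom.range_eq_map, Subgroup.range_subtype]
    exact siegelGroup_le_commutator_self (nondeg_qOdd h2 m) hn7
  have hGperf : commutator G = ⊤ := by
    rw [commutator_def, ← Subgroup.map_top_of_surjective e.symm.toMonoidHom e.symm.surjective,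
      ← Subgroup.map_commutator, ← commutator_def, hSperf]
  have bound : ∀ {Γ : Type u} [Group Γ] [Finite Γ] (ρ : Γ →* G), Function.Surjective ρ →
      ρ.ker ≤ Subgroup.center Γ → commutator Γ = ⊤ → Nat.card ρ.ker ≤ 2 := by
    intro Γ _ _ ρ hs hc hp
    let σ : Γ →* orth (qOdd m F) := (siegelGroup (qOdd m F)).subtype.comp (e.toMonoidHom.comp ρ)
    have hker : σ.ker = ρ.ker := by
      ext γ
      simp [σ, MonoidHom.mem_ker]
    have E : CExt σ := by
      refine ⟨?_, hker ▸ hc, hp⟩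
      rw [MonoidHom.range_comp, MonoidHom.range_eq_top.2 (e.surjective.comp hs), ← MonoidHom.range_eq_map,
        Subgroup.range_subtype]
    rw [← hker]
    exact card_ker_le_two h2 hodd (by omega) σ E (hlift σ E)
  -- the spin extension
  have hndg : (QuadraticMap.polarBilin (qOdd m F)).Nondegenerate := by
    refine ⟨fun x hx => nondeg_qOdd h2 m x fun y => hx y, fun y hy => nondeg_qOdd h2 m y fun x => ?_⟩
    rw [polar_comm]; exact hy x
  have vec : ∀ k : ℕ, k < 3 → ∃ v : VOdd F m, (qOdd m F) v = 1 ∧ v (Sum.inl ()) = 0 ∧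
      ∀ i : Fin m, i.1 ≠ k → v (Sum.inr (Sum.inl i)) = 0 ∧ v (Sum.inr (Sum.inr i)) = 0 := by
    intro k hk
    refine ⟨Sum.elim (fun _ => 0) (Sum.elim (fun i => if i.1 = k then 1 else 0) fun i => if i.1 = k then 1 else 0),
      ?_, rfl, fun i hi => by simp [hi]⟩
    simp [qOdd_apply, Cfsg.quadFormOdd, ite_and, Finset.sum_ite_eq']
    rw [Finset.sum_eq_single (⟨k, by omega⟩ : Fin m)] <;> simp (config := { contextual := true }) [Fin.ext_iff]
  have horth : ∀ k l : ℕ, k ≠ l → ∀ v w : VOdd F m, v (Sum.inl ()) = 0 →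
      (∀ i : Fin m, i.1 ≠ k → v (Sum.inr (Sum.inl i)) = 0 ∧ v (Sum.inr (Sum.inr i)) = 0) →
      (∀ i : Fin m, i.1 ≠ l → w (Sum.inr (Sum.inl i)) = 0 ∧ w (Sum.inr (Sum.inr i)) = 0) →
      polar (qOdd m F) v w = 0 := by
    intro k l hkl v w hv0 hv hw
    simp only [polar, qOdd_apply, Cfsg.quadFormOdd, Pi.add_apply, hv0]
    have hterm : ∀ i : Fin m, (v (.inr (.inl i)) + w (.inr (.inl i))) * (v (.inr (.inr i)) + w (.inr (.inr i))) =
        v (.inr (.inl i)) * v (.inr (.inr i)) + w (.inr (.inl i)) * w (.inr (.inr i)) := fun i => by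
      by_cases hi : i.1 = k
      · obtain ⟨a, b⟩ := hw i (hi ▸ hkl); rw [a, b]; ring
      · obtain ⟨a, b⟩ := hv i hi; rw [a, b]; ring
    rw [Finset.sum_congr rfl fun i _ => hterm i, Finset.sum_add_distrib]
    ring
  obtain ⟨v₁, q₁, u₁, z₁⟩ := vec 0 (by omega)
  obtain ⟨v₂, q₂, u₂, z₂⟩ := vec 1 (by omega)
  obtain ⟨v₃, q₃, u₃, z₃⟩ := vec 2 (by omega)
  obtain ⟨P, _, _, π, hπs, hπc, x, y, hxy, hnxy⟩ := ClassK.OrthPlusMult.Spin.exists_spin_extension (qOdd m F)
    h2 hndg q₁ q₂ q₃ (horth 0 1 (by omega) _ _ u₁ z₁ z₂) (horth 0 2 (by omega) _ _ u₁ z₁ z₃)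
    (horth 1 2 (by omega) _ _ u₂ z₂ z₃)
  let ι : Cfsg.Omega F ⇑(qOdd m F) ≃* G :=
    (((commutatorCongr (isoMat (qOdd m F) (f := ⇑(qOdd m F)) fun _ => rfl)).trans
      (MulEquiv.subgroupCongr (commutator_qOdd h2 (by omega)))).trans e.symm)
  let π' : P →* G := ι.toMonoidHom.comp π
  have hπ's : Function.Surjective π' := ι.surjective.comp hπs
  have hπ'k : π'.ker = π.ker := by
    ext z
    simp [π', MonoidHom.mem_ker]
  have hπ'c : π'.ker ≤ Subgroup.center P := hπ'k ▸ hπc
  let τ : commutator P →* G := π'.comp (commutator P).subtype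
  have hτs : Function.Surjective τ := by
    rw [← MonoidHom.range_eq_top, MonoidHom.range_comp, Subgroup.range_subtype, commutator_def,
      Subgroup.map_commutator, Subgroup.map_top_of_surjective π' hπ's, ← commutator_def, hGperf]
  have hτc : τ.ker ≤ Subgroup.center (commutator P) := fun z hz => Subgroup.mem_center_iff.2 fun w =>
    Subtype.ext (Subgroup.mem_center_iff.1 (hπ'c (show (z : P) ∈ π'.ker from hz)) w)
  have hτp : commutator (commutator P) = ⊤ := by
    rw [eq_top_iff]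
    refine (Subgroup.map_le_map_iff_of_injective (f := (commutator P).subtype)
      (Subgroup.subtype_injective _)).1 ?_
    rw [← MonoidHom.range_eq_map, Subgroup.range_subtype, commutator_def (commutator P : Subgroup P),
      Subgroup.map_commutator, ← MonoidHom.range_eq_map, Subgroup.range_subtype]
    conv_lhs => rw [commutator_def]
    rw [Subgroup.commutator_le]
    intro a _ b _
    obtain ⟨a', ha⟩ := hτs (π' a)
    obtain ⟨b', hb⟩ := hτs (π' b)
    rw [SchurMult.comm_eq_of_map_eq hπ'c (a' := (a' : P)) (b' := (b' : P)) ha.symm hb.symm]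
    exact Subgroup.commutator_mem_commutator a'.2 b'.2
  have hle : Nat.card τ.ker ≤ 2 := bound τ hτs hτc hτp
  have hz : ⁅x, y⁆ ∈ π'.ker := by
    rw [hπ'k, MonoidHom.mem_ker, map_commutatorElement, commutatorElement_eq_one_iff_mul_comm]
    exact hxy.eq
  have hzd : ⁅x, y⁆ ∈ commutator P := Subgroup.commutator_mem_commutator (Subgroup.mem_top _) (Subgroup.mem_top _)
  have hne : (⟨⟨⁅x, y⁆, hzd⟩, hz⟩ : τ.ker) ≠ 1 := fun h =>
    hnxy (commutatorElement_eq_one_iff_mul_comm.1 (congrArg (fun z : τ.ker => ((z : commutator P) : P)) h))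
  have : Nontrivial τ.ker := ⟨_, _, hne⟩
  have hτ2 : Nat.card τ.ker = 2 := le_antisymm hle Finite.one_lt_card
  have iso : ∀ {K : Type u} [Group K], Nat.card K = 2 → Nonempty (Multiplicative (ZMod 2) ≃* K) := by
    intro K _ hK
    have : Fact (Nat.Prime 2) := ⟨Nat.prime_two⟩
    exact ⟨(AddEquiv.toMultiplicative (ZMod.ringEquivCongr hK).symm.toAddEquiv).trans
      (zmodCyclicMulEquiv (isCyclic_of_prime_card hK))⟩
  refine ⟨⟨commutator P, inferInstance, inferInstance, τ, ⟨hτs, hτc, by rw [hτp]; exact le_top⟩,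
    (iso hτ2).map MulEquiv.symm⟩, ?_⟩
  intro Γ _ _ ρ hρ
  have hΓp : commutator Γ = ⊤ := by
    rw [eq_top_iff]
    intro g _
    have hg : ρ g ∈ (commutator Γ).map ρ := by
      rw [commutator_def, Subgroup.map_commutator, Subgroup.map_top_of_surjective ρ hρ.1, ← commutator_def, hGperf]
      exact Subgroup.mem_top _
    obtain ⟨g', hg', e'⟩ := hg
    have hk : g'⁻¹ * g ∈ commutator Γ := hρ.2.2 (by rw [MonoidHom.mem_ker, map_mul, map_inv, e', inv_mul_cancel])
    have := mul_mem hg' hk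
    rwa [mul_inv_cancel_left] at this
  have hle' := bound ρ hρ.1 hρ.2.1 hΓp
  have hpos : 0 < Nat.card ρ.ker := Nat.card_pos
  rcases (show Nat.card ρ.ker = 1 ∨ Nat.card ρ.ker = 2 by omega) with h1 | h1
  · have := (Nat.card_eq_one_iff_unique.1 h1).1
    exact ⟨1, fun z => ⟨1, Subsingleton.elim _ _⟩⟩
  · obtain ⟨φ⟩ := iso h1
    exact ⟨φ.toMonoidHom, φ.surjective⟩

end CfsgLib.OrthMult
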