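import Cfsg.Agent.Lib.OrthMult.Restrict
import Cfsg.Agent.Lib.OrthMult.Odd

/-!
The kernel bound for the orthogonal groups of minus type in odd characteristic.
-/

set_option autoImplicit false
set_option linter.unusedSectionVars false

namespace CfsgLib.OrthMult

open QuadraticMap CfsgLib.ClassicalForms Module

universe u

variable {F : Type u} [Field F]

/-- The vector space of the standard form of minus type. -/
abbrev VMinus (F : Type u) (m : ℕ) : Type u := (Fin m ⊕ Fin m) ⊕ Fin 2 → F

theorem polar_qMinus (m : ℕ) (a b : F) (v w : VMinus F m) :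
    polar (qMinus m F a b) v w =
      ∑ i, (v (.inl (.inl i)) * w (.inl (.inr i)) + w (.inl (.inl i)) * v (.inl (.inr i))) +
        (2 * v (.inr 0) * w (.inr 0) + a * (v (.inr 0) * w (.inr 1) + v (.inr 1) * w (.inr 0)) +
          2 * b * v (.inr 1) * w (.inr 1)) := by
  simp only [polar, qMinus_apply, Cfsg.quadFormMinus, Cfsg.quadFormPlus, Pi.add_apply]
  have h : ∀ i : Fin m, (v (.inl (.inl i)) + w (.inl (.inl i))) * (v (.inl (.inr i)) + w (.inl (.inr i))) =
      v (.inl (.inl i)) * v (.inl (.inr i)) + w (.inl (.inl i)) * w (.inl (.inr i)) +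
        (v (.inl (.inl i)) * w (.inl (.inr i)) + w (.inl (.inl i)) * v (.inl (.inr i))) := fun i => by ring
  rw [Finset.sum_congr rfl fun i _ => h i, Finset.sum_add_distrib, Finset.sum_add_distrib]
  ring

theorem disc_ne_zero {a b : F} (h2 : (2 : F) ≠ 0) (hab : Aniso a b) : 4 * b - a * a ≠ 0 := fun h => by
  have h0 : binForm a b ![-a, 2] = 0 := by
    rw [binForm_apply]; simp; linear_combination h
  have := congrFun (hab.eq_zero h0) 1
  simp at this
  exact h2 this

/-- The anisotropic vector of the frame. -/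
def aMinus (F : Type u) [Field F] (m : ℕ) : VMinus F m := Sum.elim (fun _ => 0) ![1, 0]

/-- The first vector of the frame. -/
def eMinus (F : Type u) [Field F] (m : ℕ) [NeZero m] : VMinus F m :=
  Sum.elim (Sum.elim (fun i => if i = 0 then 1 else 0) fun i => if i = 0 then -(4 : F)⁻¹ else 0)
    ![(2 : F)⁻¹, 0]

/-- The embedding of the odd-dimensional form. -/
def minusEmb (F : Type u) [Field F] (m : ℕ) (a b : F) : VOdd F m →ₗ[F] VMinus F m where
  toFun v := Sum.elim (Sum.elim (fun i => v (.inr (.inl i))) fun i => (4 * b - a * a) * v (.inr (.inr i)))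
    ![-a * v (.inl ()), 2 * v (.inl ())]
  map_add' x y := funext fun i => by
    rcases i with (i | i) | i
    · simp
    · simp [mul_add]
    · fin_cases i <;> simp [mul_add] <;> ring
  map_smul' c x := funext fun i => by
    rcases i with (i | i) | i
    · simp
    · simp; ring
    · fin_cases i <;> simp <;> ring

theorem card_ker_le_two_minus [Finite F] (h2 : (2 : F) ≠ 0) (hodd : Odd (Nat.card F)) {m : ℕ} (hm : 3 ≤ m)
    {a b : F} (hab : Aniso a b) {Γ : Type u} [Group Γ] [Finite Γ] (σ : Γ →* orth (qMinus m F a b)) (E : CExt σ)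
    (hT : ∃ T, Lifts σ T) : Nat.card σ.ker ≤ 2 := by
  obtain ⟨T, L⟩ := hT
  have : NeZero m := ⟨by omega⟩
  have hd := disc_ne_zero h2 hab
  have h4 : (4 : F) ≠ 0 := by
    rw [show (4 : F) = 2 * 2 by norm_num]; exact mul_ne_zero h2 h2
  set e := eMinus F m
  set a₀ := aMinus F m
  have hpa : ∀ v, polar (qMinus m F a b) a₀ v = 2 * v (.inr 0) + a * v (.inr 1) := fun v => by
    rw [polar_qMinus]; simp [a₀, aMinus]
  have qe : qMinus m F a b e = 0 := by
    rw [qMinus_apply]
    simp [e, eMinus, Cfsg.quadFormMinus, Cfsg.quadFormPlus]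
    field_simp
    ring
  have qa : qMinus m F a b a₀ = 1 := by
    rw [qMinus_apply]; simp [a₀, aMinus, Cfsg.quadFormMinus, Cfsg.quadFormPlus]
  have hae : polar (qMinus m F a b) a₀ e = 1 := by
    rw [hpa]; simp [e, eMinus]; field_simp
  have hp : IsHypPair (qMinus m F a b) (e, a₀ - e) := by
    refine ⟨qe, ?_, ?_⟩
    · rw [map_sub_eq, qa, qe, hae]; ring
    · rw [polar_sub_right, polar_comm _ e a₀, hae, polar_singular_self qe, sub_zero]
  have C : Frame σ T e (a₀ - e) :=
    ⟨E, L, nondeg_qMinus hab m, by rw [finrank_qMinus]; omega, hp⟩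
  have hperp : ∀ v, polar (qMinus m F a b) a₀ v = 0 → ∃ x, minusEmb F m a b x = v := fun v hv => by
    rw [hpa] at hv
    refine ⟨Sum.elim (fun _ => v (.inr 1) * (2 : F)⁻¹) (Sum.elim (fun i => v (.inl (.inl i)))
      fun i => (4 * b - a * a)⁻¹ * v (.inl (.inr i))), funext fun i => ?_⟩
    rcases i with (i | i) | i
    · simp [minusEmb]
    · simp [minusEmb, mul_inv_cancel_left₀ hd]
    · fin_cases i <;> simp [minusEmb] <;> field_simp
      linear_combination -hv
  obtain ⟨σ', T', E', L', hc⟩ := C.exists_restrict h2 (nondeg_qOdd h2 m) (by rw [finrank_qOdd]; omega)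
    (minusEmb F m a b)
    (fun x y h => funext fun i => by
      rcases i with i | i | i
      · simpa [minusEmb, h2] using congrFun h (Sum.inr 1)
      · simpa [minusEmb] using congrFun h (Sum.inl (Sum.inl i))
      · simpa [minusEmb, hd] using congrFun h (Sum.inl (Sum.inr i)))
    hd
    (fun x => by
      rw [qMinus_apply, qOdd_apply]
      simp [minusEmb, Cfsg.quadFormMinus, Cfsg.quadFormPlus, Cfsg.quadFormOdd, mul_add, Finset.mul_sum]
      rw [add_comm]
      congr 1
      · ring
      · exact Finset.sum_congr rfl fun i _ => by ring)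
    (a := a₀) (fun x => by rw [hpa]; simp [minusEmb]; ring)
    (fun v => by
      obtain ⟨x, hx⟩ := hperp (v - (polar (qMinus m F a b) a₀ v * (2 : F)⁻¹) • a₀) (by
        rw [polar_sub_right, polar_smul_right, polar_self_mul, qa, smul_eq_mul]
        field_simp
        ring)
      exact ⟨_, x, by rw [hx, add_sub_cancel]⟩) hperp
    (fun v hv => hperp v (by
      have h := hv.2
      rw [polar_sub_left, hv.1, sub_zero] at h
      exact h))
  rw [hc]; exact card_ker_le_two h2 hodd (by omega) σ' E' ⟨T', L'⟩

end CfsgLib.OrthMult
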