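import Cfsg.Agent.Lib.OrthMult.EvenGlue
import Cfsg.Agent.Lib.SchurMult.PerfectCover

/-!
The Schur multiplier of the orthogonal groups of minus type in characteristic two.
-/

set_option autoImplicit false
set_option linter.unusedSectionVars false

namespace CfsgLib.OrthMult

open QuadraticMap CfsgLib.ClassicalForms Module
open CfsgLib.ClassK.OrthPlusMult (stem_perfect)

universe u

variable {F : Type u} [Field F]

/-- The multiplier in characteristic two is trivial. -/
theorem hasCyclicSchurMultiplier_qMinus_even [Finite F] [CharP F 2] {m : ℕ} (hm : 3 ≤ m) {a b : F}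
    (hab : Aniso a b) :
    Cfsg.HasCyclicSchurMultiplier (Cfsg.POmega F (Cfsg.quadFormMinus m F a b)) 1 := by
  classical
  have := Fintype.ofFinite F
  set Q := qMinus m F a b
  have hQ : Nondeg Q := nondeg_qMinus hab m
  have hn : 7 ≤ finrank F ((Fin m ⊕ Fin m) ⊕ Fin 2 → F) := by rw [finrank_qMinus]; omega
  have hc5 : 5 ≤ Fintype.card ((Fin m ⊕ Fin m) ⊕ Fin 2) := by simp; omega
  have hbot : Subgroup.center (siegelGroup Q) = ⊥ :=
    Subgroup.card_eq_one.1 (card_center_siegelGroup_even (CharP.cast_eq_zero F 2) hQ hc5)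
  let e : Cfsg.POmega F (Cfsg.quadFormMinus m F a b) ≃* siegelGroup Q :=
    (pOmegaEquiv Q (qMinus_apply m a b) (commutator_qMinus hab (by omega))).trans
      ((QuotientGroup.quotientMulEquivOfEq hbot).trans QuotientGroup.quotientBot)
  have hperf : commutator (siegelGroup Q) = ⊤ := by
    rw [eq_top_iff]
    refine (Subgroup.map_le_map_iff_of_injective (f := (siegelGroup Q).subtype)
      (Subgroup.subtype_injective _)).1 ?_
    rw [← MonoidHom.range_eq_map, Subgroup.range_subtype, commutator_def, Subgroup.map_commutator,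
      ← MonoidHom.range_eq_map, Subgroup.range_subtype]
    exact siegelGroup_le_commutator_self hQ hn
  have : Finite (orth Q) := Finite.of_injective (fun (g : orth Q) (v : (Fin m ⊕ Fin m) ⊕ Fin 2 → F) => ap g v)
    fun g h e => ap_ext (congrFun e)
  have hker : e.symm.toMonoidHom.ker = ⊥ := (MonoidHom.ker_eq_bot_iff _).2 e.symm.injective
  refine CfsgLib.SchurMult.hasCyclicSchurMultiplier_of_cover e.symm.toMonoidHom e.symm.surjective
    (by rw [hker]; exact bot_le) hperf ?_ ?_ ?_
  · intro Γ _ _ ρ hρ
    have hs : ((siegelGroup Q).subtype.comp ρ).ker = ρ.ker := by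
      ext g
      simp [MonoidHom.mem_ker]
    have E : CExt ((siegelGroup Q).subtype.comp ρ) := by
      refine ⟨?_, hs ▸ hρ.2.1, stem_perfect hρ hperf⟩
      rw [MonoidHom.range_comp, MonoidHom.range_eq_top.2 hρ.1, ← MonoidHom.range_eq_map, Subgroup.range_subtype]
    rw [← hs]
    exact ker_eq_bot_minus_even E hab hm
  · rw [hker]; infer_instance
  · rw [hker, Subgroup.card_bot]

end CfsgLib.OrthMult
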