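import Cfsg.Agent.Lib.OrthMult.Basic
import Cfsg.Agent.Lib.ClassicalForms.Ortho.Standard
import Cfsg.Agent.Lib.ClassK.OrthPlusMult.Spin
import Cfsg.Agent.Lib.ClassK.OrthPlusMult.Central
import Cfsg.Agent.Lib.SchurMult.CentralComm

/-!
The spin extension as an extension of the Siegel group: lifts of two products of reflections in three
orthonormal vectors never commute.
-/

set_option autoImplicit false
set_option linter.unusedSectionVars false

namespace CfsgLib.OrthMult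

open QuadraticMap CfsgLib.ClassicalForms Module
open CfsgLib.ClassK.OrthPlusMult
open scoped commutatorElement

universe u

variable {F : Type u} [Field F] {ι : Type} [Fintype ι] [DecidableEq ι]

/-- The matrix reflection is the reflection. -/
theorem isoMat_refl (Q : QuadraticForm F (ι → F)) {v : ι → F} (hv : Q v ≠ 0) :
    isoMat Q (f := ⇑Q) (fun _ => rfl) (OrthGen.refl Q hv) = refl Q v hv := by
  refine orth_ext fun x => ?_
  rw [isoMat_apply, refl_apply, polar_comm ⇑Q x v]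
  exact OrthGen.act_refl Q hv x

/-- Lifts of products of reflections in three orthonormal vectors do not commute. -/
theorem exists_spin_noncomm [Finite F] (Q : QuadraticForm F (ι → F)) (h2 : (2 : F) ≠ 0)
    (hQ : (QuadraticMap.polarBilin Q).Nondegenerate) :
    ∃ (P : Type u) (_ : Group P) (_ : Finite P) (π : P →* Cfsg.Omega F (⇑Q)),
      Function.Surjective π ∧ π.ker ≤ Subgroup.center P ∧
      ∀ (v₁ v₂ v₃ : ι → F) (n₁ : Q v₁ ≠ 0) (n₂ : Q v₂ ≠ 0) (n₃ : Q v₃ ≠ 0), Q v₁ = 1 → Q v₂ = 1 → Q v₃ = 1 →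
        polar Q v₁ v₂ = 0 → polar Q v₁ v₃ = 0 → polar Q v₂ v₃ = 0 → ∀ x y : P,
        ((π x : Cfsg.Omega F (⇑Q)) : Cfsg.isometryGroup F (⇑Q)) = OrthGen.refl Q n₁ * OrthGen.refl Q n₂ →
        ((π y : Cfsg.Omega F (⇑Q)) : Cfsg.isometryGroup F (⇑Q)) = OrthGen.refl Q n₁ * OrthGen.refl Q n₃ →
        ¬ Commute x y := by
  have : Invertible (2 : F) := invertibleOfNonzero h2
  have : Module.Finite F (CliffordAlgebra Q) :=
    letI : LinearOrder ι := LinearOrder.lift' (Fintype.equivFin ι) (Fintype.equivFin ι).injective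
    have : Module.Finite F (ExteriorAlgebra F (ι → F)) := Module.Finite.of_basis (Pi.basisFun F ι).ExteriorAlgebra
    Module.Finite.equiv (CliffordAlgebra.equivExterior Q).symm
  have : Finite (CliffordAlgebra Q) := Module.finite_of_finite F
  have : Finite (CliffordAlgebra Q)ˣ := Finite.of_injective _ Units.val_injective
  have : Nontrivial (CliffordAlgebra Q) := (CliffordAlgebra.equivExterior Q).toEquiv.nontrivial
  let π : Spin.spinPairs Q →* Cfsg.Omega F (⇑Q) := (MonoidHom.snd _ _).comp (Spin.spinPairs Q).subtype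
  have hcent : π.ker ≤ Subgroup.center (Spin.spinPairs Q) := by
    intro p hp
    have h1 : (p : (CliffordAlgebra Q)ˣ × Cfsg.Omega F (⇑Q)).2 = 1 := hp
    have hc : ∀ a : CliffordAlgebra Q, (p : (CliffordAlgebra Q)ˣ × Cfsg.Omega F (⇑Q)).1.1 * a =
        a * (p : (CliffordAlgebra Q)ˣ × Cfsg.Omega F (⇑Q)).1.1 := by
      intro a
      have hmem : a ∈ Algebra.adjoin F (Set.range (CliffordAlgebra.ι Q)) := by
        rw [CliffordAlgebra.adjoin_range_ι]; trivial
      induction hmem using Algebra.adjoin_induction with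
      | mem a ha =>
        obtain ⟨v, rfl⟩ := ha
        have := p.2 v
        rwa [h1, OneMemClass.coe_one, OrthGen.act_one] at this
      | algebraMap r => exact (Algebra.commutes r _).symm
      | add a b _ _ ha hb => rw [mul_add, add_mul, ha, hb]
      | mul a b _ _ ha hb => rw [← mul_assoc, ha, mul_assoc, hb, mul_assoc]
    rw [Subgroup.mem_center_iff]
    intro q
    refine Subtype.ext (Prod.ext (Units.ext (hc _).symm) ?_)
    show _ * (p : (CliffordAlgebra Q)ˣ × Cfsg.Omega F (⇑Q)).2 = (p : (CliffordAlgebra Q)ˣ × Cfsg.Omega F (⇑Q)).2 * _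
    rw [h1, one_mul, mul_one]
  refine ⟨Spin.spinPairs Q, inferInstance, inferInstance, π, fun g => ?_, hcent, ?_⟩
  · obtain ⟨x, hx⟩ := Spin.commutator_le_induced Q h2 hQ g.2
    exact ⟨⟨(x, g), hx⟩, rfl⟩
  intro v₁ v₂ v₃ n₁ n₂ n₃ q₁ q₂ q₃ o₁₂ o₁₃ o₂₃ x y ex ey hcomm
  have mk : ∀ {v w : ι → F} (hv : Q v ≠ 0) (hw : Q w ≠ 0),
      Spin.Induces Q (Spin.vecUnit Q hv * Spin.vecUnit Q hw) (OrthGen.refl Q hv * OrthGen.refl Q hw) :=
    fun {v w} hv hw => by
    have h := (Spin.induces_vecUnit Q hv).mul (Spin.induces_vecUnit Q hw)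
    rwa [mul_assoc, ← mul_assoc (OrthGen.refl Q hv), ← Spin.negIso_comm, mul_assoc (Spin.negIso Q) (OrthGen.refl Q hv),
      ← mul_assoc, Spin.negIso_sq, one_mul] at h
  let x' : Spin.spinPairs Q :=
    ⟨(Spin.vecUnit Q n₁ * Spin.vecUnit Q n₂, ⟨_, Spin.refl_mul_refl_mem Q h2 q₁ q₂ o₁₂ n₁ n₂⟩), mk n₁ n₂⟩
  let y' : Spin.spinPairs Q :=
    ⟨(Spin.vecUnit Q n₁ * Spin.vecUnit Q n₃, ⟨_, Spin.refl_mul_refl_mem Q h2 q₁ q₃ o₁₃ n₁ n₃⟩), mk n₁ n₃⟩
  have hc : Commute x' y' := by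
    rw [← commutatorElement_eq_one_iff_commute] at hcomm ⊢
    rw [← hcomm]
    exact SchurMult.comm_eq_of_map_eq hcent (Subtype.ext ex.symm) (Subtype.ext ey.symm)
  have e : CliffordAlgebra.ι Q v₁ * CliffordAlgebra.ι Q v₂ * (CliffordAlgebra.ι Q v₁ * CliffordAlgebra.ι Q v₃) =
      CliffordAlgebra.ι Q v₁ * CliffordAlgebra.ι Q v₃ * (CliffordAlgebra.ι Q v₁ * CliffordAlgebra.ι Q v₂) :=
    congrArg (fun p : Spin.spinPairs Q => (p : (CliffordAlgebra Q)ˣ × Cfsg.Omega F (⇑Q)).1.1) hc.eq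
  have s : ∀ {v w : ι → F}, polar Q v w = 0 →
      CliffordAlgebra.ι Q w * CliffordAlgebra.ι Q v = -(CliffordAlgebra.ι Q v * CliffordAlgebra.ι Q w) :=
    fun {v w} hvw => by
      rw [CliffordAlgebra.ι_mul_ι_comm, show QuadraticMap.polar Q w v = 0 by rw [QuadraticMap.polar_comm]; exact hvw,
        map_zero, zero_sub]
  have sq : CliffordAlgebra.ι Q v₁ * CliffordAlgebra.ι Q v₁ = 1 := by
    rw [CliffordAlgebra.ι_sq_scalar, q₁, map_one]
  have L : CliffordAlgebra.ι Q v₁ * CliffordAlgebra.ι Q v₂ * (CliffordAlgebra.ι Q v₁ * CliffordAlgebra.ι Q v₃) =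
      -(CliffordAlgebra.ι Q v₂ * CliffordAlgebra.ι Q v₃) := by
    rw [mul_assoc, ← mul_assoc (CliffordAlgebra.ι Q v₂), s o₁₂, neg_mul, mul_neg, ← mul_assoc,
      ← mul_assoc, sq, one_mul]
  have R : CliffordAlgebra.ι Q v₁ * CliffordAlgebra.ι Q v₃ * (CliffordAlgebra.ι Q v₁ * CliffordAlgebra.ι Q v₂) =
      CliffordAlgebra.ι Q v₂ * CliffordAlgebra.ι Q v₃ := by
    rw [mul_assoc, ← mul_assoc (CliffordAlgebra.ι Q v₃), s o₁₃, neg_mul, mul_neg, ← mul_assoc,
      ← mul_assoc, sq, one_mul, s o₂₃, neg_neg]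
  rw [L, R, neg_eq_iff_add_eq_zero, ← two_mul] at e
  have hu : IsUnit (CliffordAlgebra.ι Q v₂ * CliffordAlgebra.ι Q v₃) :=
    (Spin.vecUnit Q n₂ * Spin.vecUnit Q n₃).isUnit
  have h2u : IsUnit ((2 : CliffordAlgebra Q)) := by
    have := (IsUnit.mk0 _ h2).map (algebraMap F (CliffordAlgebra Q))
    rwa [map_ofNat] at this
  exact not_isUnit_zero (e ▸ h2u.mul hu)

/-- The spin extension of the Siegel group. -/
theorem exists_spin_cext [Finite F] (Q : QuadraticForm F (ι → F)) (h2 : (2 : F) ≠ 0) (hQ : Nondeg Q)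
    (hn : 7 ≤ finrank F (ι → F)) (hS : commutator (orth Q) = siegelGroup Q) :
    ∃ (Δ : Type u) (_ : Group Δ) (_ : Finite Δ) (ρ : Δ →* orth Q), CExt ρ ∧
      ∀ (v₁ v₂ v₃ : ι → F) (n₁ : Q v₁ ≠ 0) (n₂ : Q v₂ ≠ 0) (n₃ : Q v₃ ≠ 0), Q v₁ = 1 → Q v₂ = 1 → Q v₃ = 1 →
        polar Q v₁ v₂ = 0 → polar Q v₁ v₃ = 0 → polar Q v₂ v₃ = 0 → ∀ x y : Δ,
        ρ x = refl Q v₁ n₁ * refl Q v₂ n₂ → ρ y = refl Q v₁ n₁ * refl Q v₃ n₃ → ¬ Commute x y := by
  have hb : (QuadraticMap.polarBilin Q).Nondegenerate :=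
    ⟨fun x hx => hQ x fun y => hx y, fun y hy => hQ y fun x => by rw [polar_comm]; exact hy x⟩
  obtain ⟨P, _, _, π, hπs, hπc, hnc⟩ := exists_spin_noncomm Q h2 hb
  set φ := isoMat Q (f := ⇑Q) fun _ => rfl
  let π' : P →* orth Q := φ.toMonoidHom.comp ((Cfsg.Omega F (⇑Q)).subtype.comp π)
  have hπ'k : π'.ker ≤ Subgroup.center P := fun p hp => hπc (by
    rw [MonoidHom.mem_ker] at hp ⊢
    exact Subtype.ext (φ.injective (hp.trans (map_one φ).symm)))
  have hπ'r : π'.range = siegelGroup Q := by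
    rw [MonoidHom.range_comp, MonoidHom.range_comp, MonoidHom.range_eq_top.2 hπs, ← MonoidHom.range_eq_map,
      Subgroup.range_subtype, ← hS, commutator_def]
    show Subgroup.map φ.toMonoidHom (commutator _) = _
    rw [commutator_def, Subgroup.map_commutator, Subgroup.map_top_of_surjective φ.toMonoidHom φ.surjective]
  let π₀ : P →* siegelGroup Q := π'.codRestrict _ fun p => hπ'r.le ⟨p, rfl⟩
  have h₀s : Function.Surjective π₀ := fun g => by
    obtain ⟨p, hp⟩ : (g : orth Q) ∈ π'.range := hπ'r.ge g.2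
    exact ⟨p, Subtype.ext hp⟩
  have h₀c : π₀.ker ≤ Subgroup.center P := fun p hp => hπ'k (congrArg Subtype.val hp)
  have hperf : commutator (siegelGroup Q) = ⊤ := by
    rw [eq_top_iff]
    refine (Subgroup.map_le_map_iff_of_injective (f := (siegelGroup Q).subtype)
      (Subgroup.subtype_injective _)).1 ?_
    rw [← MonoidHom.range_eq_map, Subgroup.range_subtype, commutator_def, Subgroup.map_commutator,
      ← MonoidHom.range_eq_map, Subgroup.range_subtype]
    exact siegelGroup_le_commutator_self hQ hn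
  let ρ : commutator P →* orth Q := π'.comp (commutator P).subtype
  refine ⟨commutator P, inferInstance, inferInstance, ρ, ⟨le_antisymm ?_ ?_, ?_, ?_⟩, ?_⟩
  · rintro _ ⟨x, rfl⟩
    exact hπ'r.le ⟨x, rfl⟩
  · intro g hg
    obtain ⟨x, hx⟩ := commutator_surjective h₀s hperf ⟨g, hg⟩
    exact ⟨x, congrArg Subtype.val hx⟩
  · exact fun p hp => Subgroup.mem_center_iff.2 fun q =>
      Subtype.ext (Subgroup.mem_center_iff.1 (hπ'k (show (p : P) ∈ π'.ker from hp)) q)
  · exact commutator_perfect h₀s h₀c hperf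
  · intro v₁ v₂ v₃ n₁ n₂ n₃ q₁ q₂ q₃ o₁₂ o₁₃ o₂₃ x y ex ey hxy
    refine hnc v₁ v₂ v₃ n₁ n₂ n₃ q₁ q₂ q₃ o₁₂ o₁₃ o₂₃ x y (φ.injective ?_) (φ.injective ?_)
      (hxy.map (commutator P).subtype)
    · rw [map_mul, isoMat_refl, isoMat_refl]; exact ex
    · rw [map_mul, isoMat_refl, isoMat_refl]; exact ey

end CfsgLib.OrthMult
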