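import Cfsg.Agent.Lib.OrthMult.Basic

/-!
Vectors of prescribed value orthogonal to given vectors, in odd characteristic.
-/

set_option autoImplicit false
set_option linter.unusedSectionVars false

namespace CfsgLib.OrthMult

open QuadraticMap CfsgLib.ClassicalForms Module

variable {F V : Type*} [Field F] [AddCommGroup V] [Module F V] {Q : QuadraticForm F V} {k : ℕ}

/-- The orthogonal complement of a non-singular vector inside a section. -/
noncomputable def secVec (S : Sec Q k) (h2 : (2 : F) ≠ 0) {a : V} (ha : S.Mem a) (hq : Q a ≠ 0) :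
    Sec Q (k + 1) where
  φ := Fin.cons (QuadraticMap.polarBilin Q a) S.φ
  π := S.π - ((2 * Q a)⁻¹ • (QuadraticMap.polarBilin Q a).comp S.π).smulRight a
  π_mem y i := by
    refine Fin.cases ?_ (fun j => ?_) i
    · simp [polar_sub_right, polar_smul_right, polar_self_mul]
      field_simp
      ring
    · simp [S.π_mem y j, ha j]
  polar_π x y hx := by
    have h1 : polar Q x a = 0 := by rw [polar_comm]; simpa using hx 0
    have hx' : ∀ l, S.φ l x = 0 := fun l => by simpa using hx l.succ
    simp [polar_sub_right, polar_smul_right, h1, S.polar_π x y hx']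

theorem mem_secVec (S : Sec Q k) (h2 : (2 : F) ≠ 0) {a : V} (ha : S.Mem a) (hq : Q a ≠ 0) (x : V) :
    (secVec S h2 ha hq).Mem x ↔ polar Q a x = 0 ∧ S.Mem x := by
  constructor
  · intro hx
    exact ⟨by simpa [secVec] using hx 0, fun l => by simpa [secVec] using hx l.succ⟩
  · rintro ⟨h1, h2'⟩ i
    refine Fin.cases ?_ (fun l => ?_) i
    · simpa [secVec] using h1
    · simpa [secVec] using h2' l

/-- A section inside a given one, orthogonal to a given vector of it. -/
theorem exists_sec_perp (S : Sec Q k) (h2 : (2 : F) ≠ 0) (hQ : Nondeg Q) {x : V} (hx : S.Mem x) :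
    ∃ (l : ℕ) (S' : Sec Q l), l ≤ k + 2 ∧ ∀ v, S'.Mem v → S.Mem v ∧ polar Q x v = 0 := by
  by_cases hx0 : x = 0
  · exact ⟨k, S, by omega, fun v hv => ⟨hv, by rw [hx0]; simp⟩⟩
  by_cases hq : Q x = 0
  · obtain ⟨z, hz, hp⟩ := S.exists_partner hQ hx hq hx0
    exact ⟨k + 2, S.cut x z hx hz hp, le_rfl, fun v hv =>
      ⟨((S.mem_cut_iff hx hz hp v).1 hv).2.2, ((S.mem_cut_iff hx hz hp v).1 hv).1⟩⟩
  · exact ⟨k + 1, secVec S h2 hx hq, by omega, fun v hv =>
      ⟨((mem_secVec S h2 hx hq v).1 hv).2, ((mem_secVec S h2 hx hq v).1 hv).1⟩⟩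

variable [Finite F] [FiniteDimensional F V]

/-- A section of dimension at least two takes every non-zero value. -/
theorem exists_value_two (S : Sec Q k) (h2 : (2 : F) ≠ 0) (hQ : Nondeg Q) (hk : k + 2 ≤ finrank F V) {c : F}
    (hc : c ≠ 0) : ∃ x, S.Mem x ∧ Q x = c := by
  have := Fintype.ofFinite F
  obtain ⟨v1, m1, q1⟩ := exists_mem_ne_zero_value S hQ (by omega)
  obtain ⟨v2, m2, q2⟩ := exists_mem_ne_zero_value (secVec S h2 m1 q1) hQ (by omega)
  obtain ⟨o12, m2'⟩ := (mem_secVec S h2 m1 q1 v2).1 m2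
  have hc2 : ringChar F ≠ 2 := fun h => h2 (by
    have := ringChar.Nat.cast_ringChar (R := F)
    rw [h] at this; exact_mod_cast this)
  obtain ⟨x, y, hxy⟩ := FiniteField.exists_root_sum_quadratic
    (f := Polynomial.C (Q v1) * Polynomial.X ^ 2)
    (g := Polynomial.C (Q v2) * Polynomial.X ^ 2 - Polynomial.C c)
    (Polynomial.degree_C_mul_X_pow 2 q1)
    (by rw [Polynomial.degree_sub_C]
        · exact Polynomial.degree_C_mul_X_pow 2 q2
        · rw [Polynomial.degree_C_mul_X_pow 2 q2]; norm_num)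
    (FiniteField.odd_card_of_char_ne_two hc2)
  simp at hxy
  refine ⟨x • v1 + y • v2, S.mem_add (S.mem_smul _ m1) (S.mem_smul _ m2'), ?_⟩
  simp only [QuadraticMap.map_add ⇑Q, QuadraticMap.map_smul, polar_smul_left, polar_smul_right, o12, smul_eq_mul]
  linear_combination hxy

end CfsgLib.OrthMult
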