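import Cfsg.Agent.Lib.OrthMult.Exists
import Cfsg.Agent.Lib.OrthMult.Perp

/-!
Existence of equivariant lifts of the Siegel transformations over three elements, in dimension at
least eight.
-/

set_option autoImplicit false
set_option linter.unusedSectionVars false

namespace CfsgLib.OrthMult

open QuadraticMap CfsgLib.ClassicalForms Module
open scoped commutatorElement

variable {F V : Type*} [Field F] [AddCommGroup V] [Module F V] [Finite F] [FiniteDimensional F V]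
  {Q : QuadraticForm F V} {Γ : Type*} [Group Γ] {σ : Γ →* orth Q}

/-- A unit norm pair orthogonal to a hyperbolic pair. -/
def IsFrame3 (Q : QuadraticForm F V) (u f a b : V) : Prop :=
  Q f = 0 ∧ polar Q u f = 1 ∧ polar Q u a = 0 ∧ polar Q f a = 0 ∧ polar Q u b = 0 ∧ polar Q f b = 0 ∧
    Q a = 1 ∧ Q b = 1 ∧ polar Q a b = 0

/-- An element negating a hyperbolic pair and turning a quarter in a plane. -/
def IsTurn (σ : Γ →* orth Q) (u f a b : V) (x : Γ) : Prop :=
  ap (σ x) u = -u ∧ ap (σ x) f = -f ∧ ap (σ x) a = b ∧ ap (σ x) b = -a ∧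
    ∀ w, polar Q u w = 0 → polar Q f w = 0 → polar Q a w = 0 → polar Q b w = 0 → ap (σ x) w = w

/-- The elements used to define the lifts along a singular vector. -/
def turns (σ : Γ →* orth Q) (u : V) : Set Γ :=
  {x | ∃ f a b, IsFrame3 Q u f a b ∧ IsTurn σ u f a b x}

/-- The group of lifts along a singular vector. -/
def canon3 (σ : Γ →* orth Q) (u : V) : Subgroup Γ :=
  Subgroup.closure {g | ∃ x y : Γ, x ∈ turns σ u ∧ IsRootLift σ u y ∧ g = ⁅x, y⁆}

theorem IsFrame3.polar_aa {u f a b : V} (h : IsFrame3 Q u f a b) : polar Q a a = 2 ∧ polar Q b b = 2 :=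
  ⟨by rw [polar_self_mul, h.2.2.2.2.2.2.1, mul_one], by rw [polar_self_mul, h.2.2.2.2.2.2.2.1, mul_one]⟩

theorem IsTurn.inv {u f a b : V} {x : Γ} (h : IsTurn σ u f a b x) : IsTurn σ u f b a x⁻¹ := by
  obtain ⟨h1, h2, h3, h4, h5⟩ := h
  have key : ∀ p q, ap (σ x) p = q → ap (σ x⁻¹) q = p := fun p q e => by rw [map_inv, ← e, ap_inv_ap]
  refine ⟨?_, ?_, key _ _ h3, ?_, fun w a1 a2 a3 a4 => key w w (h5 w a1 a2 a4 a3)⟩
  · exact key _ _ (by rw [ap_neg, h1, neg_neg])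
  · exact key _ _ (by rw [ap_neg, h2, neg_neg])
  · exact key _ _ (by rw [ap_neg, h4, neg_neg])

section

variable (E : CExt σ) (h2 : (2 : F) ≠ 0) (hQ : Nondeg Q) (hn : 8 ≤ finrank F V)
  (h3 : (2 : F) = -1)
include E h2 hQ hn h3

theorem decomp3 {u f a b : V} (hu : Q u = 0) (hfr : IsFrame3 Q u f a b) (v : V) :
    polar Q u (v - polar Q f v • u - polar Q u v • f - (polar Q a v * 2⁻¹) • a - (polar Q b v * 2⁻¹) • b) = 0 ∧
    polar Q f (v - polar Q f v • u - polar Q u v • f - (polar Q a v * 2⁻¹) • a - (polar Q b v * 2⁻¹) • b) = 0 ∧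
    polar Q a (v - polar Q f v • u - polar Q u v • f - (polar Q a v * 2⁻¹) • a - (polar Q b v * 2⁻¹) • b) = 0 ∧
    polar Q b (v - polar Q f v • u - polar Q u v • f - (polar Q a v * 2⁻¹) • a - (polar Q b v * 2⁻¹) • b) = 0 := by
  obtain ⟨aa, bb⟩ := hfr.polar_aa
  obtain ⟨hf, huf, hua, hfa, hub, hfb, -, -, hab⟩ := hfr
  have := polar_singular_self hu
  have := polar_singular_self hf
  refine ⟨?_, ?_, ?_, ?_⟩ <;>
    simp [polar_sub_right, polar_smul_right, polar_comm Q f u, polar_comm Q a u, polar_comm Q a f,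
      polar_comm Q b u, polar_comm Q b f, polar_comm Q b a, *] <;>
    field_simp <;> ring

theorem ext3 {u f a b : V} (hu : Q u = 0) (hfr : IsFrame3 Q u f a b) {g g' : orth Q} (e1 : ap g u = ap g' u)
    (e2 : ap g f = ap g' f) (e3 : ap g a = ap g' a) (e4 : ap g b = ap g' b)
    (e5 : ∀ w, polar Q u w = 0 → polar Q f w = 0 → polar Q a w = 0 → polar Q b w = 0 → ap g w = ap g' w) :
    g = g' := by
  refine ap_ext fun v => ?_
  obtain ⟨k1, k2, k3, k4⟩ := decomp3 E h2 hQ hn h3 hu hfr v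
  have h := e5 _ k1 k2 k3 k4
  simp only [ap_sub, ap_smul, e1, e2, e3, e4, sub_left_inj] at h
  exact h

theorem turn_congr {u f a b : V} (hu : Q u = 0) (hfr : IsFrame3 Q u f a b) {x x' : Γ}
    (hx : IsTurn σ u f a b x) (hx' : IsTurn σ u f a b x') : σ x = σ x' :=
  ext3 E h2 hQ hn h3 hu hfr (hx.1.trans hx'.1.symm) (hx.2.1.trans hx'.2.1.symm) (hx.2.2.1.trans hx'.2.2.1.symm)
    (hx.2.2.2.1.trans hx'.2.2.2.1.symm) fun w a1 a2 a3 a4 =>
      (hx.2.2.2.2 w a1 a2 a3 a4).trans (hx'.2.2.2.2 w a1 a2 a3 a4).symm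

theorem exists_turn {u f a b : V} (hu : Q u = 0) (hfr : IsFrame3 Q u f a b) : ∃ x, IsTurn σ u f a b x := by
  obtain ⟨aa, bb⟩ := hfr.polar_aa
  obtain ⟨hf, huf, hua, hfa, hub, hfb, qa, qb, hab⟩ := hfr
  have huu := polar_singular_self hu
  have hff := polar_singular_self hf
  have hfu : polar Q f u = 1 := by rw [polar_comm, huf]
  have hba : polar Q b a = 0 := by rw [polar_comm, hab]
  have q1 : Q (u - f) = -1 := by rw [map_sub_eq, hu, hf, huf]; ring
  have q2 : Q (u + f) = 1 := by rw [QuadraticMap.map_add ⇑Q, hu, hf, huf]; ring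
  have q3 : Q (a + b) = -1 := by rw [QuadraticMap.map_add ⇑Q, qa, qb, hab]; linear_combination h3
  have n1 : Q (u - f) ≠ 0 := by rw [q1]; exact neg_ne_zero.2 one_ne_zero
  have n2 : Q (u + f) ≠ 0 := by rw [q2]; exact one_ne_zero
  have n3 : Q (a + b) ≠ 0 := by rw [q3]; exact neg_ne_zero.2 one_ne_zero
  have n4 : Q a ≠ 0 := by rw [qa]; exact one_ne_zero
  have m1 := refl_div_mem_siegelGroup hQ (by omega) n1 n3 ⟨1, by rw [q1, q3]; norm_num⟩
  have m2 := refl_div_mem_siegelGroup hQ (by omega) n2 n4 ⟨1, by rw [q2, qa]; norm_num⟩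
  obtain ⟨x, hx⟩ := E.exists_lift (mul_mem m1 m2)
  rw [refl_inv, refl_inv] at hx
  have key : ∀ v, ap (σ x) v = (ClassicalForms.refl Q (u - f) n1 : V ≃ₗ[F] V) ((ClassicalForms.refl Q (a + b) n3 : V ≃ₗ[F] V)
      ((ClassicalForms.refl Q (u + f) n2 : V ≃ₗ[F] V) ((ClassicalForms.refl Q a n4 : V ≃ₗ[F] V) v))) := fun v => by
    rw [hx, ap_mul, ap_mul, ap_mul]
  refine ⟨x, ?_, ?_, ?_, ?_, fun w a1 a2 a3 a4 => ?_⟩
  · rw [key]
    simp only [refl_apply, q1, q2, q3, qa, polar_sub_left, polar_sub_right, polar_add_left, polar_add_right,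
      polar_smul_left, huu, hff, huf, hfu, hua, hfa, hub, hfb, polar_comm Q a u, polar_comm Q a f, polar_comm Q b u,
      polar_comm Q b f, smul_eq_mul, inv_one, inv_neg]
    match_scalars
    all_goals first | linear_combination h3 | linear_combination -h3 | ring1
  · rw [key]
    simp only [refl_apply, q1, q2, q3, qa, polar_sub_left, polar_sub_right, polar_add_left, polar_add_right,
      polar_smul_left, huu, hff, huf, hfu, hua, hfa, hub, hfb, polar_comm Q a u, polar_comm Q a f, polar_comm Q b u,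
      polar_comm Q b f, smul_eq_mul, inv_one, inv_neg]
    match_scalars
    all_goals first | linear_combination h3 | linear_combination -h3 | ring1
  · rw [key]
    simp only [refl_apply, q1, q2, q3, qa, aa, polar_sub_left, polar_sub_right, polar_add_left, polar_add_right,
      polar_smul_left, polar_comm Q a u, polar_comm Q a f, hua, hfa, hab, hba, hub, hfb, polar_comm Q b u,
      polar_comm Q b f, bb, smul_eq_mul, inv_one, inv_neg]
    match_scalars
    all_goals first | linear_combination h3 | linear_combination -h3 | ring1 | linear_combination 2 * h3 | linear_combination -2 * h3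
  · rw [key]
    simp only [refl_apply, q1, q2, q3, qa, aa, bb, polar_sub_left, polar_sub_right, polar_add_left, polar_add_right,
      polar_smul_left, polar_comm Q b u, polar_comm Q b f, hub, hfb, hab, hba, hua, hfa, polar_comm Q a u,
      polar_comm Q a f, smul_eq_mul, inv_one, inv_neg]
    match_scalars
    all_goals first | linear_combination h3 | linear_combination -h3 | ring1 | linear_combination 2 * h3 | linear_combination -2 * h3
  · rw [key, refl_fix n4 (by rw [polar_comm, a3]),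
      refl_fix n2 (by rw [polar_add_right, polar_comm Q w u, polar_comm Q w f, a1, a2, add_zero]),
      refl_fix n3 (by rw [polar_add_right, polar_comm Q w a, polar_comm Q w b, a3, a4, add_zero]),
      refl_fix n1 (by rw [polar_sub_right, polar_comm Q w u, polar_comm Q w f, a1, a2, sub_zero])]

/-- Turns on orthogonal planes commute. -/
theorem turn_comm {u f a b c d : V} (hu : Q u = 0) (hfr : IsFrame3 Q u f a b) (hfr' : IsFrame3 Q u f c d)
    (hac : polar Q a c = 0) (had : polar Q a d = 0) (hbc : polar Q b c = 0) (hbd : polar Q b d = 0) {x x' : Γ}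
    (hx : IsTurn σ u f a b x) (hx' : IsTurn σ u f c d x') : σ x * σ x' = σ x' * σ x := by
  obtain ⟨-, -, hua, hfa, hub, hfb, -, -, hab⟩ := hfr
  obtain ⟨-, -, huc, hfc, hud, hfd, -, -, hcd⟩ := id hfr'
  obtain ⟨x1, x2, x3, x4, x5⟩ := hx
  obtain ⟨y1, y2, y3, y4, y5⟩ := hx'
  have hc : ap (σ x) c = c := x5 c huc hfc hac hbc
  have hd : ap (σ x) d = d := x5 d hud hfd had hbd
  have ha : ap (σ x') a = a := y5 a hua hfa (by rw [polar_comm, hac]) (by rw [polar_comm, had])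
  have hb : ap (σ x') b = b := y5 b hub hfb (by rw [polar_comm, hbc]) (by rw [polar_comm, hbd])
  refine ext3 E h2 hQ hn h3 hu hfr' ?_ ?_ ?_ ?_ fun w a1 a2 a3 a4 => ?_
  · rw [ap_mul, ap_mul, x1, y1, ap_neg, ap_neg, x1, y1]
  · rw [ap_mul, ap_mul, x2, y2, ap_neg, ap_neg, x2, y2]
  · rw [ap_mul, ap_mul, y3, hc, hd, y3]
  · rw [ap_mul, ap_mul, y4, hd, ap_neg, hc, y4]
  · rw [ap_mul, ap_mul, y5 w a1 a2 a3 a4]
    symm
    have hc' : polar Q c (ap (σ x) w) = 0 := by
      conv_lhs => rw [← hc, polar_ap]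
      exact a3
    have hd' : polar Q d (ap (σ x) w) = 0 := by
      conv_lhs => rw [← hd, polar_ap]
      exact a4
    refine y5 _ ?_ ?_ hc' hd'
    · have := polar_ap (σ x) u w
      rw [x1, a1, polar_neg_left, neg_eq_zero] at this
      exact this
    · have := polar_ap (σ x) f w
      rw [x2, a2, polar_neg_left, neg_eq_zero] at this
      exact this

omit h3 in
theorem rootLift_comm_of_turn {u : V} (hu0 : u ≠ 0) {y z : Γ} (hy : IsRootLift σ u y)
    (hz : IsRootLift σ u z) : y * z = z * y :=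
  E.rootLift_commute h2 hQ (by omega) hu0 hy hz

omit h3 in
theorem turn_lift {u : V} {x : Γ} (hx : ap (σ x) u = -u) {y : Γ} (hy : IsRootLift σ u y) :
    IsRootLift σ u (x * y * x⁻¹) ∧ IsRootLift σ u ⁅x, y⁆ := by
  have h := hy.conj x (c := (-1 : F)) (by rw [hx, neg_one_smul])
  exact ⟨h, by rw [commutatorElement_def]; exact h.mul hy.inv⟩

/-- The complement to the kernel attached to a turn. -/
theorem exists_complement {u : V} (hu : Q u = 0) (hu0 : u ≠ 0) {x : Γ} (hx : x ∈ turns σ u) :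
    ∃ M : Subgroup Γ, (∀ g, g ∈ M ↔ ∃ y, IsRootLift σ u y ∧ g = ⁅x, y⁆) ∧ (∀ g ∈ M, σ g = 1 → g = 1) ∧
      ∀ w, ∀ hw : polar Q u w = 0, ∃ g ∈ M, σ g = siegel Q u w hu hw := by
  obtain ⟨f, a, b, hfr, x1, x2, x3, x4, x5⟩ := hx
  have hfr0 := hfr
  obtain ⟨aa, bb⟩ := hfr.polar_aa
  obtain ⟨hf, huf, hua, hfa, hub, hfb, -, -, hab⟩ := hfr
  have hfu : polar Q f u = 1 := by rw [polar_comm, huf]
  have huu := polar_singular_self hu
  have hba : polar Q b a = 0 := by rw [polar_comm, hab]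
  have hm1 := fun {y : Γ} (hy : IsRootLift σ u y) => turn_lift E h2 hQ hn x1 hy
  let M : Subgroup Γ :=
    { carrier := {g | ∃ y, IsRootLift σ u y ∧ g = ⁅x, y⁆}
      one_mem' := ⟨1, isRootLift_of_ker hu (map_one σ), (commutatorElement_one_right x).symm⟩
      mul_mem' := by
        rintro _ _ ⟨y, hy, rfl⟩ ⟨y', hy', rfl⟩
        refine ⟨y * y', hy.mul hy', ?_⟩
        rw [show ⁅x, y * y'⁆ = ⁅x, y⁆ * (y * ⁅x, y'⁆ * y⁻¹) by simp only [commutatorElement_def]; group,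
          rootLift_comm_of_turn E h2 hQ hn hu0 hy (hm1 hy').2, mul_inv_cancel_right]
      inv_mem' := by
        rintro _ ⟨y, hy, rfl⟩
        refine ⟨y⁻¹, hy.inv, ?_⟩
        refine inv_eq_of_mul_eq_one_right ?_
        have e : ⁅x, y⁻¹⁆ = y⁻¹ * ⁅x, y⁆⁻¹ * y := by simp only [commutatorElement_def]; group
        rw [e, rootLift_comm_of_turn E h2 hQ hn hu0 hy.inv (hm1 hy).2.inv, inv_mul_cancel_right, mul_inv_cancel] }
  -- the projection to the complement of the pair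
  have hproj : ∀ w, polar Q u w = 0 → polar Q u (w - polar Q f w • u) = 0 ∧ polar Q f (w - polar Q f w • u) = 0 :=
    fun w hw => ⟨by simp [polar_sub_right, polar_smul_right, huu, hw], by simp [polar_sub_right, polar_smul_right, hfu]⟩
  have hsame : ∀ w (hw : polar Q u w = 0), siegel Q u (w - polar Q f w • u) hu (hproj w hw).1 = siegel Q u w hu hw := by
    intro w hw
    refine Eq.trans ?_ (siegel_add_smul hu hw (-polar Q f w))
    exact siegel_congr rfl (by rw [neg_smul, sub_eq_add_neg]) _ _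
  have hxw : ∀ w, polar Q u w = 0 → polar Q u (ap (σ x) w) = 0 := fun w hw => by
    have := polar_ap (σ x) u w
    rw [x1, hw, polar_neg_left, neg_eq_zero] at this
    exact this
  have hval : ∀ (y : Γ) (w : V) (hw : polar Q u w = 0), σ y = siegel Q u w hu hw →
      σ ⁅x, y⁆ = siegel Q u (-ap (σ x) w - w) hu
        (by rw [polar_sub_right, polar_neg_right, hxw w hw, hw]; ring) := by
    intro y w hw e
    have hw1 : polar Q u (-ap (σ x) w) = 0 := by rw [polar_neg_right, hxw w hw, neg_zero]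
    have h1 : σ (x * y * x⁻¹) = siegel Q u (-ap (σ x) w) hu hw1 := by
      rw [map_mul, map_mul, map_inv, e, conj_siegel]
      refine Eq.trans (siegel_congr (u' := (-1 : F) • u) (w' := ap (σ x) w)
        (x1.trans (neg_one_smul F u).symm) rfl _ _) ?_
      refine Eq.trans (siegel_smul hu (hxw w hw) (-1)) ?_
      exact siegel_congr rfl (neg_one_smul F _) _ _
    have h2' : σ y⁻¹ = siegel Q u (-w) hu (by rw [polar_neg_right, hw, neg_zero]) := by
      rw [map_inv, e, siegel_inv]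
    rw [commutatorElement_def, map_mul, h1, h2', siegel_mul]
    exact siegel_congr rfl (sub_eq_add_neg _ _).symm _ _
  refine ⟨M, fun g => Iff.rfl, ?_, ?_⟩
  · rintro _ ⟨y, ⟨w, _, hw, e⟩, rfl⟩ hg1
    obtain ⟨hw1, hw2⟩ := hproj w hw
    rw [← hsame w hw] at e
    set w' := w - polar Q f w • u
    have h0 := hval y w' hw1 e
    rw [hg1] at h0
    have h1 := congrArg (fun k : orth Q => ap k f) h0
    simp only [ap_one, ap_siegel, hfu, one_smul, mul_one] at h1
    have hxw' : polar Q f (ap (σ x) w') = 0 := by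
      have := polar_ap (σ x) f w'
      rw [x2, hw2, polar_neg_left, neg_eq_zero] at this
      exact this
    have hd : -ap (σ x) w' - w' = (0 : V) := by
      have hz : polar Q f (-ap (σ x) w' - w') = 0 := by rw [polar_sub_right, polar_neg_right, hxw', hw2]; ring
      rw [hz, zero_add] at h1
      have h1' : -ap (σ x) w' - w' = Q (-ap (σ x) w' - w') • u := by
        have h1'' := sub_eq_zero.2 h1.symm
        rw [← sub_eq_zero, ← h1'']; abel
      have := congrArg (fun z => polar Q f z) h1'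
      simp only [hz, polar_smul_right, hfu, smul_eq_mul, mul_one] at this
      rw [h1', ← this, zero_smul]
    -- apply the turn again
    obtain ⟨k1, k2, k3, k4⟩ := decomp3 E h2 hQ hn h3 hu hfr0 w'
    rw [hw1, hw2, zero_smul, zero_smul, sub_zero, sub_zero] at k1 k2 k3 k4
    set r := w' - (polar Q a w' * 2⁻¹) • a - (polar Q b w' * 2⁻¹) • b with hr
    set α := polar Q a w' * 2⁻¹
    set β := polar Q b w' * 2⁻¹
    have hw' : w' = α • a + β • b + r := by rw [hr]; abel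
    have hx' : ap (σ x) w' = α • b - β • a + r := by
      conv_lhs => rw [hw']
      rw [ap_add, ap_add, ap_smul, ap_smul, x3, x4, x5 r k1 k2 k3 k4, smul_neg, sub_eq_add_neg]
    have hd' : α • b - β • a + r + (α • a + β • b + r) = 0 := by
      rw [← hw', ← hx', ← neg_eq_zero, ← hd]; abel
    have ea : (α - β) * 2 = 0 := by
      have := congrArg (fun z => polar Q a z) hd'
      simp [polar_add_right, polar_sub_right, polar_smul_right, hab, aa, k3] at this
      linear_combination this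
    have eb : (α + β) * 2 = 0 := by
      have := congrArg (fun z => polar Q b z) hd'
      simp [polar_add_right, polar_sub_right, polar_smul_right, hba, bb, k4] at this
      linear_combination this
    have hα : α = 0 := by
      have : α * (2 * 2) = 0 := by linear_combination ea + eb
      exact (mul_eq_zero.1 this).resolve_right (mul_ne_zero h2 h2)
    have hβ : β = 0 := by
      have : β * 2 = 0 := by rw [hα] at eb; linear_combination eb
      exact (mul_eq_zero.1 this).resolve_right h2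
    have hr0 : r = 0 := by
      rw [hα, hβ] at hd'
      have : (2 : F) • r = 0 := by rw [← hd']; module
      exact (smul_eq_zero.1 this).resolve_left h2
    have hw0 : w' = 0 := by rw [hw', hα, hβ, hr0]; simp
    have hy1 : σ y = σ 1 := by
      rw [e, map_one]; exact (siegel_congr rfl hw0 hu hw1).trans (siegel_zero hu)
    rw [E.comm_congr rfl hy1, commutatorElement_one_right]
  · intro w hw
    obtain ⟨hw1, hw2⟩ := hproj w hw
    set t := w - polar Q f w • u
    obtain ⟨k1, k2, k3, k4⟩ := decomp3 E h2 hQ hn h3 hu hfr0 t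
    rw [hw1, hw2, zero_smul, zero_smul, sub_zero, sub_zero] at k1 k2 k3 k4
    set r := t - (polar Q a t * 2⁻¹) • a - (polar Q b t * 2⁻¹) • b with hr
    set s := polar Q a t * 2⁻¹
    set s' := polar Q b t * 2⁻¹
    have ht : t = s • a + s' • b + r := by rw [hr]; abel
    set p := (-(s + s') * 2⁻¹) • a + ((s - s') * 2⁻¹) • b + (-(2 : F)⁻¹) • r with hp
    have hup : polar Q u p = 0 := by simp [hp, polar_add_right, polar_smul_right, hua, hub, k1]
    obtain ⟨y, hy⟩ := E.exists_rootLift hu hup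
    refine ⟨⁅x, y⁆, ⟨y, ⟨p, hu, hup, hy⟩, rfl⟩, ?_⟩
    rw [hval y p hup hy, ← hsame w hw]
    refine siegel_congr rfl ?_ _ _
    show _ = t
    rw [hp, ap_add, ap_add, ap_smul, ap_smul, ap_smul, x3, x4, x5 r k1 k2 k3 k4, ht]
    match_scalars <;> field_simp <;> ring

/-- All complements coincide. -/
theorem comm_mem_complement {u : V} (hu : Q u = 0) (hu0 : u ≠ 0) {x x' : Γ} (hx : x ∈ turns σ u)
    (hx' : x' ∈ turns σ u) {y : Γ} (hy : IsRootLift σ u y) : ∃ z, IsRootLift σ u z ∧ ⁅x', y⁆ = ⁅x, z⁆ := by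
  -- the relation between two turns
  set R : Γ → Γ → Prop := fun p q =>
    {g | ∃ z, IsRootLift σ u z ∧ g = ⁅q, z⁆} = {g | ∃ z, IsRootLift σ u z ∧ g = ⁅p, z⁆} with hR
  suffices h : R x x' by
    have hy' : ⁅x', y⁆ ∈ ({g | ∃ z, IsRootLift σ u z ∧ g = ⁅x, z⁆} : Set Γ) := h ▸ ⟨y, hy, rfl⟩
    exact hy'
  have rcongr : ∀ p q, σ p = σ q → R p q := fun p q h => by
    simp only [hR]
    ext g
    simp only [Set.mem_setOf_eq, fun z => E.comm_congr (x := p) (x' := q) (y := z) (y' := z) h rfl]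
  have rsymm : ∀ p q, R p q → R q p := fun p q h => h.symm
  have rtrans : ∀ p q r, R p q → R q r → R p r := fun p q r h h' => h'.trans h
  have rcomm : ∀ p q, p ∈ turns σ u → q ∈ turns σ u → σ p * σ q = σ q * σ p → R p q := by
    intro p q hp hq hpq
    obtain ⟨Mp, hMp, tp, sp⟩ := exists_complement E h2 hQ hn h3 hu hu0 hp
    obtain ⟨Mq, hMq, -, sq⟩ := exists_complement E h2 hQ hn h3 hu hu0 hq
    obtain ⟨f, a, b, -, q1, -⟩ := hq
    have hle : ∀ g ∈ Mq, g ∈ Mp := by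
      intro g hg
      obtain ⟨z, hz, rfl⟩ := (hMq g).1 hg
      obtain ⟨w, _, hw, ez⟩ := hz
      obtain ⟨m, hm, em⟩ := sp w hw
      obtain ⟨z₁, hz₁, rfl⟩ := (hMp m).1 hm
      rw [E.comm_congr rfl (ez.trans em.symm), commutatorElement_def]
      refine mul_mem ?_ (inv_mem hm)
      have e : q * ⁅p, z₁⁆ * q⁻¹ = ⁅p, q * z₁ * q⁻¹⁆ := by
        refine Eq.trans ?_ (E.comm_congr (x := q * p * q⁻¹) (x' := p) (by
          rw [map_mul, map_mul, map_inv, ← hpq, mul_inv_cancel_right]) rfl)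
        simp only [commutatorElement_def]; group
      rw [e]
      exact (hMp _).2 ⟨_, (turn_lift E h2 hQ hn q1 hz₁).1, rfl⟩
    simp only [hR]
    ext g
    simp only [Set.mem_setOf_eq, ← hMp, ← hMq]
    refine ⟨hle g, fun hg => ?_⟩
    obtain ⟨z, hz, rfl⟩ := (hMp g).1 hg
    obtain ⟨f', a', b', -, p1, -⟩ := hp
    obtain ⟨w, _, hw, ew⟩ := (turn_lift E h2 hQ hn p1 hz).2
    obtain ⟨m, hm, em⟩ := sq w hw
    have := tp ((⁅p, z⁆)⁻¹ * m) (mul_mem (inv_mem hg) (hle m hm))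
      (by rw [map_mul, map_inv, ew, em, inv_mul_cancel])
    rw [inv_mul_eq_one] at this
    rw [this]; exact hm
  -- move to a common partner
  obtain ⟨f, a, b, hfr, hxt⟩ := id hx
  obtain ⟨f', a', b', hfr', hxt'⟩ := hx'
  obtain ⟨hwf, ef⟩ := siegel_sub_apply hu hfr.1 hfr'.1 hfr.2.1 hfr'.2.1
  obtain ⟨r, hr⟩ := E.exists_rootLift hu hwf
  have hru : ap (σ r) u = u := by
    rw [hr]; exact siegel_fix hu hwf (polar_singular_self hu) hwf
  have hrf : ap (σ r) f = f' := by rw [hr]; exact ef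
  have hrr : IsRootLift σ u r := ⟨_, hu, hwf, hr⟩
  set a₁ := ap (σ r)⁻¹ a'
  set b₁ := ap (σ r)⁻¹ b'
  have hfr₁ : IsFrame3 Q u f a₁ b₁ := by
    obtain ⟨g1, g2, g3, g4, g5, g6, g7, g8, g9⟩ := hfr'
    refine ⟨hfr.1, hfr.2.1, ?_, ?_, ?_, ?_, by rw [Q_ap, g7], by rw [Q_ap, g8], by rw [polar_ap, g9]⟩
    · rw [← polar_ap (σ r), hru, ap_ap_inv, g3]
    · rw [← polar_ap (σ r), hrf, ap_ap_inv, g4]
    · rw [← polar_ap (σ r), hru, ap_ap_inv, g5]
    · rw [← polar_ap (σ r), hrf, ap_ap_inv, g6]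
  have ht₁ : IsTurn σ u f a₁ b₁ (r⁻¹ * x' * r) := by
    obtain ⟨g1, g2, g3, g4, g5⟩ := hxt'
    have hu' : ap (σ r)⁻¹ u = u := by conv_lhs => rw [← hru, ap_inv_ap]
    have hf' : ap (σ r)⁻¹ f' = f := by rw [← hrf, ap_inv_ap]
    refine ⟨?_, ?_, ?_, ?_, fun w c1 c2 c3 c4 => ?_⟩ <;> rw [map_mul, map_mul, map_inv, ap_mul, ap_mul]
    · rw [hru, g1, ap_neg, hu']
    · rw [hrf, g2, ap_neg, hf']
    · rw [ap_ap_inv, g3]
    · rw [ap_ap_inv, g4, ap_neg]
    · rw [g5 _ ?_ ?_ ?_ ?_, ap_inv_ap]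
      · rw [← hru, polar_ap, c1]
      · rw [← hrf, polar_ap, c2]
      · rw [← ap_ap_inv (σ r) a', polar_ap, c3]
      · rw [← ap_ap_inv (σ r) b', polar_ap, c4]
  have r1 : R (r⁻¹ * x' * r) x' := by
    simp only [hR]
    ext g
    simp only [Set.mem_setOf_eq]
    have e : ∀ z, IsRootLift σ u z → ⁅r⁻¹ * x' * r, z⁆ = ⁅x', z⁆ := by
      intro z hz
      have hz' : r * z * r⁻¹ = z := by
        rw [rootLift_comm_of_turn E h2 hQ hn hu0 hrr hz, mul_inv_cancel_right]
      rw [show ⁅r⁻¹ * x' * r, z⁆ = r⁻¹ * ⁅x', r * z * r⁻¹⁆ * r by simp only [commutatorElement_def]; group, hz',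
        rootLift_comm_of_turn E h2 hQ hn hu0 hrr.inv (turn_lift E h2 hQ hn hxt'.1 hz).2, inv_mul_cancel_right]
    exact ⟨fun ⟨z, hz, h⟩ => ⟨z, hz, h.trans (e z hz).symm⟩, fun ⟨z, hz, h⟩ => ⟨z, hz, h.trans (e z hz)⟩⟩
  refine rtrans _ _ _ ?_ r1
  -- connect the planes
  have hp0 : IsHypPair Q (u, f) := ⟨hu, hfr.1, hfr.2.1⟩
  set S := (Sec.top Q).cut u f (Sec.mem_top u) (Sec.mem_top f) hp0
  have hS : ∀ v, S.Mem v ↔ polar Q u v = 0 ∧ polar Q f v = 0 := fun v => by
    simp only [S, Sec.mem_cut_iff]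
    exact ⟨fun h => ⟨h.1, h.2.1⟩, fun h => ⟨h.1, h.2, Sec.mem_top _⟩⟩
  have mk : ∀ p q, Q p = 1 → Q q = 1 → polar Q p q = 0 → S.Mem p → S.Mem q → IsFrame3 Q u f p q := by
    intro p q hp hq hpq mp mq
    obtain ⟨a1, a2⟩ := (hS p).1 mp
    obtain ⟨b1, b2⟩ := (hS q).1 mq
    exact ⟨hfr.1, hfr.2.1, a1, a2, b1, b2, hp, hq, hpq⟩
  -- the turn of a pair
  have stepA0 : ∀ p q q' xp xq, IsFrame3 Q u f p q → IsFrame3 Q u f p q' → polar Q q q' = 0 →
      IsTurn σ u f p q xp → IsTurn σ u f p q' xq → R xp xq := by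
    intro p q q' xp xq hp hq hqq' txp txq
    obtain ⟨-, -, p1, p2, q1, q2, qp, qq, hpq⟩ := id hp
    obtain ⟨-, -, -, -, s1, s2, -, qq', hpq'⟩ := id hq
    have mp : S.Mem p := (hS p).2 ⟨p1, p2⟩
    have mq : S.Mem q := (hS q).2 ⟨q1, q2⟩
    have mq' : S.Mem q' := (hS q').2 ⟨s1, s2⟩
    have np : Q p ≠ 0 := by rw [qp]; exact one_ne_zero
    have nq : Q q ≠ 0 := by rw [qq]; exact one_ne_zero
    have nq' : Q q' ≠ 0 := by rw [qq']; exact one_ne_zero
    have mq₁ : (secVec S h2 mp np).Mem q := (mem_secVec S h2 mp np q).2 ⟨hpq, mq⟩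
    have mq₂ : (secVec (secVec S h2 mp np) h2 mq₁ nq).Mem q' :=
      (mem_secVec _ h2 mq₁ nq q').2 ⟨hqq', (mem_secVec S h2 mp np q').2 ⟨hpq', mq'⟩⟩
    set S' := secVec (secVec (secVec S h2 mp np) h2 mq₁ nq) h2 mq₂ nq'
    obtain ⟨c, mc, qc⟩ := exists_value_two S' h2 hQ (by omega) (one_ne_zero (α := F))
    have nc : Q c ≠ 0 := by rw [qc]; exact one_ne_zero
    obtain ⟨d, md, qd⟩ := exists_value_two (secVec S' h2 mc nc) h2 hQ (by omega) (one_ne_zero (α := F))
    obtain ⟨hcd, md'⟩ := (mem_secVec S' h2 mc nc d).1 md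
    have perp : ∀ v, S'.Mem v → S.Mem v ∧ polar Q p v = 0 ∧ polar Q q v = 0 ∧ polar Q q' v = 0 := by
      intro v hv
      obtain ⟨h4, h5⟩ := (mem_secVec _ h2 mq₂ nq' v).1 hv
      obtain ⟨h6, h7⟩ := (mem_secVec _ h2 mq₁ nq v).1 h5
      obtain ⟨h8, h9⟩ := (mem_secVec S h2 mp np v).1 h7
      exact ⟨h9, h8, h6, h4⟩
    obtain ⟨sc, cp, cq, cq'⟩ := perp c mc
    obtain ⟨sd, dp, dq, dq'⟩ := perp d md'
    have hcdf := mk c d qc qd hcd sc sd
    obtain ⟨xc, txc⟩ := exists_turn E h2 hQ hn h3 hu hcdf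
    exact rtrans _ _ _
      (rcomm _ _ ⟨f, p, q, hp, txp⟩ ⟨f, c, d, hcdf, txc⟩ (turn_comm E h2 hQ hn h3 hu hp hcdf cp dp cq dq txp txc))
      (rsymm _ _ (rcomm _ _ ⟨f, p, q', hq, txq⟩ ⟨f, c, d, hcdf, txc⟩
        (turn_comm E h2 hQ hn h3 hu hq hcdf cp dp cq' dq' txq txc)))
  have stepA : ∀ p q q' xp xq, IsFrame3 Q u f p q → IsFrame3 Q u f p q' → IsTurn σ u f p q xp →
      IsTurn σ u f p q' xq → R xp xq := by
    intro p q q' xp xq hp hq txp txq
    obtain ⟨-, -, p1, p2, q1, q2, qp, qq, hpq⟩ := id hp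
    obtain ⟨-, -, -, -, s1, s2, -, qq', hpq'⟩ := id hq
    have mp : S.Mem p := (hS p).2 ⟨p1, p2⟩
    have mq : S.Mem q := (hS q).2 ⟨q1, q2⟩
    have mq' : S.Mem q' := (hS q').2 ⟨s1, s2⟩
    have np : Q p ≠ 0 := by rw [qp]; exact one_ne_zero
    have nq : Q q ≠ 0 := by rw [qq]; exact one_ne_zero
    have mq₁ : (secVec S h2 mp np).Mem q := (mem_secVec S h2 mp np q).2 ⟨hpq, mq⟩
    set S4 := secVec (secVec S h2 mp np) h2 mq₁ nq
    set q'' := q' - (polar Q q q' * 2⁻¹) • q with hq''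
    have mq'' : S4.Mem q'' := by
      refine (mem_secVec _ h2 mq₁ nq q'').2 ⟨?_, (mem_secVec S h2 mp np q'').2
        ⟨?_, S.mem_sub mq' (S.mem_smul _ mq)⟩⟩
      · rw [hq'', polar_sub_right, polar_smul_right, hp.polar_aa.2, smul_eq_mul]; field_simp; ring
      · rw [hq'', polar_sub_right, polar_smul_right, hpq', hpq]; simp
    obtain ⟨l, S', hl, hS'⟩ := exists_sec_perp S4 h2 hQ mq''
    obtain ⟨r, mr, qr⟩ := exists_value_two S' h2 hQ (by omega) (one_ne_zero (α := F))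
    obtain ⟨h4, h5⟩ := hS' r mr
    obtain ⟨hqr, h7⟩ := (mem_secVec _ h2 mq₁ nq r).1 h4
    obtain ⟨hpr, hrS⟩ := (mem_secVec S h2 mp np r).1 h7
    have hq'r : polar Q q' r = 0 := by
      rw [show q' = q'' + (polar Q q q' * 2⁻¹) • q by rw [hq'', sub_add_cancel], polar_add_left, h5,
        polar_smul_left, hqr, smul_zero, add_zero]
    have hfr' := mk p r qp qr hpr mp hrS
    obtain ⟨xr, txr⟩ := exists_turn E h2 hQ hn h3 hu hfr'
    exact rtrans _ _ _ (stepA0 p q r xp xr hp hfr' hqr txp txr)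
      (stepA0 p r q' xr xq hfr' hq (by rw [polar_comm, hq'r]) txr txq)
  have flip : ∀ p q xp xq, IsFrame3 Q u f p q → IsFrame3 Q u f q p → IsTurn σ u f p q xp → IsTurn σ u f q p xq →
      R xp xq := by
    intro p q xp xq hp hq txp txq
    refine rtrans _ xp⁻¹ _ (rcomm _ _ ⟨f, p, q, hp, txp⟩ ⟨f, q, p, hq, txp.inv⟩ (by rw [map_inv, mul_inv_cancel, inv_mul_cancel]))
      (rcongr _ _ (turn_congr E h2 hQ hn h3 hu hq txp.inv txq))
  obtain ⟨-, -, a1, a2, -, -, qa, -, -⟩ := id hfr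
  obtain ⟨-, -, c1, c2, -, -, qa₁, -, -⟩ := id hfr₁
  have ma : S.Mem a := (hS a).2 ⟨a1, a2⟩
  have ma₁ : S.Mem a₁ := (hS a₁).2 ⟨c1, c2⟩
  have na : Q a ≠ 0 := by rw [qa]; exact one_ne_zero
  set a₂ := a₁ - (polar Q a a₁ * 2⁻¹) • a with ha₂
  have ma₂ : (secVec S h2 ma na).Mem a₂ := by
    refine (mem_secVec S h2 ma na a₂).2 ⟨?_, S.mem_sub ma₁ (S.mem_smul _ ma)⟩
    rw [ha₂, polar_sub_right, polar_smul_right, hfr.polar_aa.1, smul_eq_mul]; field_simp; ring
  obtain ⟨l, S', hl, hS'⟩ := exists_sec_perp (secVec S h2 ma na) h2 hQ ma₂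
  obtain ⟨c, mc, qc⟩ := exists_value_two S' h2 hQ (by omega) (one_ne_zero (α := F))
  obtain ⟨h4, h5⟩ := hS' c mc
  obtain ⟨hac, mcS⟩ := (mem_secVec S h2 ma na c).1 h4
  have ha₁c : polar Q a₁ c = 0 := by
    rw [show a₁ = a₂ + (polar Q a a₁ * 2⁻¹) • a by rw [ha₂, sub_add_cancel], polar_add_left, h5, polar_smul_left,
      hac, smul_zero, add_zero]
  have fac := mk a c qa qc hac ma mcS
  have fca := mk c a qc qa (by rw [polar_comm, hac]) mcS ma
  have fca₁ := mk c a₁ qc qa₁ (by rw [polar_comm, ha₁c]) mcS ma₁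
  have fa₁c := mk a₁ c qa₁ qc ha₁c ma₁ mcS
  obtain ⟨y1, t1⟩ := exists_turn E h2 hQ hn h3 hu fac
  obtain ⟨y2, t2⟩ := exists_turn E h2 hQ hn h3 hu fca
  obtain ⟨y3, t3⟩ := exists_turn E h2 hQ hn h3 hu fca₁
  obtain ⟨y4, t4⟩ := exists_turn E h2 hQ hn h3 hu fa₁c
  exact rtrans _ _ _ (stepA a b c x y1 hfr fac hxt t1) <| rtrans _ _ _ (flip a c y1 y2 fac fca t1 t2) <|
    rtrans _ _ _ (stepA c a a₁ y2 y3 fca fca₁ t2 t3) <| rtrans _ _ _ (flip c a₁ y3 y4 fca₁ fa₁c t3 t4) <|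
      stepA a₁ c b₁ y4 _ fa₁c hfr₁ t4 ht₁

/-- Lifts exist over three elements in dimension at least eight. -/
theorem CExt.exists_lifts_three (hscalar : ∀ d : F, d = 0 ∨ d = 1 ∨ d = -1) : ∃ T : V → V → Γ, Lifts σ T := by
  refine E.exists_lifts_of h2 hQ (by omega) (canon3 σ) (fun u hu hu0 => ?_) ?_ ?_
  · obtain ⟨f, -, hp⟩ := (Sec.top Q).exists_partner hQ (Sec.mem_top u) hu hu0
    set S := (Sec.top Q).cut u f (Sec.mem_top u) (Sec.mem_top f) hp with hS
    obtain ⟨a, ma, qa⟩ := exists_value S hQ (by omega) (1 : F)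
    have na : Q a ≠ 0 := by rw [qa]; exact one_ne_zero
    obtain ⟨b, mb, qb⟩ := exists_value_two (secVec S h2 ma na) h2 hQ (by omega) (one_ne_zero (α := F))
    obtain ⟨hab, mbS⟩ := (mem_secVec S h2 ma na b).1 mb
    obtain ⟨a1, a2, -⟩ := (Sec.mem_cut_iff _ _ _ _ a).1 ma
    obtain ⟨b1, b2, -⟩ := (Sec.mem_cut_iff _ _ _ _ b).1 mbS
    have hfr : IsFrame3 Q u f a b := ⟨hp.2.1, hp.2.2, a1, a2, b1, b2, qa, qb, hab⟩
    obtain ⟨x, hx⟩ := exists_turn E h2 hQ hn h3 hu hfr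
    have hxt : x ∈ turns σ u := ⟨f, a, b, hfr, hx⟩
    obtain ⟨M, hM, tM, sM⟩ := exists_complement E h2 hQ hn h3 hu hu0 hxt
    have hle : canon3 σ u ≤ M := by
      rw [canon3, Subgroup.closure_le]
      rintro _ ⟨x', y, hx', hy, rfl⟩
      obtain ⟨z, hz, e⟩ := comm_mem_complement E h2 hQ hn h3 hu hu0 hxt hx' hy
      exact (hM _).2 ⟨z, hz, e⟩
    refine ⟨fun g hg => tM g (hle hg), fun w hw => ?_⟩
    obtain ⟨g, hg, e⟩ := sM w hw
    obtain ⟨y, hy, rfl⟩ := (hM g).1 hg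
    exact ⟨_, Subgroup.subset_closure ⟨x, y, hxt, hy, rfl⟩, fun _ => e⟩
  · intro γ u hu _ g hg
    have : canon3 σ u ≤ (canon3 σ (ap (σ γ) u)).comap (MulAut.conj γ).toMonoidHom := by
      rw [canon3, Subgroup.closure_le]
      rintro _ ⟨x, y, ⟨f, a, b, ⟨g1, g2, g3, g4, g5, g6, g7, g8, g9⟩, ⟨t1, t2, t3, t4, t5⟩⟩, ⟨z, hu1, hz, ey⟩, rfl⟩
      refine Subgroup.subset_closure ⟨γ * x * γ⁻¹, γ * y * γ⁻¹, ⟨ap (σ γ) f, ap (σ γ) a, ap (σ γ) b, ?_, ?_⟩,
        ⟨ap (σ γ) z, by rw [Q_ap, hu], by rw [polar_ap, hz], ?_⟩, ?_⟩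
      · refine ⟨?_, ?_, ?_, ?_, ?_, ?_, ?_, ?_, ?_⟩ <;> simp only [Q_ap, polar_ap, g1, g2, g3, g4, g5, g6, g7, g8, g9]
      · refine ⟨?_, ?_, ?_, ?_, fun w c1 c2 c3 c4 => ?_⟩ <;> rw [map_mul, map_mul, map_inv, ap_mul, ap_mul]
        · rw [ap_inv_ap, t1, ap_neg]
        · rw [ap_inv_ap, t2, ap_neg]
        · rw [ap_inv_ap, t3]
        · rw [ap_inv_ap, t4, ap_neg]
        · have tr : ∀ p, polar Q (ap (σ γ) p) w = 0 → polar Q p (ap (σ γ)⁻¹ w) = 0 := fun p h => by
            rw [← polar_ap (σ γ), ap_ap_inv, h]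
          rw [t5 _ (tr _ c1) (tr _ c2) (tr _ c3) (tr _ c4), ap_ap_inv]
      · rw [map_mul, map_mul, map_inv, ey, conj_siegel]
      · show MulAut.conj γ ⁅x, y⁆ = _
        rw [MulAut.conj_apply]; simp only [commutatorElement_def]; group
    have h' := this hg
    rwa [Subgroup.mem_comap, MulEquiv.coe_toMonoidHom, MulAut.conj_apply] at h'
  · intro d u hu _ hd
    rcases hscalar d with h | h | h
    · exact absurd h hd
    · rw [h, one_smul]
    · rw [h, neg_one_smul]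
      refine Subgroup.closure_mono ?_
      rintro _ ⟨x, y, ⟨f, a, b, ⟨g1, g2, g3, g4, g5, g6, g7, g8, g9⟩, ⟨t1, t2, t3, t4, t5⟩⟩, ⟨z, hu1, hz, ey⟩, rfl⟩
      simp only [polar_neg_left, neg_eq_zero] at g3 g5 hz
      refine ⟨x, y, ⟨-f, a, b, ⟨by rw [QuadraticMap.map_neg, g1], ?_, g3, ?_, g5, ?_, g7, g8, g9⟩,
        ⟨?_, by rw [ap_neg, t2, neg_neg], t3, t4, fun w c1 c2 c3 c4 => ?_⟩⟩,
        ⟨-z, hu, by rw [polar_neg_right, hz, neg_zero], ?_⟩, rfl⟩
      · rw [polar_neg_left] at g2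
        rw [polar_neg_right]; exact g2
      · rw [polar_neg_left, g4, neg_zero]
      · rw [polar_neg_left, g6, neg_zero]
      · have t1' := t1
        rw [ap_neg, neg_neg] at t1'
        rw [← neg_eq_iff_eq_neg]; exact t1'
      · rw [polar_neg_left, neg_eq_zero] at c2
        exact t5 w (by rw [polar_neg_left, c1, neg_zero]) c2 c3 c4
      · rw [ey]
        refine Eq.trans (siegel_congr (u' := (-1 : F) • u) (neg_one_smul F u).symm rfl _ _) ?_
        refine Eq.trans (siegel_smul hu hz (-1)) ?_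
        exact siegel_congr rfl (neg_one_smul F _) _ _

end

end CfsgLib.OrthMult
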