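import Cfsg.Agent.Lib.OrthMult.MinusBound
import Cfsg.Agent.Lib.OrthMult.SpinOrth
import Cfsg.Agent.Lib.OrthMult.Three
import Cfsg.Agent.Lib.SchurMult.PerfectCover
import Cfsg.Agent.Lib.ClassicalForms.Ortho.Values
import Cfsg.Agent.Lib.ClassK.OrthPlusMult.Final
import Mathlib.LinearAlgebra.BilinearForm.Orthogonal
import Mathlib.FieldTheory.Finite.Basic
import Mathlib.NumberTheory.LegendreSymbol.QuadraticChar.Basic

/-!
The Schur multiplier of the orthogonal groups of minus type in odd characteristic.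
-/

set_option autoImplicit false
set_option linter.unusedSectionVars false

namespace CfsgLib.OrthMult

open QuadraticMap CfsgLib.ClassicalForms Module
open CfsgLib.ClassK.OrthPlusMult (comap_center_le stem_perfect card_comap)
open scoped commutatorElement

universe u

variable {F : Type u} [Field F]

section products

variable {V : Type*} [AddCommGroup V] [Module F V] [Finite F] [FiniteDimensional F V]
  {Q : QuadraticForm F V}

/-- An orthonormal family. -/
structure UnitFam {α : Type*} (Q : QuadraticForm F V) (v : α → V) : Prop where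
  one : ∀ i, Q (v i) = 1
  orth : ∀ i j, i ≠ j → polar Q (v i) (v j) = 0

theorem UnitFam.ne_zero {α : Type*} {v : α → V} (h : UnitFam Q v) (i : α) : Q (v i) ≠ 0 := by
  rw [h.one]; exact one_ne_zero

/-- The product of two reflections of a family. -/
abbrev rr {α : Type*} {v : α → V} (h : UnitFam Q v) (i j : α) : ClassicalForms.orth Q :=
  refl Q (v i) (h.ne_zero i) * refl Q (v j) (h.ne_zero j)

theorem rr_mem {α : Type*} {v : α → V} (h : UnitFam Q v) (hQ : Nondeg Q) (hn : 5 ≤ finrank F V) (i j : α) :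
    rr h i j ∈ siegelGroup Q := by
  have := refl_div_mem_siegelGroup hQ hn (h.ne_zero i) (h.ne_zero j) ⟨1, by rw [h.one, h.one]; simp⟩
  rwa [ClassicalForms.refl_inv] at this

theorem refl_comm_fam {α : Type*} {v : α → V} (h : UnitFam Q v) (i j : α) :
    Commute (refl Q (v i) (h.ne_zero i)) (refl Q (v j) (h.ne_zero j)) := by
  by_cases e : i = j
  · subst e; exact Commute.refl _
  · exact ClassicalForms.refl_comm _ _ (h.orth i j e)

theorem rr_commute {α : Type*} {v : α → V} (h : UnitFam Q v) (i j k l : α) : Commute (rr h i j) (rr h k l) :=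
  ((refl_comm_fam h i k).mul_right (refl_comm_fam h i l)).mul_left
    ((refl_comm_fam h j k).mul_right (refl_comm_fam h j l))

theorem rr_swap {α : Type*} {v : α → V} (h : UnitFam Q v) (i j : α) : rr h i j = rr h j i :=
  (refl_comm_fam h i j).eq

theorem rr_trans {α : Type*} {v : α → V} (h : UnitFam Q v) (i j k : α) : rr h i j * rr h i k = rr h j k := by
  rw [rr_swap h i j]
  simp only [rr, mul_assoc]
  rw [← mul_assoc (refl Q (v i) _), refl_mul_self, one_mul]

variable {Δ : Type*} [Group Δ] {ρ : Δ →* ClassicalForms.orth Q}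

/-- The hypotheses on a double cover. -/
structure Double (ρ : Δ →* ClassicalForms.orth Q) (z₀ : Δ) : Prop where
  ext : CExt ρ
  nondeg : Nondeg Q
  dim : 7 ≤ finrank F V
  z₀_ker : ρ z₀ = 1
  ker : ∀ k, ρ k = 1 → k = 1 ∨ k = z₀
  z₀_ne : z₀ ≠ 1
  noncomm : ∀ (v₁ v₂ v₃ : V) (n₁ : Q v₁ ≠ 0) (n₂ : Q v₂ ≠ 0) (n₃ : Q v₃ ≠ 0), Q v₁ = 1 → Q v₂ = 1 → Q v₃ = 1 →
    polar Q v₁ v₂ = 0 → polar Q v₁ v₃ = 0 → polar Q v₂ v₃ = 0 → ∀ x y : Δ,
    ρ x = refl Q v₁ n₁ * refl Q v₂ n₂ → ρ y = refl Q v₁ n₁ * refl Q v₃ n₃ → ¬ Commute x y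

namespace Double

variable {z₀ : Δ} (D : Double ρ z₀) (h2 : (2 : F) ≠ 0)
include D

theorem z₀_central (g : Δ) : g * z₀ = z₀ * g :=
  Subgroup.mem_center_iff.1 (D.ext.central D.z₀_ker) g

theorem z₀_sq : z₀ * z₀ = 1 := by
  rcases D.ker (z₀ * z₀) (by rw [map_mul, D.z₀_ker, one_mul]) with e | e
  · exact e
  · exact absurd (mul_eq_left.1 e) D.z₀_ne

theorem anticomm {α : Type*} {v : α → V} (h : UnitFam Q v) {i j k : α} (hij : i ≠ j) (hik : i ≠ k) (hjk : j ≠ k)
    {x y : Δ} (hx : ρ x = rr h i j) (hy : ρ y = rr h i k) : x * y = z₀ * (y * x) := by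
  have hk : ρ ⁅x, y⁆ = 1 := by
    rw [map_commutatorElement, hx, hy, commutatorElement_eq_one_iff_commute]
    exact rr_commute h i j i k
  rcases D.ker _ hk with e | e
  · exact absurd (commutatorElement_eq_one_iff_commute.1 e)
      (D.noncomm _ _ _ _ _ _ (h.one i) (h.one j) (h.one k) (h.orth i j hij) (h.orth i k hik) (h.orth j k hjk) x y hx hy)
  · rw [← e, commutatorElement_def]; group

include h2 in
theorem sq_eq {α : Type*} {v : α → V} (h : UnitFam Q v) {i j k : α} (hij : i ≠ j) (hik : i ≠ k) (hjk : j ≠ k)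
    {x : Δ} (hx : ρ x = rr h i j) : x * x = z₀ := by
  have hn5 : 5 ≤ finrank F V := by have := D.dim; omega
  obtain ⟨y, hy⟩ := D.ext.exists_lift (rr_mem h D.nondeg hn5 i k)
  have nd : ∀ {a b : α}, a ≠ b → Q (v a - v b) ≠ 0 := fun {a b} e => by
    rw [map_sub_eq, h.one, h.one, h.orth a b e, sub_zero, one_add_one_eq_two]; exact h2
  set g := refl Q (v i - v j) (nd hij) * refl Q (v j - v k) (nd hjk) with hg
  have hgm : g ∈ siegelGroup Q := by
    have := refl_div_mem_siegelGroup D.nondeg hn5 (nd hij) (nd hjk) ⟨1, by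
      rw [map_sub_eq, h.one, h.one, h.orth i j hij, map_sub_eq, h.one, h.one, h.orth j k hjk]
      simp [one_add_one_eq_two, h2]⟩
    rwa [ClassicalForms.refl_inv] at this
  have sw : ∀ {a b : α} (e : a ≠ b), ap (refl Q (v a - v b) (nd e)) (v a) = v b ∧
      ap (refl Q (v a - v b) (nd e)) (v b) = v a := fun {a b} e => by
    have e1 := refl_sub_apply ((h.one a).trans (h.one b).symm) (nd e)
    refine ⟨e1, ?_⟩
    have e2 := congrArg (ap (refl Q (v a - v b) (nd e))) e1
    rw [← ap_mul, refl_mul_self, ap_one] at e2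
    exact e2.symm
  have fx : ∀ {a b c : α} (e : a ≠ b), c ≠ a → c ≠ b → ap (refl Q (v a - v b) (nd e)) (v c) = v c :=
    fun {a b c} e e1 e2 => refl_fix _ (by rw [polar_sub_right, h.orth c a e1, h.orth c b e2, sub_zero])
  have gi : ap g (v i) = v j := by rw [hg, ap_mul, fx hjk hij hik, (sw hij).1]
  have gj : ap g (v j) = v k := by rw [hg, ap_mul, (sw hjk).1, fx hij hik.symm hjk.symm]
  have gk : ap g (v k) = v i := by rw [hg, ap_mul, (sw hjk).2, (sw hij).2]
  obtain ⟨γ, hγ⟩ := D.ext.exists_lift hgm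
  have conj : ∀ {a b c d : α} {w : Δ}, ρ w = rr h a b → ap g (v a) = v c → ap g (v b) = v d →
      ∀ w', ρ w' = rr h c d → w' * w' = w * w := by
    intro a b c d w hw ha hb w' hw'
    have e : ρ (γ * w * γ⁻¹) = rr h c d := by
      rw [map_mul, map_mul, map_inv, hγ, hw, rr, rr,
        show g * (refl Q (v a) (h.ne_zero a) * refl Q (v b) (h.ne_zero b)) * g⁻¹ =
          g * refl Q (v a) (h.ne_zero a) * g⁻¹ * (g * refl Q (v b) (h.ne_zero b) * g⁻¹) by group,
        ClassicalForms.conj_refl, ClassicalForms.conj_refl, ClassicalForms.refl_congr ha,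
        ClassicalForms.refl_congr hb]
    have hk : ρ ((γ * w * γ⁻¹)⁻¹ * w') = 1 := by rw [map_mul, map_inv, e, hw', inv_mul_cancel]
    have hs : ρ (w * w) = 1 := by
      rw [map_mul, hw, rr_trans h]
      exact refl_mul_self _ _
    have hwc : γ * (w * w) * γ⁻¹ = w * w := by
      rw [Subgroup.mem_center_iff.1 (D.ext.central hs) γ, mul_inv_cancel_right]
    obtain ⟨k', hk', rfl⟩ : ∃ k', (k' = 1 ∨ k' = z₀) ∧ w' = γ * w * γ⁻¹ * k' :=
      ⟨_, D.ker _ hk, by group⟩
    rw [← hwc]
    rcases hk' with rfl | rfl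
    · group
    · calc γ * w * γ⁻¹ * k' * (γ * w * γ⁻¹ * k') = γ * w * γ⁻¹ * (γ * w * γ⁻¹) * (k' * k') := by
            rw [mul_assoc _ k', ← mul_assoc k', ← D.z₀_central]; group
        _ = γ * (w * w) * γ⁻¹ := by rw [D.z₀_sq]; group
  obtain ⟨u, hu⟩ := D.ext.exists_lift (rr_mem h D.nondeg hn5 j k)
  have e1 : u * u = x * x := conj hx gi gj u hu
  have e2 : y * y = u * u := conj hu gj gk y (hy.trans (rr_swap h i k))
  have hs : ρ (x * x) = 1 := by
    rw [map_mul, hx, rr_trans h]
    exact refl_mul_self _ _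
  have e3 : x * y * (x * y) = x * x := by
    rcases D.ker ((x * y)⁻¹ * u) (by rw [map_mul, map_inv, map_mul, hx, hy, hu, rr_trans, inv_mul_cancel]) with e | e
    · rw [inv_mul_eq_one] at e; rw [e, e1]
    · rw [inv_mul_eq_iff_eq_mul] at e
      rw [← e1, e, mul_assoc _ z₀, ← mul_assoc z₀, ← D.z₀_central, mul_assoc _ z₀, D.z₀_sq, mul_one]
  have e4 : x * y * (x * y) = z₀ * (x * x) * (x * x) := by
    calc x * y * (x * y) = x * (y * (x * y)) := by group
      _ = x * (y * (z₀ * (y * x))) := by rw [D.anticomm h hij hik hjk hx hy]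
      _ = x * (y * z₀) * y * x := by group
      _ = x * z₀ * (y * y) * x := by rw [D.z₀_central]; group
      _ = z₀ * x * (x * x) * x := by rw [D.z₀_central, e2.trans e1]
      _ = z₀ * (x * x) * (x * x) := by group
  have h' : z₀ * (x * x) = 1 := mul_eq_right.1 (e4.symm.trans e3)
  rw [← mul_right_inj z₀, h', D.z₀_sq]

include h2 in
/-- The product of the lifts of pairs of a family. -/
theorem exists_prod {N : ℕ} (hN : 2 ≤ N) {v : Fin N × Fin 2 → V} (h : UnitFam Q v) (s : Finset (Fin N)) :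
    ∃ z : Δ, z * z = z₀ ^ s.card ∧
      (∀ i ∉ s, ∀ x, ρ x = rr h (i, 0) (i, 1) → Commute z x) ∧
      (∀ p : Fin N × Fin 2, ap (ρ z) (v p) = if p.1 ∈ s then -v p else v p) := by
  classical
  induction s using Finset.induction with
  | empty => exact ⟨1, by simp, fun i _ x _ => Commute.one_left x, fun p => by simp [map_one, ap_one]⟩
  | @insert t s ht ih =>
    obtain ⟨z, hz, hzc, hza⟩ := ih
    obtain ⟨w, hw⟩ := D.ext.exists_lift (rr_mem h D.nondeg (by have := D.dim; omega) (t, (0 : Fin 2)) (t, 1))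
    have : Nontrivial (Fin N) := Fin.nontrivial_iff_two_le.2 hN
    obtain ⟨t', ht'⟩ := exists_ne t
    have hww : w * w = z₀ := D.sq_eq h2 h (i := (t, 0)) (j := (t, 1)) (k := (t', 0)) (by simp)
      (by simp [ht'.symm]) (by simp) hw
    have hcz : Commute z w := hzc t ht w hw
    refine ⟨z * w, ?_, ?_, ?_⟩
    · rw [Finset.card_insert_of_notMem ht, pow_succ, ← hz, ← hww, mul_assoc, ← mul_assoc w, ← hcz.eq]
      group
    · intro i hi x hx
      rw [Finset.mem_insert, not_or] at hi
      refine (hzc i hi.2 x hx).mul_left ?_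
      obtain ⟨a, ha⟩ := D.ext.exists_lift (rr_mem h D.nondeg (by have := D.dim; omega) (t, (0 : Fin 2)) (i, 0))
      obtain ⟨b, hb⟩ := D.ext.exists_lift (rr_mem h D.nondeg (by have := D.dim; omega) (t, (0 : Fin 2)) (i, 1))
      have hab : Commute w (a * b) := by
        have ea := D.anticomm h (i := (t, 0)) (j := (t, 1)) (k := (i, 0)) (by simp) (by simp [Ne.symm hi.1]) (by simp) hw ha
        have eb := D.anticomm h (i := (t, 0)) (j := (t, 1)) (k := (i, 1)) (by simp) (by simp) (by simp [Ne.symm hi.1]) hw hb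
        show w * (a * b) = a * b * w
        calc w * (a * b) = w * a * b := by group
          _ = z₀ * a * (w * b) := by rw [ea]; group
          _ = z₀ * (a * z₀) * (b * w) := by rw [eb]; group
          _ = z₀ * z₀ * (a * b * w) := by rw [D.z₀_central]; group
          _ = a * b * w := by rw [D.z₀_sq, one_mul]
      rcases D.ker ((a * b)⁻¹ * x) (by rw [map_mul, map_inv, map_mul, ha, hb, hx, rr_trans, inv_mul_cancel]) with e | e
      · rw [inv_mul_eq_one] at e; rwa [← e]
      · rw [inv_mul_eq_iff_eq_mul] at e; rw [e]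
        exact hab.mul_right (D.z₀_central w)
    · intro p
      rw [map_mul, ap_mul, hw]
      rcases eq_or_ne p.1 t with e | e
      · have hp : p = (t, 0) ∨ p = (t, 1) := by
          obtain ⟨p1, p2⟩ := p
          subst e
          fin_cases p2 <;> simp
        have hr : ap (rr h (t, 0) (t, 1)) (v p) = -v p := by
          rw [ap_mul]
          rcases hp with rfl | rfl
          · show ap (refl Q _ _) (ap (refl Q _ _) _) = _
            rw [show ap (refl Q (v (t, 1)) (h.ne_zero (t, 1))) (v (t, 0)) = v (t, 0) from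
              refl_fix _ (h.orth _ _ (by simp))]
            exact refl_self _ _
          · show ap (refl Q _ _) (ap (refl Q _ _) _) = _
            rw [show ap (refl Q (v (t, 1)) (h.ne_zero (t, 1))) (v (t, 1)) = -v (t, 1) from refl_self _ _, ap_neg,
              show ap (refl Q (v (t, 0)) (h.ne_zero (t, 0))) (v (t, 1)) = v (t, 1) from
              refl_fix _ (h.orth _ _ (by simp))]
        rw [hr, ap_neg, hza, if_neg (e ▸ ht), if_pos (e ▸ Finset.mem_insert_self t s)]
      · have hr : ap (rr h (t, 0) (t, 1)) (v p) = v p := by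
          rw [ap_mul]
          show ap (refl Q _ _) (ap (refl Q _ _) _) = _
          have h1 : p ≠ (t, 0) := fun q => e (by rw [q])
          have h3 : p ≠ (t, 1) := fun q => e (by rw [q])
          rw [show ap (refl Q (v (t, 1)) (h.ne_zero (t, 1))) (v p) = v p from refl_fix _ (h.orth _ _ h3)]
          exact refl_fix _ (h.orth _ _ h1)
        rw [hr, hza]
        simp [Finset.mem_insert, e]

end Double

end products

/-- An orthonormal basis of the form of minus type with `m` even over a field without a root of `-1`. -/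
theorem exists_unitFam [Finite F] (h2 : (2 : F) ≠ 0) (hns : ¬ IsSquare (-1 : F)) {m : ℕ} (hm : Even m)
    {a b : F} (hab : Aniso a b) :
    ∃ v : Fin (m + 1) × Fin 2 → VMinus F m, UnitFam (qMinus m F a b) v := by
  classical
  have := Fintype.ofFinite F
  obtain ⟨k, hk⟩ := hm
  have hchar : ringChar F ≠ 2 := by
    intro e
    have : CharP F 2 := e ▸ ringChar.charP F
    exact h2 (CharP.cast_eq_zero F 2)
  obtain ⟨s, t, hst⟩ : ∃ s t : F, s * s + t * t = -1 := by
    obtain ⟨s, t, e⟩ := FiniteField.exists_root_sum_quadratic (R := F) (f := Polynomial.X ^ 2)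
      (g := Polynomial.X ^ 2 + Polynomial.C 1) (Polynomial.degree_X_pow 2)
      (Polynomial.degree_X_pow_add_C two_pos 1) (FiniteField.odd_card_of_char_ne_two hchar)
    refine ⟨s, t, ?_⟩
    simp at e
    linear_combination e
  have hd : ¬ IsSquare (a * a - 4 * b) := by
    rintro ⟨d, hd⟩
    have h0 : binForm a b ![d - a, 2] = 0 := by
      rw [binForm_apply]; simp; linear_combination -hd
    exact h2 (by simpa using congrFun (hab.eq_zero h0) 1)
  obtain ⟨r, hr⟩ : IsSquare (4 * b - a * a) := by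
    have hne : 4 * b - a * a ≠ 0 := disc_ne_zero h2 hab
    have hne' : a * a - 4 * b ≠ 0 := fun e => hne (by linear_combination -e)
    rw [← quadraticChar_one_iff_isSquare hne, show 4 * b - a * a = (-1) * (a * a - 4 * b) by ring, map_mul,
      quadraticChar_neg_one_iff_not_isSquare.2 hns, quadraticChar_neg_one_iff_not_isSquare.2 hd]
    norm_num
  have hr0 : r ≠ 0 := fun e => disc_ne_zero h2 hab (by rw [hr, e, zero_mul])
  let par : Fin m → Fin m := fun j =>
    if hj : Even j.1 then ⟨j.1 + 1, by rcases hj with ⟨i, hi⟩; have := j.2; omega⟩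
    else ⟨j.1 - 1, by have := j.2; omega⟩
  let c : Fin m → F := fun j => if Even j.1 then t else -t
  have par2 : ∀ j, par (par j) = j := fun j => by
    refine Fin.ext ?_
    by_cases hj : Even j.1
    · have h' : ¬ Even (j.1 + 1) := by simp [parity_simps, hj]
      simp [par, hj, h']
    · obtain ⟨i, hi⟩ := Nat.not_even_iff_odd.1 hj
      have h' : Even (j.1 - 1) := ⟨i, by omega⟩
      simp [par, hj, h']
      omega
  have parne : ∀ j, par j ≠ j := fun j e => by
    have := congrArg Fin.val e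
    by_cases hj : Even j.1
    · simp [par, hj] at this
    · obtain ⟨i, hi⟩ := Nat.not_even_iff_odd.1 hj
      simp [par, hj] at this
      omega
  have cpar : ∀ j, c (par j) = -c j := fun j => by
    by_cases hj : Even j.1
    · have h' : ¬ Even (j.1 + 1) := by simp [parity_simps, hj]
      simp [par, c, hj, h']
    · obtain ⟨i, hi⟩ := Nat.not_even_iff_odd.1 hj
      have h' : Even (j.1 - 1) := ⟨i, by omega⟩
      simp [par, c, hj, h']
  let hv : Fin m → Fin m → F := fun j i => (if i = j then s else 0) + (if i = par j then c j else 0)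
  have hdot : ∀ j j', ∑ i, hv j i * hv j' i = if j = j' then -1 else 0 := by
    intro j j'
    simp only [hv, add_mul, mul_add, Finset.sum_add_distrib, ite_mul, mul_ite, zero_mul, mul_zero,
      Finset.sum_ite_eq', Finset.mem_univ, if_true]
    by_cases e : j = j'
    · subst e
      simp only [if_true, if_neg (parne j), if_neg (parne j).symm, add_zero, zero_add]
      rcases (by simp only [c]; split_ifs <;> [left; right] <;> rfl : c j = t ∨ c j = -t) with e' | e' <;>
        rw [e'] <;> linear_combination hst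
    · have e1 : par j' ≠ par j := fun q => e (by rw [← par2 j, ← q, par2])
      rw [if_neg e, if_neg (Ne.symm e), if_neg e1]
      by_cases e2 : j' = par j
      · have e3 : par j' = j := by rw [e2, par2]
        rw [if_pos e2, if_pos e3, e2, cpar]; ring
      · have e3 : par j' ≠ j := fun q => e2 (by rw [← q, par2])
        rw [if_neg e2, if_neg e3]; ring
  let v : Fin (m + 1) × Fin 2 → VMinus F m := fun p =>
    if hp : p.1.1 < m then
      Sum.elim (if p.2 = 0 then Sum.elim (fun i => if i = ⟨p.1.1, hp⟩ then 1 else 0) (fun i => if i = ⟨p.1.1, hp⟩ then 1 else 0)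
        else Sum.elim (hv ⟨p.1.1, hp⟩) (fun i => -hv ⟨p.1.1, hp⟩ i)) 0
    else Sum.elim 0 (if p.2 = 0 then ![1, 0] else ![-a * r⁻¹, 2 * r⁻¹])
  have key : ∀ p p', polar (qMinus m F a b) (v p) (v p') = if p = p' then 2 else 0 := by
    rintro ⟨i, e⟩ ⟨i', e'⟩
    rw [polar_qMinus]
    by_cases hi : i.1 < m <;> by_cases hi' : i'.1 < m
    · have hJ : i = i' ↔ (⟨i.1, hi⟩ : Fin m) = ⟨i'.1, hi'⟩ := by simp [Fin.ext_iff]
      simp only [v, dif_pos hi, dif_pos hi']
      generalize (⟨i.1, hi⟩ : Fin m) = J at hJ ⊢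
      generalize (⟨i'.1, hi'⟩ : Fin m) = J' at hJ ⊢
      by_cases hJJ : J = J'
      · have hii := hJ.2 hJJ
        subst hJJ
        subst hii
        fin_cases e <;> fin_cases e' <;> simp [Finset.sum_add_distrib, hdot] <;> ring
      · have hii : i ≠ i' := fun q => hJJ (hJ.1 q)
        fin_cases e <;> fin_cases e' <;> simp [Finset.sum_add_distrib, hdot, hJJ, Ne.symm hJJ, hii]
    · have : i ≠ i' := fun q => hi' (q ▸ hi)
      simp only [v, dif_pos hi, dif_neg hi']
      fin_cases e <;> fin_cases e' <;> simp [this]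
    · have : i ≠ i' := fun q => hi (q ▸ hi')
      simp only [v, dif_neg hi, dif_pos hi']
      fin_cases e <;> fin_cases e' <;> simp [this]
    · have : i = i' := Fin.ext (by omega)
      subst this
      simp only [v, dif_neg hi]
      fin_cases e <;> fin_cases e' <;> simp
      · ring
      · ring
      · field_simp
        linear_combination hr
  refine ⟨v, fun p => ?_, fun p p' hp => by rw [key, if_neg hp]⟩
  have := key p p
  rw [polar_self_mul, if_pos rfl] at this
  exact mul_left_cancel₀ h2 (this.trans (mul_one 2).symm)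

/-- The multiplier in odd characteristic. -/
theorem hasCyclicSchurMultiplier_qMinus_odd [Finite F] (h2 : (2 : F) ≠ 0) (hodd : Odd (Nat.card F)) {m : ℕ}
    (hm : 3 ≤ m) {a b : F} (hab : Aniso a b) :
    Cfsg.HasCyclicSchurMultiplier (Cfsg.POmega F (Cfsg.quadFormMinus m F a b))
      (Nat.gcd 4 (Nat.card F ^ (m + 1) + 1)) := by
  classical
  have := Fintype.ofFinite F
  set Q := qMinus m F a b with hQdef
  set q := Nat.card F with hq
  set d := q ^ (m + 1) + 1 with hd
  have hQ : Nondeg Q := nondeg_qMinus hab m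
  have hn : 8 ≤ finrank F ((Fin m ⊕ Fin m) ⊕ Fin 2 → F) := by rw [finrank_qMinus]; omega
  have hc5 : 5 ≤ Fintype.card ((Fin m ⊕ Fin m) ⊕ Fin 2) := by simp; omega
  have hS : commutator (ClassicalForms.orth Q) = siegelGroup Q := commutator_qMinus hab (by omega)
  have hlift : ∀ {Γ : Type u} [Group Γ] [Finite Γ] (σ : Γ →* ClassicalForms.orth Q), CExt σ → ∃ T, Lifts σ T := by
    intro Γ _ _ σ E
    by_cases hc : ∃ c : F, c ≠ 0 ∧ c * c ≠ 1
    · obtain ⟨c, hc0, hc1⟩ := hc
      exact E.exists_lifts h2 hQ (by omega) hc0 hc1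
    · simp only [not_exists, not_and, not_not] at hc
      have hsc : ∀ x : F, x = 0 ∨ x = 1 ∨ x = -1 := fun x =>
        (eq_or_ne x 0).imp_right fun h => mul_self_eq_one_iff.1 (hc x h)
      have h3 : (2 : F) = -1 := by
        rcases hsc 2 with h | h | h
        · exact absurd h h2
        · exact absurd (by linear_combination h : (1 : F) = 0) one_ne_zero
        · exact h
      exact E.exists_lifts_three h2 hQ hn h3 hsc
  have bound : ∀ {Γ : Type u} [Group Γ] [Finite Γ] (σ : Γ →* ClassicalForms.orth Q), CExt σ → Nat.card σ.ker ≤ 2 :=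
    fun {Γ} _ _ σ E => card_ker_le_two_minus h2 hodd hm hab σ E (hlift σ E)
  obtain ⟨Δ, _, _, ρ, E, hnc⟩ := exists_spin_cext Q h2 hQ (by omega) hS
  -- three orthonormal vectors
  have hvec : ∀ k : Fin m, Q (Sum.elim (Sum.elim (fun i => if i = k then 1 else 0) fun i => if i = k then 1 else 0)
      (0 : Fin 2 → F)) = 1 := fun k => by
    simp [hQdef, qMinus_apply, Cfsg.quadFormMinus, Cfsg.quadFormPlus]
  let v3 : Fin 3 → VMinus F m := fun k =>
    Sum.elim (Sum.elim (fun i => if i = ⟨k.1, by omega⟩ then 1 else 0) fun i => if i = ⟨k.1, by omega⟩ then 1 else 0)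
      (0 : Fin 2 → F)
  have hfam : UnitFam Q v3 := ⟨fun k => hvec _, fun j k hjk => by
    simp only [hQdef, polar_qMinus, v3]
    have h1 : (⟨j.1, by omega⟩ : Fin m) ≠ ⟨k.1, by omega⟩ := fun q => hjk (Fin.ext (Fin.mk.inj q))
    generalize (⟨j.1, _⟩ : Fin m) = J at h1 ⊢
    generalize (⟨k.1, _⟩ : Fin m) = K at h1 ⊢
    simp [Finset.sum_add_distrib, h1, Ne.symm h1]⟩
  obtain ⟨x, hx⟩ := E.exists_lift (rr_mem hfam hQ (by omega) 0 1)
  obtain ⟨y, hy⟩ := E.exists_lift (rr_mem hfam hQ (by omega) 0 2)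
  have hnxy := hnc _ _ _ _ _ _ (hfam.one 0) (hfam.one 1) (hfam.one 2) (hfam.orth 0 1 (by decide))
    (hfam.orth 0 2 (by decide)) (hfam.orth 1 2 (by decide)) x y hx hy
  have hzk : ⁅x, y⁆ ∈ ρ.ker := by
    rw [MonoidHom.mem_ker, map_commutatorElement, hx, hy, commutatorElement_eq_one_iff_commute]
    exact rr_commute hfam 0 1 0 2
  have hne : (⟨⁅x, y⁆, hzk⟩ : ρ.ker) ≠ 1 := fun h =>
    hnxy (commutatorElement_eq_one_iff_commute.1 (congrArg Subtype.val h))
  have : Nontrivial ρ.ker := ⟨_, _, hne⟩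
  have hk2 : Nat.card ρ.ker = 2 := le_antisymm (bound ρ E) Finite.one_lt_card
  have D : Double ρ ⁅x, y⁆ := by
    refine ⟨E, hQ, by omega, hzk, fun k hk => ?_, fun h => hne (Subtype.ext h), hnc⟩
    by_contra hh
    rw [not_or] at hh
    have := Fintype.ofFinite ρ.ker
    have h3 : 3 ≤ Nat.card ρ.ker := by
      rw [Nat.card_eq_fintype_card]
      refine le_trans (le_of_eq ?_) (Finset.card_le_univ {(1 : ρ.ker), ⟨⁅x, y⁆, hzk⟩, ⟨k, hk⟩})
      rw [Finset.card_eq_three.2 ⟨_, _, _, Ne.symm hne, fun e => hh.1 (congrArg Subtype.val e).symm,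
        fun e => hh.2 (congrArg Subtype.val e).symm, rfl⟩]
    omega
  -- the map to `PΩ`
  let S := siegelGroup Q
  let φ : Cfsg.POmega F (Cfsg.quadFormMinus m F a b) ≃* S ⧸ Subgroup.center S :=
    pOmegaEquiv Q (qMinus_apply m a b) hS
  let ρ₀ : Δ →* S := ρ.codRestrict _ fun z => E.range_eq.le ⟨z, rfl⟩
  have h₀s : Function.Surjective ρ₀ := fun g => by
    obtain ⟨z, hz⟩ := E.exists_lift g.2
    exact ⟨z, Subtype.ext hz⟩
  have h₀k : ρ₀.ker = ρ.ker := by
    ext z
    rw [MonoidHom.mem_ker, MonoidHom.mem_ker, ← Subtype.coe_inj]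
    rfl
  let τ := φ.symm.toMonoidHom.comp ((QuotientGroup.mk' (Subgroup.center S)).comp ρ₀)
  have hτk : τ.ker = (Subgroup.center S).comap ρ₀ := by
    ext z
    rw [MonoidHom.mem_ker, MonoidHom.comp_apply, MulEquiv.coe_toMonoidHom, EmbeddingLike.map_eq_one_iff,
      MonoidHom.comp_apply, QuotientGroup.mk'_apply, QuotientGroup.eq_one_iff, Subgroup.mem_comap]
  have hτc : τ.ker ≤ Subgroup.center Δ := hτk ▸ comap_center_le (h₀k ▸ E.central) E.perfect
  have htriv : ∀ (Γ : Type u) [Group Γ] [Finite Γ] (ρ' : Γ →* Δ), Cfsg.IsStemExtension ρ' → ρ'.ker = ⊥ := by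
    intro Γ _ _ ρ' hρ'
    have hΓ := stem_perfect hρ' E.perfect
    have hker : (ρ.comp ρ').ker = ρ.ker.comap ρ' := rfl
    have E' : CExt (ρ.comp ρ') := ⟨by
        rw [MonoidHom.range_comp, MonoidHom.range_eq_top.2 hρ'.1, ← MonoidHom.range_eq_map, E.range_eq],
      fun g hg => comap_center_le hρ'.2.1 hΓ (Subgroup.mem_comap.2 (E.central hg)), hΓ⟩
    have h := bound _ E'
    rw [hker, card_comap hρ'.1, hk2] at h
    have hpos : 0 < Nat.card ρ'.ker := Nat.card_pos
    exact Subgroup.card_eq_one.1 (by omega)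
  have hcard : Nat.card τ.ker = 2 * if negI Q ∈ S then 2 else 1 := by
    rw [hτk, card_comap h₀s, h₀k, hk2, card_center_siegelGroup h2 hQ hc5]
  obtain ⟨k, hk⟩ := hodd
  have hev : Even d := by
    refine Nat.even_add_one.2 ?_
    rw [Nat.not_even_iff_odd]
    exact (show Odd q from ⟨k, hk⟩).pow
  obtain ⟨r, hr⟩ := hev
  have hiff : negI Q ∈ S ↔ 4 ∣ d := by
    rw [negI_mem_iff h2 hQ hc5 (isGen_qMinus hab m), card_one_qMinus hab m, ← hq, ← hd,
      show q ^ m * d / 2 = q ^ m * r by rw [hr, ← two_mul, mul_left_comm, Nat.mul_div_cancel_left _ two_pos],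
      Nat.even_mul]
    have h1 : Even (Fintype.card ((Fin m ⊕ Fin m) ⊕ Fin 2)) := ⟨m + 1, by simp; omega⟩
    have h3 : ¬ Even (q ^ m) := Nat.not_even_iff_odd.2 (show Odd q from ⟨k, hk⟩).pow
    simp only [h1, h3, true_and, false_or]
    constructor
    · rintro ⟨i, hi⟩; exact ⟨i, by omega⟩
    · rintro ⟨i, hi⟩; exact ⟨i, by omega⟩
  refine CfsgLib.SchurMult.hasCyclicSchurMultiplier_of_cover τ
    (φ.symm.surjective.comp ((QuotientGroup.mk'_surjective _).comp h₀s)) hτc E.perfect htriv ?_ ?_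
  swap
  · rw [hcard]
    by_cases h : negI Q ∈ S
    · rw [if_pos h, Nat.gcd_eq_left (hiff.1 h)]
    · rw [if_neg h]
      have h4 : ¬ 4 ∣ d := fun e => h (hiff.2 e)
      rw [Nat.gcd_rec, show d % 4 = 2 by omega, mul_one]; rfl
  by_cases h : negI Q ∈ S
  swap
  · rw [if_neg h] at hcard
    have : Fact (Nat.Prime 2) := ⟨Nat.prime_two⟩
    exact isCyclic_of_prime_card (p := 2) hcard
  rw [if_pos h] at hcard
  have h4 := hiff.1 h
  have hmod : q % 4 = 3 ∧ Even m := by
    have hqm : q % 4 = 1 ∨ q % 4 = 3 := by omega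
    have hp : q ^ (m + 1) % 4 = 3 := by omega
    rcases hqm with e | e
    · rw [Nat.pow_mod, e, one_pow] at hp; omega
    · refine ⟨e, ?_⟩
      rcases Nat.even_or_odd m with hev | ⟨i, hi⟩
      · exact hev
      · rw [show m + 1 = 2 * (i + 1) by omega, pow_mul, Nat.pow_mod, Nat.pow_mod q 2, e] at hp
        norm_num at hp
  have hns : ¬ IsSquare (-1 : F) := by
    rw [FiniteField.isSquare_neg_one_iff, ← Nat.card_eq_fintype_card, ← hq]
    omega
  obtain ⟨v, hv⟩ := exists_unitFam h2 hns hmod.2 hab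
  obtain ⟨z, hz, -, hza⟩ := D.exists_prod h2 (N := m + 1) (by omega) hv Finset.univ
  have hσz : ρ z = negI Q := by
    have hli : LinearIndependent F v := by
      refine LinearMap.BilinForm.linearIndependent_of_iIsOrtho (B := QuadraticMap.polarBilin Q) ?_ fun p => ?_
      · intro p p' hp
        exact hv.orth p p' hp
      · show polar Q (v p) (v p) ≠ 0
        rw [polar_self_mul, hv.one, mul_one]; exact h2
    have hsp := hli.span_eq_top_of_card_eq_finrank (by rw [finrank_qMinus]; simp; omega)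
    have he : ((ρ z : VMinus F m ≃ₗ[F] VMinus F m) : VMinus F m →ₗ[F] VMinus F m) = -LinearMap.id := by
      refine LinearMap.ext_on hsp ?_
      rintro _ ⟨p, rfl⟩
      have := hza p
      rw [if_pos (Finset.mem_univ _)] at this
      exact this
    exact orth_ext fun w => by
      rw [negI_apply]
      exact LinearMap.congr_fun he w
  have hzm : z ∈ τ.ker := by
    rw [hτk, Subgroup.mem_comap]
    have e : ρ₀ z = ⟨negI Q, h⟩ := Subtype.ext hσz
    rw [e]; exact negI_mem_center h
  have hz2 : z * z ≠ 1 := by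
    rw [hz, Finset.card_univ, Fintype.card_fin]
    obtain ⟨i, hi⟩ := hmod.2
    rw [show m + 1 = 2 * i + 1 by omega, pow_succ, pow_mul, pow_two, D.z₀_sq, one_pow, one_mul]
    exact D.z₀_ne
  have hord : orderOf z = 4 := by
    have h4 : z ^ 4 = 1 := by
      have := pow_card_eq_one' (x := (⟨z, hzm⟩ : τ.ker))
      rw [hcard] at this
      exact congrArg Subtype.val this
    refine orderOf_eq_prime_pow (p := 2) (n := 1) ?_ h4
    rw [pow_one, pow_two]; exact hz2
  exact isCyclic_of_orderOf_eq_card ⟨z, hzm⟩ (by rw [← Subgroup.orderOf_coe, hord, hcard])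

end CfsgLib.OrthMult
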