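import Cfsg.Agent.Lib.OrthMult.Cells

/-!
Restriction of lifts to the orthogonal complement of an anisotropic vector of a frame.
-/

set_option autoImplicit false
set_option linter.unusedSectionVars false

namespace CfsgLib.OrthMult

open QuadraticMap CfsgLib.ClassicalForms Module
open scoped commutatorElement

variable {F V : Type*} [Field F] [AddCommGroup V] [Module F V] [Finite F] [FiniteDimensional F V]
  {Q : QuadraticForm F V} {Γ : Type*} [Group Γ] {σ : Γ →* orth Q} {T : V → V → Γ}

/-- The image of a lift on a vector. -/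
theorem Lifts.ap_T (L : Lifts σ T) {u w : V} (hu : Q u = 0) (hw : polar Q u w = 0) (x : V) :
    ap (σ (T u w)) x = x + polar Q x u • w - (polar Q x w + Q w * polar Q x u) • u := by
  rw [L.map u w hu hw]; rfl

/-- In odd characteristic and dimension at least seven the lifts are products of commutators. -/
theorem Lifts.mem_commutator (L : Lifts σ T) (h2 : (2 : F) ≠ 0) (hQ : Nondeg Q) (hn : 7 ≤ finrank F V)
    {a b : V} (hQa : Q a = 0) (hab : polar Q a b = 0) : T a b ∈ commutator Γ := by
  have hcomm : ∀ x y : Γ, ⁅x, y⁆ ∈ commutator Γ := fun x y =>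
    Subgroup.commutator_mem_commutator (Subgroup.mem_top x) (Subgroup.mem_top y)
  have key : ∀ a b, Q a = 0 → Q b = 0 → polar Q a b = 0 → ∀ r, polar Q a r = 0 → polar Q b r = 0 →
      T a ((2 * Q r) • b) ∈ commutator Γ := by
    intro a b hQa hQb hab r har hbr
    have hba : polar Q b a = 0 := by rw [polar_comm, hab]
    have h1 : ap (σ (T a r)) b = b := by rw [L.ap_T hQa har]; simp [hba, hbr]
    have h2' : ap (σ (T a r)) r = r + -(2 * Q r) • a := by
      rw [L.ap_T hQa har, polar_comm Q r a, har, polar_self_mul]; simp [sub_eq_add_neg]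
    have hb1 : polar Q b (-(2 * Q r) • a) = 0 := by rw [polar_smul_right, hba, smul_zero]
    have h3 : polar Q a ((2 * Q r) • b) = 0 := by rw [polar_smul_right, hab, smul_zero]
    have e : ⁅T a r, T b r⁆ = T b (-(2 * Q r) • a) := by
      rw [commutatorElement_def, L.equiv _ b r hQb hbr, h1, h2', add_comm r, ← L.add b _ _ hQb hb1 hbr,
        mul_inv_cancel_right]
    have e' : T b (-(2 * Q r) • a) = T a ((2 * Q r) • b) := by
      rw [← L.swap a _ hQa h3 (by simp [QuadraticMap.map_smul, hQb]),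
        L.smul (2 * Q r) b _ hQb (by rw [polar_neg_right, hba, neg_zero]), smul_neg, neg_smul]
    rw [← e', ← e]; exact hcomm _ _
  by_cases ha0 : a = 0
  · rw [ha0, L.left_zero]; exact one_mem _
  obtain ⟨z, -, hp⟩ := (Sec.top Q).exists_partner hQ (Sec.mem_top a) hQa ha0
  set S := (Sec.top Q).cut a z (Sec.mem_top a) (Sec.mem_top z) hp with hS
  set b' := b - polar Q z b • a with hb'
  have hza : polar Q z a = 1 := by rw [polar_comm]; exact hp.2.2
  have hab' : polar Q a b' = 0 := by
    rw [hb', polar_sub_right, hab, polar_smul_right, polar_singular_self hQa, smul_zero, sub_zero]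
  have hzb' : polar Q z b' = 0 := by
    rw [hb', polar_sub_right, polar_smul_right, hza, smul_eq_mul, mul_one, sub_self]
  have hbS : S.Mem b' := (Sec.mem_cut_iff _ _ _ hp b').2 ⟨hab', hzb', Sec.mem_top _⟩
  have sing : ∀ c, S.Mem c → Q c = 0 → T a c ∈ commutator Γ := by
    intro c hc hQc
    obtain ⟨hac, -, -⟩ := (Sec.mem_cut_iff _ _ _ hp c).1 hc
    by_cases hc0 : c = 0
    · rw [hc0, L.right_zero hQa]; exact one_mem _
    obtain ⟨y, hy, hpy⟩ := S.exists_partner hQ hc hQc hc0
    obtain ⟨r, hr, hQr⟩ := exists_mem_ne_zero_value (S.cut c y hc hy hpy) hQ (by omega)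
    obtain ⟨hcr, -, hrS⟩ := (Sec.mem_cut_iff S hc hy hpy r).1 hr
    obtain ⟨har, -, -⟩ := (Sec.mem_cut_iff _ _ _ hp r).1 hrS
    have hs : (2 * Q r) ≠ 0 := mul_ne_zero h2 hQr
    have h := key a ((2 * Q r)⁻¹ • c) hQa (by simp [QuadraticMap.map_smul, hQc])
      (by rw [polar_smul_right, hac, smul_zero]) r har (by rw [polar_smul_left, hcr, smul_zero])
    rwa [smul_smul, mul_inv_cancel₀ hs, one_smul] at h
  rw [show b = b' + polar Q z b • a by rw [hb', sub_add_cancel], L.add_smul _ a b' hQa hab']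
  by_cases hb0 : b' = 0
  · rw [hb0, L.right_zero hQa]; exact one_mem _
  obtain ⟨s, hs, hQs, hsb⟩ := S.exists_singular_polar_one hQ (by omega) hbS hb0
  obtain ⟨has, -, -⟩ := (Sec.mem_cut_iff _ _ _ hp s).1 hs
  have h1 : polar Q a (Q b' • s) = 0 := by rw [polar_smul_right, has, smul_zero]
  have h2' : polar Q a (b' - Q b' • s) = 0 := by rw [polar_sub_right, hab', h1, sub_zero]
  rw [show b' = (b' - Q b' • s) + Q b' • s by rw [sub_add_cancel], ← L.add a _ _ hQa h2' h1]
  refine mul_mem (sing _ (S.mem_sub hbS (S.mem_smul _ hs)) ?_)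
    (sing _ (S.mem_smul _ hs) (by simp [QuadraticMap.map_smul, hQs]))
  simp [map_sub_eq, QuadraticMap.map_smul, hQs, polar_smul_right, polar_comm Q b' s, hsb]

/-- The group generated by the lifts in the image of a map. -/
def liftSub {W : Type*} [AddCommGroup W] [Module F W] (Q : QuadraticForm F V) (T : V → V → Γ) (j : W →ₗ[F] V) :
    Subgroup Γ :=
  Subgroup.closure {g | ∃ x y, Q (j x) = 0 ∧ polar Q (j x) (j y) = 0 ∧ g = T (j x) (j y)}

/-- Restriction of the lifts to the orthogonal complement of a vector of the frame. -/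
theorem Frame.exists_restrict {e f : V} (C : Frame σ T e f) (h2 : (2 : F) ≠ 0) {W : Type*} [AddCommGroup W]
    [Module F W] [FiniteDimensional F W] {Q' : QuadraticForm F W} (hQ' : Nondeg Q') (hW : 7 ≤ finrank F W)
    (j : W →ₗ[F] V) (hj : Function.Injective j) {c : F} (hc : c ≠ 0) (hQj : ∀ x, Q (j x) = c * Q' x)
    {a : V} (haj : ∀ x, polar Q a (j x) = 0) (hspan : ∀ v, ∃ (t : F) (x : W), v = t • a + j x)
    (hperp : ∀ v, polar Q a v = 0 → ∃ x, j x = v) (hmid : ∀ v, Mid Q e f v → ∃ x, j x = v) :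
    ∃ (σ' : liftSub Q T j →* orth Q') (T' : W → W → liftSub Q T j), CExt σ' ∧ Lifts σ' T' ∧
      Nat.card σ.ker = Nat.card σ'.ker := by
  classical
  have L := C.lifts
  have hpj : ∀ x y, polar Q (j x) (j y) = c * polar Q' x y := fun x y => by
    simp only [polar, ← map_add, hQj]; ring
  have hfa : ∀ l ∈ liftSub Q T j, ap (σ l) a = a := by
    intro l hl
    induction hl using Subgroup.closure_induction with
    | mem g hg =>
      obtain ⟨x, y, h1, h3, rfl⟩ := hg
      rw [L.ap_T h1 h3]; simp [haj]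
    | one => rw [map_one, ap_one]
    | mul g h _ _ hg hh => rw [map_mul, ap_mul, hh, hg]
    | inv g _ hg => rw [map_inv]; conv_lhs => rw [← hg, ap_inv_ap]
  have hact : ∀ (l : liftSub Q T j) (x : W), ∃ y, j y = ap (σ l) (j x) := fun l x => hperp _ (by
    rw [← hfa l l.2, polar_ap, haj])
  choose act hact using hact
  have hadd : ∀ l x y, act l (x + y) = act l x + act l y := fun l x y => hj (by
    rw [map_add, hact, hact, hact, map_add, ap_add])
  have hsm : ∀ l (d : F) x, act l (d • x) = d • act l x := fun l d x => hj (by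
    rw [map_smul, hact, hact, map_smul, ap_smul])
  have hmul : ∀ l m x, act (l * m) x = act l (act m x) := fun l m x => hj (by
    rw [hact, hact, hact, Subgroup.coe_mul, map_mul, ap_mul])
  have hone : ∀ x, act 1 x = x := fun x => hj (by rw [hact, Subgroup.coe_one, map_one, ap_one])
  let mk : liftSub Q T j → orth Q' := fun l =>
    ⟨{ toFun := act l
       invFun := act l⁻¹
       map_add' := hadd l
       map_smul' := hsm l
       left_inv := fun x => by rw [← hmul, inv_mul_cancel, hone]
       right_inv := fun x => by rw [← hmul, mul_inv_cancel, hone] }, by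
      rw [mem_orth]
      intro x
      show Q' (act l x) = Q' x
      have h := hQj (act l x)
      rw [hact, Q_ap, hQj] at h
      exact (mul_left_cancel₀ hc h).symm⟩
  let σ' : liftSub Q T j →* orth Q' :=
    { toFun := mk
      map_one' := ap_ext fun x => hone x
      map_mul' := fun l m => ap_ext fun x => hmul l m x }
  have hσ' : ∀ l x, j (ap (σ' l) x) = ap (σ l) (j x) := hact
  have hQc : ∀ {x}, Q' x = 0 → Q (j x) = 0 := fun h => by rw [hQj, h, mul_zero]
  have hpc : ∀ {x y}, polar Q' x y = 0 → polar Q (j x) (c⁻¹ • j y) = 0 := fun h => by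
    rw [polar_smul_right, hpj, h, mul_zero, smul_zero]
  let T' : W → W → liftSub Q T j := fun x y =>
    if h : Q' x = 0 ∧ polar Q' x y = 0 then
      ⟨T (j x) (c⁻¹ • j y), Subgroup.subset_closure ⟨x, c⁻¹ • y, hQc h.1,
        by rw [map_smul]; exact hpc h.2, by rw [map_smul]⟩⟩
    else 1
  have hT' : ∀ x y, Q' x = 0 → polar Q' x y = 0 → (T' x y : Γ) = T (j x) (c⁻¹ • j y) := fun x y h1 h3 => by
    simp only [T', dif_pos (And.intro h1 h3)]
  have hmap : ∀ (x y : W) (hx : Q' x = 0) (hy : polar Q' x y = 0), σ' (T' x y) = siegel Q' x y hx hy := by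
    intro x y hx hy
    refine ap_ext fun z => hj ?_
    rw [hσ', hT' x y hx hy, L.ap_T (hQc hx) (hpc hy), ap_siegel, map_sub, map_add, LinearMap.map_smul j, LinearMap.map_smul j,
      polar_smul_right, hpj, hpj, QuadraticMap.map_smul, hQj]
    simp only [smul_eq_mul]
    match_scalars <;> field_simp
  have hL' : Lifts σ' T' := by
    refine ⟨hmap, ?_, ?_, ?_, ?_, ?_⟩
    · intro x y y' hx hy hy'
      have hs : polar Q' x (y + y') = 0 := by rw [polar_add_right, hy, hy', add_zero]
      refine Subtype.ext ?_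
      rw [Subgroup.coe_mul, hT' x y hx hy, hT' x y' hx hy', hT' x _ hx hs, map_add, smul_add,
        L.add _ _ _ (hQc hx) (hpc hy) (hpc hy')]
    · intro l x y hx hy
      refine Subtype.ext ?_
      rw [Subgroup.coe_mul, Subgroup.coe_mul, Subgroup.coe_inv, hT' x y hx hy,
        hT' _ _ (by rw [Q_ap, hx]) (by rw [polar_ap, hy]), hσ', hσ',
        L.equiv _ _ _ (hQc hx) (hpc hy), ap_smul]
    · intro d x y hx hy
      have h1 : Q' (d • x) = 0 := by simp [QuadraticMap.map_smul, hx]
      have h3 : polar Q' (d • x) y = 0 := by simp [polar_smul_left, hy]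
      have h4 : polar Q' x (d • y) = 0 := by simp [polar_smul_right, hy]
      refine Subtype.ext ?_
      rw [hT' _ y h1 h3, hT' x _ hx h4, map_smul, map_smul, L.smul d _ _ (hQc hx) (hpc hy), smul_comm]
    · intro d x y hx hy
      have h1 : polar Q' x (y + d • x) = 0 := by
        rw [polar_add_right, hy, polar_smul_right, polar_singular_self hx, smul_zero, add_zero]
      refine Subtype.ext ?_
      rw [hT' x _ hx h1, hT' x y hx hy, map_add, map_smul, smul_add, smul_smul,
        L.add_smul _ _ _ (hQc hx) (hpc hy)]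
    · intro x y hx hxy hy
      have hyx : polar Q' y (-x) = 0 := by rw [polar_neg_right, polar_comm, hxy, neg_zero]
      refine Subtype.ext ?_
      rw [hT' y _ hy hyx, hT' x y hx hxy, map_neg,
        ← L.smul c⁻¹ (j y) (-j x) (hQc hy) (by rw [← map_neg, hpj, hyx, mul_zero])]
      exact L.swap _ _ (hQc hx) (hpc hxy) (by rw [QuadraticMap.map_smul, hQc hy, smul_zero])
  have hfix : ∀ l : liftSub Q T j, σ' l = 1 → σ l = 1 := fun l hl => ap_ext fun v => by
    obtain ⟨t, x, rfl⟩ := hspan v
    rw [ap_one, ap_add, ap_smul, hfa l l.2, ← hσ', hl, ap_one]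
  have hker : ∀ l : liftSub Q T j, l ∈ σ'.ker ↔ (l : Γ) ∈ σ.ker := fun l => by
    rw [MonoidHom.mem_ker, MonoidHom.mem_ker]
    refine ⟨hfix l, fun h => ap_ext fun x => hj ?_⟩
    rw [hσ', h, ap_one, ap_one]
  have hgen : ∀ l : liftSub Q T j, ∀ P : Subgroup (liftSub Q T j),
      (∀ x y, Q' x = 0 → polar Q' x y = 0 → T' x y ∈ P) → l ∈ P := by
    rintro ⟨l, hl⟩ P hP
    induction hl using Subgroup.closure_induction with
    | mem g hg =>
      obtain ⟨x, y, h1, h3, rfl⟩ := hg
      rw [hQj, mul_eq_zero, or_iff_right hc] at h1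
      rw [hpj, mul_eq_zero, or_iff_right hc] at h3
      have h4 : polar Q' x (c • y) = 0 := by rw [polar_smul_right, h3, smul_zero]
      convert hP x (c • y) h1 h4 using 1
      refine Subtype.ext ?_
      rw [hT' x _ h1 h4, map_smul, smul_smul, inv_mul_cancel₀ hc, one_smul]
    | one => exact one_mem P
    | mul g h hg hh ig ih => exact mul_mem (a := (⟨g, hg⟩ : liftSub Q T j)) (b := ⟨h, hh⟩) ig ih
    | inv g hg ig => exact inv_mem (x := (⟨g, hg⟩ : liftSub Q T j)) ig
  refine ⟨σ', T', ⟨?_, ?_, ?_⟩, hL', ?_⟩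
  · refine le_antisymm ?_ ?_
    · rintro _ ⟨l, rfl⟩
      exact hgen l ((siegelGroup Q').comap σ') fun x y hx hy => by
        rw [Subgroup.mem_comap, hmap x y hx hy]; exact siegel_mem_siegelGroup hx hy
    · refine (Subgroup.closure_le _).2 ?_
      rintro _ ⟨x, y, hx, hy, rfl⟩
      exact ⟨T' x y, hmap x y hx hy⟩
  · intro l hl
    rw [Subgroup.mem_center_iff]
    exact fun m => Subtype.ext (Subgroup.mem_center_iff.1 (C.ext.central ((hker l).1 hl)) m)
  · exact eq_top_iff.2 fun l _ => hgen l _ fun x y hx hy => hL'.mem_commutator h2 hQ' hW hx hy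
  · have hle : σ.ker ≤ liftSub Q T j := by
      refine C.ker_le_levi.trans ((Subgroup.closure_le _).2 ?_)
      rintro _ ⟨p, r, hp, hr, hQp, hpr, rfl⟩
      obtain ⟨x, rfl⟩ := hmid p hp
      obtain ⟨y, rfl⟩ := hmid r hr
      exact Subgroup.subset_closure ⟨x, y, hQp, hpr, rfl⟩
    refine Nat.card_congr ⟨fun k => ⟨⟨k.1, hle k.2⟩, (hker _).2 k.2⟩,
      fun k => ⟨k.1.1, (hker _).1 k.2⟩, fun _ => rfl, fun _ => rfl⟩

end CfsgLib.OrthMult
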