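import Cfsg.Agent.Lib.OrthMult.Cells

/-!
Descent to the orthogonal complement of a hyperbolic pair.
-/

set_option autoImplicit false
set_option linter.unusedSectionVars false

namespace CfsgLib.OrthMult

open QuadraticMap CfsgLib.ClassicalForms Module
open scoped commutatorElement

variable {F V : Type*} [Field F] [AddCommGroup V] [Module F V] [Finite F] [FiniteDimensional F V]
  {Q : QuadraticForm F V} {Γ : Type*} [Group Γ] {σ : Γ →* orth Q} {T : V → V → Γ} {e f : V}

namespace Frame

variable (C : Frame σ T e f)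
include C

/-- The short relation: lifts along orthogonal singular vectors with an anisotropic second entry. -/
theorem short_comm {a b r : V} (hQa : Q a = 0) (hQb : Q b = 0) (hab : polar Q a b = 0)
    (har : polar Q a r = 0) (hbr : polar Q b r = 0) :
    ⁅T a r, T b r⁆ = T a ((2 * Q r) • b) := by
  have hba : polar Q b a = 0 := by rw [polar_comm, hab]
  have h1 : ap (σ (T a r)) b = b := C.sT_fix hQa har hba hbr
  have h2 : ap (σ (T a r)) r = r + -(2 * Q r) • a := by
    rw [C.sT hQa har, polar_comm Q r a, har, polar_self_mul]; simp [sub_eq_add_neg, smul_smul]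
  have hb1 : polar Q b (-(2 * Q r) • a) = 0 := by rw [polar_smul_right, hba, smul_zero]
  have h3 : polar Q a ((2 * Q r) • b) = 0 := by rw [polar_smul_right, hab, smul_zero]
  rw [commutatorElement_def, C.lifts.equiv _ b r hQb hbr, h1, h2, add_comm r,
    ← C.lifts.add b _ _ hQb hb1 hbr, mul_inv_cancel_right, ← C.lifts.smul _ b a hQb hba,
    ← C.lifts.swap a _ hQa h3 (by simp [QuadraticMap.map_smul, hQb])]
  conv_rhs => rw [show -a = (-1 : F) • a by rw [neg_one_smul], C.lifts.smul (2 * Q r) b _ hQb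
    (by rw [polar_smul_right, hba, smul_zero]), smul_smul, mul_neg, mul_one]
  rw [C.lifts.smul _ b a hQb hba]

/-- The middle group is perfect in odd characteristic. -/
theorem levi_le_commutator (h2 : (2 : F) ≠ 0) :
    levi Q T e f ≤ ⁅levi Q T e f, levi Q T e f⁆ := by
  have hn := C.seven
  have key : ∀ a b, Mid Q e f a → Mid Q e f b → Q a = 0 → Q b = 0 → polar Q a b = 0 → a ≠ 0 →
      b ≠ 0 → ∀ z, Mid Q e f z → Q z = 0 → polar Q a z = 1 → polar Q z b = 0 →
      T a b ∈ ⁅levi Q T e f, levi Q T e f⁆ := by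
    intro a b ha hb hQa hQb hab ha0 hb0 z hz hQz haz hzb
    have hp : IsHypPair Q (a, z) := ⟨hQa, hQz, haz⟩
    set S' := C.sec.cut a z (C.mem_sec.2 ha) (C.mem_sec.2 hz) hp with hS'
    have hbS : S'.Mem b := (Sec.mem_cut_iff _ _ _ hp b).2 ⟨hab, hzb, C.mem_sec.2 hb⟩
    obtain ⟨y, hy, hpy⟩ := S'.exists_partner C.nondeg hbS hQb hb0
    obtain ⟨r, hr, hQr⟩ := exists_mem_ne_zero_value (S'.cut b y hbS hy hpy) C.nondeg (by omega)
    obtain ⟨hbr, -, hrS⟩ := (Sec.mem_cut_iff S' hbS hy hpy r).1 hr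
    obtain ⟨har, -, hrm⟩ := (Sec.mem_cut_iff _ _ _ hp r).1 hrS
    have hrm' := C.mem_sec.1 hrm
    have hs : (2 * Q r) ≠ 0 := mul_ne_zero h2 hQr
    set b' := (2 * Q r)⁻¹ • b with hb'
    have hb'm := C.mid_smul (2 * Q r)⁻¹ hb
    have hQb' : Q b' = 0 := by simp [hb', QuadraticMap.map_smul, hQb]
    have hab' : polar Q a b' = 0 := by rw [hb', polar_smul_right, hab, smul_zero]
    have hb'r : polar Q b' r = 0 := by rw [hb', polar_smul_left, hbr, smul_zero]
    have h := C.short_comm hQa hQb' hab' har hb'r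
    rw [hb', smul_smul, mul_inv_cancel₀ hs, one_smul] at h
    rw [← h]
    exact Subgroup.commutator_mem_commutator (C.T_mem_levi ha hrm' hQa har)
      (C.T_mem_levi hb'm hrm' hQb' hb'r)
  refine (Subgroup.closure_le _).2 ?_
  rintro _ ⟨a, b, ha, hb, hQa, hab, rfl⟩
  by_cases ha0 : a = 0
  · rw [ha0, C.lifts.left_zero]; exact one_mem _
  obtain ⟨z, hz, hQz, haz⟩ := C.partner ha hQa ha0
  have hp : IsHypPair Q (a, z) := ⟨hQa, hQz, haz⟩
  set b' := b - polar Q z b • a with hb'
  have hza : polar Q z a = 1 := by rw [polar_comm, haz]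
  have hb'm : Mid Q e f b' := C.mid_sub hb (C.mid_smul _ ha)
  have hab' : polar Q a b' = 0 := by
    rw [hb', polar_sub_right, hab, polar_smul_right, polar_singular_self hQa, smul_zero, sub_zero]
  have hzb' : polar Q z b' = 0 := by
    rw [hb', polar_sub_right, polar_smul_right, hza, smul_eq_mul, mul_one, sub_self]
  rw [show b = b' + polar Q z b • a by rw [hb', sub_add_cancel], C.lifts.add_smul _ a b' hQa hab']
  have key' : ∀ c, Mid Q e f c → Q c = 0 → polar Q a c = 0 → polar Q z c = 0 →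
      T a c ∈ ⁅levi Q T e f, levi Q T e f⁆ := fun c hc hQc hac hzc => by
    by_cases hc0 : c = 0
    · rw [hc0, C.lifts.right_zero hQa]; exact one_mem _
    · exact key a c ha hc hQa hQc hac ha0 hc0 z hz hQz haz hzc
  by_cases hb0 : b' = 0
  · rw [hb0, C.lifts.right_zero hQa]; exact one_mem _
  obtain ⟨s, hs, hQs, hsb⟩ := (C.sec.cut a z (C.mem_sec.2 ha) (C.mem_sec.2 hz) hp).exists_singular_polar_one
    C.nondeg (by omega) ((Sec.mem_cut_iff _ _ _ hp b').2 ⟨hab', hzb', C.mem_sec.2 hb'm⟩) hb0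
  obtain ⟨has, hzs, hsS⟩ := (Sec.mem_cut_iff C.sec _ _ hp s).1 hs
  have hsm := C.mem_sec.1 hsS
  have h1 : polar Q a (Q b' • s) = 0 := by rw [polar_smul_right, has, smul_zero]
  have h1z : polar Q z (Q b' • s) = 0 := by rw [polar_smul_right, hzs, smul_zero]
  have h2' : polar Q a (b' - Q b' • s) = 0 := by rw [polar_sub_right, hab', h1, sub_zero]
  rw [show b' = (b' - Q b' • s) + Q b' • s by rw [sub_add_cancel],
    ← C.lifts.add a _ _ hQa h2' h1]
  refine mul_mem (key' _ (C.mid_sub hb'm (C.mid_smul _ hsm)) ?_ h2' (by rw [polar_sub_right, hzb', h1z, sub_zero]))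
    (key' _ (C.mid_smul _ hsm) (by simp [QuadraticMap.map_smul, hQs]) h1 h1z)
  simp [map_sub_eq, QuadraticMap.map_smul, hQs, polar_smul_right, polar_comm Q b' s, hsb]

/-- Descent: the middle group extends the Siegel group of the complement, with the same kernel and with
lifts. -/
theorem exists_descent (h2 : (2 : F) ≠ 0) {W : Type*} [AddCommGroup W] [Module F W]
    {Q' : QuadraticForm F W} (j : W →ₗ[F] V) (hj : Function.Injective j) (hQj : ∀ x, Q (j x) = Q' x)
    (hjmem : ∀ x, Mid Q e f (j x)) (hjsurj : ∀ v, Mid Q e f v → ∃ x, j x = v) :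
    ∃ (σ' : levi Q T e f →* orth Q') (T' : W → W → levi Q T e f), CExt σ' ∧ Lifts σ' T' ∧
      Nat.card σ.ker = Nat.card σ'.ker := by
  classical
  have hpj : ∀ x y, polar Q (j x) (j y) = polar Q' x y := fun x y => by
    simp only [polar, ← map_add, hQj]
  have hact : ∀ (l : levi Q T e f) (x : W), ∃ y, j y = ap (σ l) (j x) :=
    fun l x => hjsurj _ ((C.levi_fix l.2).2.2 _ (hjmem x))
  choose act hact using hact
  have hadd : ∀ l x y, act l (x + y) = act l x + act l y := fun l x y => hj (by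
    rw [map_add, hact, hact, hact, map_add, ap_add])
  have hsm : ∀ l (c : F) x, act l (c • x) = c • act l x := fun l c x => hj (by
    rw [map_smul, hact, hact, map_smul, ap_smul])
  have hmul : ∀ l m x, act (l * m) x = act l (act m x) := fun l m x => hj (by
    rw [hact, hact, hact, Subgroup.coe_mul, map_mul, ap_mul])
  have hone : ∀ x, act 1 x = x := fun x => hj (by rw [hact, Subgroup.coe_one, map_one, ap_one])
  let mk : levi Q T e f → orth Q' := fun l =>
    ⟨{ toFun := act l
       invFun := act l⁻¹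
       map_add' := hadd l
       map_smul' := hsm l
       left_inv := fun x => by rw [← hmul, inv_mul_cancel, hone]
       right_inv := fun x => by rw [← hmul, mul_inv_cancel, hone] }, by
      rw [mem_orth]
      intro x
      show Q' (act l x) = Q' x
      rw [← hQj, hact, Q_ap, hQj]⟩
  let σ' : levi Q T e f →* orth Q' :=
    { toFun := mk
      map_one' := ap_ext fun x => hone x
      map_mul' := fun l m => ap_ext fun x => hmul l m x }
  have hσ' : ∀ l x, j (ap (σ' l) x) = ap (σ l) (j x) := hact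
  let T' : W → W → levi Q T e f := fun a b =>
    if h : Q' a = 0 ∧ polar Q' a b = 0 then
      ⟨T (j a) (j b), C.T_mem_levi (hjmem a) (hjmem b) (by rw [hQj, h.1]) (by rw [hpj, h.2])⟩
    else 1
  have hT' : ∀ a b, Q' a = 0 → polar Q' a b = 0 → (T' a b : Γ) = T (j a) (j b) := fun a b h1 h2 => by
    simp only [T', dif_pos (And.intro h1 h2)]
  have hmap : ∀ (a b : W) (ha : Q' a = 0) (hb : polar Q' a b = 0), σ' (T' a b) = siegel Q' a b ha hb := by
    intro a b ha hb
    refine ap_ext fun x => hj ?_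
    rw [hσ', hT' a b ha hb, C.sT (by rw [hQj, ha]) (by rw [hpj, hb]), ap_siegel, map_sub, map_add,
      map_smul, map_smul, hpj, hpj, hQj]
  have hkerle := C.ker_le_levi
  have hfix : ∀ l : levi Q T e f, σ' l = 1 → σ l = 1 := fun l hl => ap_ext fun v => by
    obtain ⟨hle, hlf, -⟩ := C.levi_fix l.2
    obtain ⟨x, hx⟩ := hjsurj _ (C.mid_proj v)
    have h1 : ap (σ l) (j x) = j x := by rw [← hσ', hl, ap_one]
    rw [hx] at h1
    rw [ap_one]
    conv_lhs => rw [show v = polar Q f v • e + polar Q e v • f + (v - polar Q f v • e - polar Q e v • f) by abel]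
    rw [ap_add, ap_add, ap_smul, ap_smul, hle, hlf, h1]
    abel
  have hker : ∀ l : levi Q T e f, l ∈ σ'.ker ↔ (l : Γ) ∈ σ.ker := fun l => by
    rw [MonoidHom.mem_ker, MonoidHom.mem_ker]
    refine ⟨hfix l, fun h => ap_ext fun x => hj ?_⟩
    rw [hσ', h, ap_one, ap_one]
  refine ⟨σ', T', ⟨?_, ?_, ?_⟩, ⟨hmap, ?_, ?_, ?_, ?_, ?_⟩, ?_⟩
  · refine le_antisymm ?_ ?_
    · rintro _ ⟨⟨l, hl⟩, rfl⟩
      induction hl using Subgroup.closure_induction with
      | mem g hg =>
        obtain ⟨a, b, ha, hb, hQa, hab, rfl⟩ := hg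
        obtain ⟨x, rfl⟩ := hjsurj a ha
        obtain ⟨y, rfl⟩ := hjsurj b hb
        rw [hQj] at hQa
        rw [hpj] at hab
        have : σ' ⟨T (j x) (j y), Subgroup.subset_closure ⟨j x, j y, ha, hb, by rw [hQj, hQa], by rw [hpj, hab], rfl⟩⟩
            = siegel Q' x y hQa hab := by
          rw [← hmap x y hQa hab]
          exact congrArg σ' (Subtype.ext (hT' x y hQa hab).symm)
        rw [this]; exact siegel_mem_siegelGroup _ _
      | one =>
        exact (map_one σ').symm ▸ one_mem _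
      | mul g h hg hh ig ih =>
        have : σ' ⟨g * h, mul_mem hg hh⟩ = σ' ⟨g, hg⟩ * σ' ⟨h, hh⟩ := map_mul σ' ⟨g, hg⟩ ⟨h, hh⟩
        rw [this]; exact mul_mem ig ih
      | inv g hg ig =>
        have : σ' ⟨g⁻¹, inv_mem hg⟩ = (σ' ⟨g, hg⟩)⁻¹ := map_inv σ' ⟨g, hg⟩
        rw [this]; exact inv_mem ig
    · refine (Subgroup.closure_le _).2 ?_
      rintro _ ⟨a, b, ha, hb, rfl⟩
      exact ⟨T' a b, hmap a b ha hb⟩
  · intro l hl
    rw [Subgroup.mem_center_iff]
    exact fun m => Subtype.ext (Subgroup.mem_center_iff.1 (C.ext.central ((hker l).1 hl)) m)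
  · rw [eq_top_iff]
    refine (Subgroup.map_le_map_iff_of_injective (f := (levi Q T e f).subtype)
      (Subgroup.subtype_injective _)).1 ?_
    rw [← MonoidHom.range_eq_map, Subgroup.range_subtype, commutator_def, Subgroup.map_commutator,
      ← MonoidHom.range_eq_map, Subgroup.range_subtype]
    exact C.levi_le_commutator h2
  · intro a b b' ha hb hb'
    have hs : polar Q' a (b + b') = 0 := by rw [polar_add_right, hb, hb', add_zero]
    refine Subtype.ext ?_
    rw [Subgroup.coe_mul, hT' a b ha hb, hT' a b' ha hb', hT' a _ ha hs, map_add,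
      C.lifts.add _ _ _ (by rw [hQj, ha]) (by rw [hpj, hb]) (by rw [hpj, hb'])]
  · intro l a b ha hb
    refine Subtype.ext ?_
    rw [Subgroup.coe_mul, Subgroup.coe_mul, Subgroup.coe_inv, hT' a b ha hb,
      hT' _ _ (by rw [Q_ap, ha]) (by rw [polar_ap, hb]), hσ', hσ',
      C.lifts.equiv _ _ _ (by rw [hQj, ha]) (by rw [hpj, hb])]
  · intro c a b ha hb
    have hc : Q' (c • a) = 0 := by simp [QuadraticMap.map_smul, ha]
    have hc' : polar Q' (c • a) b = 0 := by simp [polar_smul_left, hb]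
    have hc'' : polar Q' a (c • b) = 0 := by simp [polar_smul_right, hb]
    refine Subtype.ext ?_
    rw [hT' _ b hc hc', hT' a _ ha hc'', map_smul, map_smul,
      C.lifts.smul c _ _ (by rw [hQj, ha]) (by rw [hpj, hb])]
  · intro c a b ha hb
    have hc : polar Q' a (b + c • a) = 0 := by
      rw [polar_add_right, hb, polar_smul_right, polar_singular_self ha, smul_zero, add_zero]
    refine Subtype.ext ?_
    rw [hT' a _ ha hc, hT' a b ha hb, map_add, map_smul,
      C.lifts.add_smul c _ _ (by rw [hQj, ha]) (by rw [hpj, hb])]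
  · intro a b ha hab hb
    have hba : polar Q' b (-a) = 0 := by rw [polar_neg_right, polar_comm, hab, neg_zero]
    refine Subtype.ext ?_
    rw [hT' b _ hb hba, hT' a b ha hab, map_neg,
      C.lifts.swap _ _ (by rw [hQj, ha]) (by rw [hpj, hab]) (by rw [hQj, hb])]
  · refine Nat.card_congr ⟨fun k => ⟨⟨k.1, hkerle k.2⟩, (hker _).2 k.2⟩,
      fun k => ⟨k.1.1, (hker _).1 k.2⟩, fun _ => rfl, fun _ => rfl⟩

end Frame

end CfsgLib.OrthMult
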